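import Mathlib
import Cfsg.Agent.Lib.Helper15.Ward.Defs

/-!
# Ward's theorem, piece A: the norm identity
-/

set_option autoImplicit false

namespace Cfsg.Agent.Lib.Helper7.Ward

open Subgroup Cfsg.Agent.Lib.Helper88 Cfsg.Agent.Lib.Helper15.Ward

variable {V : Type*} [CommGroup V]

theorem pow_conj_mem (D : Subgroup (MulAut V)) (b : MulAut V)
    (hbD : ∀ x ∈ D, b * x * b⁻¹ ∈ D) (i : ℕ) : ∀ x ∈ D, b ^ i * x * (b ^ i)⁻¹ ∈ D := by
  induction i with
  | zero => intro x hx; simpa using hx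
  | succ i ih =>
    intro x hx
    have : b ^ (i + 1) * x * (b ^ (i + 1))⁻¹ = b ^ i * (b * x * b⁻¹) * (b ^ i)⁻¹ := by
      rw [pow_succ]; group
    rw [this]
    exact ih _ (hbD x hx)

theorem apply_mem_commSub (D : Subgroup (MulAut V)) (β : MulAut V)
    (hβ : ∀ x ∈ D, β * x * β⁻¹ ∈ D) : ∀ w ∈ commSub D, β w ∈ commSub D := by
  have : commSub D ≤ (commSub D).comap β.toMonoidHom := by
    unfold commSub
    rw [Subgroup.closure_le]
    rintro _ ⟨α, hα, x, rfl⟩
    show β (x⁻¹ * α x) ∈ Subgroup.closure _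
    apply Subgroup.subset_closure
    refine ⟨β * α * β⁻¹, hβ α hα, β x, ?_⟩
    rw [map_mul, map_inv]
    simp [MulAut.mul_apply]
  intro w hw
  exact this hw

theorem prod_range_fixed {p : ℕ} (hp : 0 < p) (b : MulAut V) (hbp : b ^ p = 1) (u : V) :
    b (∏ i ∈ Finset.range p, (b ^ i) u) = ∏ i ∈ Finset.range p, (b ^ i) u := by
  obtain ⟨k, rfl⟩ : ∃ k, p = k + 1 := ⟨p - 1, by omega⟩
  rw [map_prod]
  have e : ∀ i, b ((b ^ i) u) = (b ^ (i + 1)) u := by
    intro i; rw [pow_succ', MulAut.mul_apply]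
  simp only [e]
  rw [Finset.prod_range_succ (fun i => (b ^ (i + 1)) u), hbp,
    Finset.prod_range_succ' (fun i => (b ^ i) u), pow_zero]

theorem lemmaL [Finite V] {p : ℕ} (hp : p.Prime) (D : Subgroup (MulAut V))
    (b y : MulAut V) (hDc : ∀ x ∈ D, ∀ x' ∈ D, x * x' = x' * x) (hbp : b ^ p = 1)
    (hbD : ∀ x ∈ D, b * x * b⁻¹ ∈ D) (hfix : ∀ x ∈ D, b * x = x * b → x = 1)
    (hyD : ∀ x ∈ D, y * x = x * y) (hyb : y * b = b * y) (hy : ∀ v : V, b v = v → y v = v)
    (hcop : (Nat.card D).Coprime (Nat.card V)) : ∀ w ∈ commSub D, y w = w := by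
  classical
  intro w hw
  let _ : Fintype D := Fintype.ofFinite D
  -- the norms
  have hN : ∀ z : D, y (∏ i ∈ Finset.range p, ((z : MulAut V) * b ^ i * (z : MulAut V)⁻¹) w) =
      ∏ i ∈ Finset.range p, ((z : MulAut V) * b ^ i * (z : MulAut V)⁻¹) w := by
    intro z
    have e : ∏ i ∈ Finset.range p, ((z : MulAut V) * b ^ i * (z : MulAut V)⁻¹) w =
        (z : MulAut V) (∏ i ∈ Finset.range p, (b ^ i) ((z : MulAut V)⁻¹ w)) := by
      rw [map_prod]
      rfl
    rw [e]
    have h1 := hy _ (prod_range_fixed hp.pos b hbp ((z : MulAut V)⁻¹ w))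
    have h2 : ∀ v : V, y ((z : MulAut V) v) = (z : MulAut V) (y v) := by
      intro v
      have := congrArg (fun f : MulAut V => f v) (hyD z z.2)
      exact this
    rw [h2, h1]
  -- the double product
  have hsum : ∏ z : D, ∏ i ∈ Finset.range p, ((z : MulAut V) * b ^ i * (z : MulAut V)⁻¹) w =
      w ^ Nat.card D := by
    rw [Finset.prod_comm]
    obtain ⟨k, hk⟩ : ∃ k, p = k + 1 := ⟨p - 1, by have := hp.pos; omega⟩
    rw [hk, Finset.prod_range_succ']
    have h0 : ∏ z : D, ((z : MulAut V) * b ^ 0 * (z : MulAut V)⁻¹) w = w ^ Nat.card D := by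
      simp [Nat.card_eq_fintype_card]
    rw [h0]
    have h1 : ∀ i ∈ Finset.range k,
        ∏ z : D, ((z : MulAut V) * b ^ (i + 1) * (z : MulAut V)⁻¹) w = 1 := by
      intro i hi
      have hik : i + 1 < p := by rw [hk]; have := Finset.mem_range.1 hi; omega
      set β := b ^ (i + 1) with hβ
      have hβD : ∀ x ∈ D, β * x * β⁻¹ ∈ D := pow_conj_mem D b hbD (i + 1)
      have hmem : ∀ z : D, (z : MulAut V) * β * (z : MulAut V)⁻¹ * β⁻¹ ∈ D := by
        intro z
        have : (z : MulAut V) * β * (z : MulAut V)⁻¹ * β⁻¹ =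
            (z : MulAut V) * (β * (z : MulAut V)⁻¹ * β⁻¹) := by group
        rw [this]
        exact D.mul_mem z.2 (hβD _ (D.inv_mem z.2))
      let e : D → D := fun z => ⟨(z : MulAut V) * β * (z : MulAut V)⁻¹ * β⁻¹, hmem z⟩
      have hcop' : (i + 1).Coprime (orderOf b) := by
        have h1 : (i + 1).Coprime p :=
          (Nat.coprime_of_lt_prime (by omega) hik hp).symm
        exact h1.coprime_dvd_right (orderOf_dvd_of_pow_eq_one hbp)
      obtain ⟨m, hm⟩ := exists_pow_eq_self_of_coprime hcop'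
      have hinj : Function.Injective e := by
        intro z z' hzz
        have h1 : (z : MulAut V) * β * (z : MulAut V)⁻¹ * β⁻¹ =
            (z' : MulAut V) * β * (z' : MulAut V)⁻¹ * β⁻¹ := congrArg Subtype.val hzz
        have h2 : Commute β ((z' : MulAut V)⁻¹ * (z : MulAut V)) := by
          have h3 : (z : MulAut V) * β * (z : MulAut V)⁻¹ = (z' : MulAut V) * β * (z' : MulAut V)⁻¹ :=
            mul_right_cancel h1
          show β * ((z' : MulAut V)⁻¹ * (z : MulAut V)) = ((z' : MulAut V)⁻¹ * (z : MulAut V)) * β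
          have h4 : β = (z' : MulAut V)⁻¹ * ((z : MulAut V) * β * (z : MulAut V)⁻¹) * (z' : MulAut V) := by
            rw [h3]; group
          calc β * ((z' : MulAut V)⁻¹ * (z : MulAut V))
              = ((z' : MulAut V)⁻¹ * ((z : MulAut V) * β * (z : MulAut V)⁻¹) * (z' : MulAut V)) *
                  ((z' : MulAut V)⁻¹ * (z : MulAut V)) := by rw [← h4]
            _ = ((z' : MulAut V)⁻¹ * (z : MulAut V)) * β := by group
        have h5 : Commute b ((z' : MulAut V)⁻¹ * (z : MulAut V)) := by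
          have := h2.pow_left m
          rwa [hβ, hm] at this
        have h6 := hfix _ (D.mul_mem (D.inv_mem z'.2) z.2) h5
        apply Subtype.ext
        exact (inv_mul_eq_one.1 h6).symm
      have hbij : Function.Bijective e := Finite.injective_iff_bijective.1 hinj
      have h2 : ∏ z : D, ((z : MulAut V) * β * (z : MulAut V)⁻¹) w =
          ∏ x : D, (x : MulAut V) (β w) := by
        apply Fintype.prod_bijective e hbij
        intro z
        show _ = ((z : MulAut V) * β * (z : MulAut V)⁻¹ * β⁻¹) (β w)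
        simp [MulAut.mul_apply]
      rw [h2, ← normMap_apply]
      exact commSub_le_ker D (apply_mem_commSub D β hβD w hw)
    rw [Finset.prod_eq_one h1, one_mul]
  have hfixw : y (w ^ Nat.card D) = w ^ Nat.card D := by
    rw [← hsum, map_prod]
    exact Finset.prod_congr rfl (fun z _ => hN z)
  have h3 : (y w * w⁻¹) ^ Nat.card D = 1 := by
    rw [mul_pow, inv_pow, ← map_pow, hfixw, mul_inv_cancel]
  have h4 : orderOf (y w * w⁻¹) ∣ Nat.card D := orderOf_dvd_of_pow_eq_one h3
  have h5 : orderOf (y w * w⁻¹) ∣ Nat.card V := orderOf_dvd_natCard _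
  have h6 : orderOf (y w * w⁻¹) = 1 := Nat.eq_one_of_dvd_coprimes hcop h4 h5
  exact mul_inv_eq_one.1 (orderOf_eq_one_iff.1 h6)

end Cfsg.Agent.Lib.Helper7.Ward
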