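import Cfsg.Agent.Lib.Helper7.MathieuSimple

set_option autoImplicit false
set_option linter.style.haveILetI false

namespace Cfsg.Agent.Lib.Helper7

open Cfsg Cfsg.Agent.Lib.Helper27 Subgroup MulAction
open scoped Pointwise

/-- conjugating a pair of point stabilisers -/
noncomputable def stabInfEquiv {G X : Type*} [Group G] [MulAction G X] (g : G) (a b : X) :
    ↥(stabilizer G a ⊓ stabilizer G b) ≃* ↥(stabilizer G (g • a) ⊓ stabilizer G (g • b)) :=
  ((MulAut.conj g).subgroupMap (stabilizer G a ⊓ stabilizer G b)).trans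
    (MulEquiv.subgroupCongr (by
      rw [stabilizer_smul_eq_stabilizer_map_conj g a, stabilizer_smul_eq_stabilizer_map_conj g b,
        ← MulEquiv.toMonoidHom_eq_coe, Subgroup.map_inf _ _ _ (MulAut.conj g).injective]))

def stabM24Equiv1 : stabilizer M24 (pt 23) ≃* fixer L1 where
  toFun g := ⟨g.1.1, ⟨g.1.2, fun m hm => by
    rw [L1, List.mem_singleton] at hm
    subst hm
    exact (smul_unmask_two_pow (by norm_num) _).2 g.2⟩⟩
  invFun g := ⟨⟨g.1, g.2.1⟩, (smul_unmask_two_pow (by norm_num) _).1 (g.2.2 (2 ^ 23) (by simp [L1]))⟩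
  left_inv _ := rfl
  right_inv _ := rfl
  map_mul' _ _ := rfl

def stabM24Equiv2 : ↥(stabilizer M24 (pt 23) ⊓ stabilizer M24 (pt 0)) ≃* fixer L2 where
  toFun g := ⟨g.1.1, ⟨g.1.2, fun m hm => by
    simp only [L2, List.mem_cons, List.not_mem_nil, or_false] at hm
    rcases hm with rfl | rfl
    · exact (smul_unmask_two_pow (by norm_num) _).2 g.2.2
    · exact (smul_unmask_two_pow (by norm_num) _).2 g.2.1⟩⟩
  invFun g := ⟨⟨g.1, g.2.1⟩,
    ⟨(smul_unmask_two_pow (by norm_num) _).1 (g.2.2 (2 ^ 23) (by simp [L2])),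
     (smul_unmask_two_pow (by norm_num) _).1 (g.2.2 (2 ^ 0) (by simp [L2]))⟩⟩
  left_inv _ := rfl
  right_inv _ := rfl
  map_mul' _ _ := rfl

theorem exists_M24_one (p : GolayPt) : ∃ g : M24, g • pt 23 = p := by
  obtain ⟨g, hg, h⟩ := trans0 p (by rw [unmask_full]; exact Finset.mem_univ p)
  exact ⟨⟨g, hg.1⟩, h⟩

theorem exists_M24_two (p q : GolayPt) (hpq : p ≠ q) : ∃ g : M24, g • pt 23 = p ∧ g • pt 0 = q := by
  obtain ⟨g, hg⟩ := exists_M24_one p
  have h1 : g⁻¹ • q ∈ unmask 8388607 := by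
    have : ∀ z : GolayPt, z ≠ pt 23 → z ∈ unmask 8388607 := by decide +kernel
    apply this
    intro h
    apply hpq
    rw [← hg, ← h, smul_inv_smul]
  obtain ⟨k, hk, h⟩ := trans1 _ h1
  have hk23 : k (pt 23) = pt 23 := (smul_unmask_two_pow (by norm_num) _).1 (hk.2 (2 ^ 23) (by simp [L1]))
  refine ⟨g * ⟨k, hk.1⟩, ?_, ?_⟩
  · rw [mul_smul]
    change g • (k (pt 23)) = p
    rw [hk23, hg]
  · rw [mul_smul]
    change g • (k (pt 0)) = q
    rw [h, smul_inv_smul]

theorem simple_M23 (p : GolayPt) : IsSimpleGroup (stabilizer M24 p) := by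
  obtain ⟨g, hg⟩ := exists_M24_one p
  haveI := simple_fixer_L1
  haveI : IsSimpleGroup (stabilizer M24 (pt 23)) := stabM24Equiv1.isSimpleGroup
  exact (stabilizerEquivStabilizer hg.symm).symm.isSimpleGroup

theorem simple_M22 (p q : GolayPt) (hpq : p ≠ q) :
    IsSimpleGroup ↥(stabilizer M24 p ⊓ stabilizer M24 q) := by
  obtain ⟨g, hg1, hg2⟩ := exists_M24_two p q hpq
  haveI := simple_fixer_L2
  haveI : IsSimpleGroup ↥(stabilizer M24 (pt 23) ⊓ stabilizer M24 (pt 0)) := stabM24Equiv2.isSimpleGroup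
  have := (stabInfEquiv g (pt 23) (pt 0)).symm.isSimpleGroup
  rwa [hg1, hg2] at this

end Cfsg.Agent.Lib.Helper7
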