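import Mathlib
import Cfsg.Agent.Lib.Helper15.Ward.Defs
import Cfsg.Agent.Lib.Helper66.PrimaryGen

/-!
# Ward's theorem, piece B: a non-nilpotent nilpotent-by-nilpotent group has a bad pair
-/

set_option autoImplicit false

namespace Cfsg.Agent.Lib.Helper7.Ward

open Subgroup Cfsg.Agent.Lib.Helper88 Cfsg.Agent.Lib.Helper15.Ward Cfsg.Agent.Lib.Helper22
open scoped commutatorElement

variable {Γ : Type*} [Group Γ]

/-- a `q`-subgroup of `K` normalizing the Sylow `q`-subgroup `Q` of `K` lies in `Q` -/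
theorem le_of_le_normalizer {q : ℕ} {Q K R : Subgroup Γ} (h : IsSylowIn q Q K)
    (hR : IsPGroup q R) (hRK : R ≤ K) (hRQ : R ≤ normalizer (Q : Set Γ)) : R ≤ Q := by
  have h1 : IsPGroup q (R ⊔ Q : Subgroup Γ) := hR.to_sup_of_normal_right' h.isPGroup hRQ
  have h2 := h.eq_of_le h1 (sup_le hRK h.le) le_sup_right
  exact le_sup_left.trans h2.le

theorem mem_normalizer_of_conj {q : ℕ} {Q K : Subgroup Γ} (h : IsSylowIn q Q K) (g : Γ)
    (h1 : ∀ y ∈ Q, g * y * g⁻¹ ∈ K ⊓ normalizer (Q : Set Γ))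
    (h2 : ∀ y ∈ Q, g⁻¹ * y * g ∈ K ⊓ normalizer (Q : Set Γ)) : g ∈ normalizer (Q : Set Γ) := by
  have k1 : conjS g Q ≤ Q := by
    apply le_of_le_normalizer h (h.isPGroup.map _)
    · rintro _ ⟨y, hy, rfl⟩
      exact (h1 y hy).1
    · rintro _ ⟨y, hy, rfl⟩
      exact (h1 y hy).2
  have k2 : conjS g⁻¹ Q ≤ Q := by
    apply le_of_le_normalizer h (h.isPGroup.map _)
    · rintro _ ⟨y, hy, rfl⟩
      have := (h2 y hy).1
      simpa using this
    · rintro _ ⟨y, hy, rfl⟩
      have := (h2 y hy).2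
      simpa using this
  rw [mem_normalizer_iff]
  intro y
  constructor
  · intro hy
    exact k1 (conjS_mem hy)
  · intro hy
    have := k2 (conjS_mem (g := g⁻¹) hy)
    simpa [mul_assoc] using this

theorem le_of_forall_isSylowIn [Finite Γ] (K E : Subgroup Γ)
    (h : ∀ q : ℕ, q.Prime → ∃ Q, IsSylowIn q Q E ∧ Q ≤ K) : E ≤ K := by
  have h1 : K.subgroupOf E = ⊤ := by
    apply Cfsg.Agent.Lib.Helper66.eq_top_of_sylow_le
    intro q hq
    obtain ⟨_, ⟨S, rfl⟩, hS⟩ := h q hq.out
    refine ⟨S, ?_⟩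
    intro x hx
    rw [mem_subgroupOf]
    exact hS (mem_map_of_mem _ hx)
  exact subgroupOf_eq_top.1 h1

/-- normalizers grow in a group that is nilpotent modulo the subgroup -/
theorem exists_mem_normalizer_of_lcs_le (N X : Subgroup Γ) (hNX : N ≤ X) (hne : ¬ X ≤ N) (k : ℕ) :
    X.lowerCentralSeries k ≤ N → ∃ x ∈ X, x ∉ N ∧ x ∈ normalizer (N : Set Γ) := by
  induction k with
  | zero => intro h; exact absurd h hne
  | succ k ih =>
    intro h
    by_cases hk : X.lowerCentralSeries k ≤ N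
    · exact ih hk
    · obtain ⟨x, hx, hxN⟩ := SetLike.not_le_iff_exists.1 hk
      have hxX : x ∈ X := Subgroup.lowerCentralSeries_antitone X (Nat.zero_le k) hx
      refine ⟨x, hxX, hxN, ?_⟩
      have key : ∀ z ∈ X.lowerCentralSeries k, ∀ n ∈ N, z * n * z⁻¹ ∈ N := by
        intro z hz n hn
        have h1 : ⁅z, n⁆ ∈ X.lowerCentralSeries (k + 1) :=
          commutator_mem_commutator hz (hNX hn)
        have h2 : z * n * z⁻¹ = ⁅z, n⁆ * n := by
          rw [commutatorElement_def]; group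
        rw [h2]
        exact N.mul_mem (h h1) hn
      rw [mem_normalizer_iff]
      intro n
      constructor
      · exact key x hx n
      · intro hn
        have := key x⁻¹ (inv_mem hx) _ hn
        simpa [mul_assoc] using this

theorem exists_bad_pair [Finite Γ] {p : ℕ} [Fact p.Prime] (X A E : Subgroup Γ)
    (hA : IsPGroup p A) (hpX : ¬ p ∣ Nat.card X) (hAX : A ≤ normalizer (X : Set Γ)) (hEX : E ≤ X)
    (hXE : X ≤ normalizer (E : Set Γ)) (hAE : A ≤ normalizer (E : Set Γ))
    (hE : ∃ k, E.lowerCentralSeries k = ⊥) (hXE' : ∃ k, X.lowerCentralSeries k ≤ E)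
    (hX : ¬ ∃ k, X.lowerCentralSeries k = ⊥) :
    ∃ (s q : ℕ) (S Q : Subgroup Γ), s.Prime ∧ q.Prime ∧ s ≠ q ∧ IsPGroup s S ∧ IsPGroup q Q ∧
      S ≤ X ∧ Q ≤ E ∧ A ≤ normalizer (S : Set Γ) ∧ A ≤ normalizer (Q : Set Γ) ∧
      X ≤ normalizer (Q : Set Γ) ∧ ¬ (S ≤ centralizer (Q : Set Γ)) := by
  by_contra hno
  apply hX
  rw [← isNilpotent_iff_lowerCentralSeries]
  have hEnil : Group.IsNilpotent E := (isNilpotent_iff_lowerCentralSeries E).2 hE
  -- the Sylow subgroups of `E`
  have hQ : ∀ q : ℕ, q.Prime → ∃ Q, IsSylowIn q Q E ∧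
      ∀ g ∈ normalizer (E : Set Γ), g ∈ normalizer (Q : Set Γ) := by
    intro q hq
    have : Fact q.Prime := ⟨hq⟩
    let S : Sylow q E := default
    have hSn : (S : Subgroup E).Normal := inferInstance
    have hsyl : IsSylowIn q ((S : Subgroup E).map E.subtype) E := ⟨S, rfl⟩
    have hEN : E ≤ normalizer (((S : Subgroup E).map E.subtype : Subgroup Γ) : Set Γ) := by
      rw [le_normalizer_iff]
      rintro e he _ ⟨y, hy, rfl⟩
      exact ⟨⟨e, he⟩ * y * ⟨e, he⟩⁻¹, hSn.conj_mem y hy _, rfl⟩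
    refine ⟨_, hsyl, ?_⟩
    intro g hg
    apply mem_normalizer_of_conj hsyl g
    · intro y hy
      have : g * y * g⁻¹ ∈ E := (mem_normalizer_iff.1 hg y).1 (hsyl.le hy)
      exact ⟨this, hEN this⟩
    · intro y hy
      have : g⁻¹ * y * g ∈ E := by
        have := (mem_normalizer_iff.1 (inv_mem hg) y).1 (hsyl.le hy)
        simpa using this
      exact ⟨this, hEN this⟩
  -- every prime has a normal Sylow subgroup in `X`
  have hS : ∀ s : ℕ, s.Prime → ∃ S, IsSylowIn s S X ∧ X ≤ normalizer (S : Set Γ) := by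
    intro s hs
    have : Fact s.Prime := ⟨hs⟩
    obtain ⟨S, hS, hAS⟩ := exists_invariant_isSylowIn A X hA hpX hAX s
    refine ⟨S, hS, ?_⟩
    have hES : E ≤ normalizer (S : Set Γ) := by
      apply le_of_forall_isSylowIn
      intro q hq
      obtain ⟨Q, hQs, hQn⟩ := hQ q hq
      refine ⟨Q, hQs, ?_⟩
      by_cases hsq : s = q
      · subst hsq
        have : Q ≤ S := by
          have h1 : IsPGroup s (S ⊔ Q : Subgroup Γ) :=
            hS.isPGroup.to_sup_of_normal_right' hQs.isPGroup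
              (fun x hx => hQn x (hXE (hS.le hx)))
          have h2 := hS.eq_of_le h1 (sup_le hS.le (hQs.le.trans hEX)) le_sup_left
          exact le_sup_right.trans h2.le
        exact this.trans le_normalizer
      · have hc : S ≤ centralizer (Q : Set Γ) := by
          by_contra hc
          exact hno ⟨s, q, S, Q, hs, hq, hsq, hS.isPGroup, hQs.isPGroup, hS.le, hQs.le, hAS,
            fun a ha => hQn a (hAE ha), fun x hx => hQn x (hXE hx), hc⟩
        have hc' : Q ≤ centralizer (S : Set Γ) := le_centralizer_iff.1 hc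
        exact hc'.trans (centralizer_le_normalizer _)
    by_contra hnot
    obtain ⟨k, hk⟩ := hXE'
    have hne : ¬ X ≤ X ⊓ normalizer (S : Set Γ) := fun h => hnot (h.trans inf_le_right)
    obtain ⟨x, hxX, hxN, hxn⟩ := exists_mem_normalizer_of_lcs_le (X ⊓ normalizer (S : Set Γ)) X
      inf_le_left hne k (hk.trans (le_inf hEX hES))
    apply hxN
    refine ⟨hxX, ?_⟩
    apply mem_normalizer_of_conj hS x
    · intro y hy
      exact (mem_normalizer_iff.1 hxn y).1 ⟨hS.le hy, le_normalizer hy⟩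
    · intro y hy
      have := (mem_normalizer_iff.1 (inv_mem hxn) y).1 ⟨hS.le hy, le_normalizer hy⟩
      simpa using this
  apply (Group.isNilpotent_of_finite_tfae (G := X)).out 3 0 rfl rfl |>.mp
  intro s hs P
  obtain ⟨S, hSs, hSn⟩ := hS s hs.out
  have h1 : (P : Subgroup X).map X.subtype ≤ S :=
    le_of_le_normalizer hSs (P.isPGroup'.map _) (map_subtype_le _)
      ((map_subtype_le _).trans hSn)
  have h2 : IsPGroup s (S.subgroupOf X) :=
    hSs.isPGroup.comap_of_injective X.subtype X.subtype_injective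
  have h3 : (P : Subgroup X) ≤ S.subgroupOf X := by
    intro x hx
    rw [mem_subgroupOf]
    exact h1 (mem_map_of_mem _ hx)
  have h4 := P.is_maximal' h2 h3
  rw [← h4]
  exact (normal_subgroupOf_iff_le_normalizer hSs.le).2 hSn

end Cfsg.Agent.Lib.Helper7.Ward
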