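import Cfsg.Agent.Lib.Helper7.Stem5

/-!
# Bounding Schur multipliers: a Sylow 2-subgroup `E : D8` (assembly)
-/

set_option autoImplicit false
set_option linter.style.haveILetI false

namespace Cfsg.Agent.Lib.Helper7

open Subgroup
open scoped commutatorElement

universe u v

variable {Γ : Type u} {G : Type v} [Group Γ] [Group G]

theorem card_map_of_inj (σ : Γ →* G) {N : Subgroup Γ} (hN : ∀ n ∈ N, σ n = 1 → n = 1) :
    Nat.card (N.map σ) = Nat.card N := by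
  let f : N → N.map σ := fun X => ⟨σ X, X, X.2, rfl⟩
  symm
  apply Nat.card_congr (Equiv.ofBijective f ⟨?_, ?_⟩)
  · intro X Y hXY
    have h1 : σ X = σ Y := congrArg Subtype.val hXY
    have h2 : (X : Γ) * (Y : Γ)⁻¹ = 1 :=
      hN _ (N.mul_mem X.2 (N.inv_mem Y.2)) (by rw [map_mul, map_inv, h1, mul_inv_cancel])
    exact Subtype.ext (mul_inv_eq_one.1 h2)
  · rintro ⟨_, X, hX, rfl⟩
    exact ⟨⟨X, hX⟩, rfl⟩

/-- a subgroup meeting the kernel trivially, of index prime to `p` modulo the kernel -/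
theorem ker_eq_bot_of_complement [Finite Γ] {σ : Γ →* G} (hσ : Cfsg.IsStemExtension σ) {p : ℕ}
    (hp : p.Prime) (hexp : ∀ x ∈ σ.ker, x ^ p = 1) (N : Subgroup Γ)
    (hN : ∀ n ∈ N, σ n = 1 → n = 1) (hG : ¬ p * Nat.card N ∣ Nat.card G) : σ.ker = ⊥ := by
  apply ker_eq_bot_of_index_coprime hσ hexp ((N.map σ).comap σ) N _ hN
  · rw [index_comap_of_surjective _ hσ.1, Nat.Prime.coprime_iff_not_dvd hp]
    intro h2
    apply hG
    rw [← (N.map σ).card_mul_index, card_map_of_inj σ hN, mul_comm p]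
    exact Nat.mul_dvd_mul_left _ h2
  · rintro x ⟨x', hx', hxx⟩ y ⟨y', hy', hyy⟩
    rw [Cfsg.Agent.Lib.Helper66.commutatorElement_eq_of_central σ hσ.2.1 hxx.symm hyy.symm]
    rw [commutatorElement_def]
    exact N.mul_mem (N.mul_mem (N.mul_mem hx' hy') (N.inv_mem hx')) (N.inv_mem hy')

/-- **Sylow 2-subgroup `E : D8`.** -/
theorem ker_eq_bot_of_E_D8 [Finite Γ] {σ : Γ →* G} (hσ : Cfsg.IsStemExtension σ)
    (hexp : ∀ x ∈ σ.ker, x ^ 2 = 1) (E : Subgroup G) (x0 : G) (hx0 : x0 * x0 = 1)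
    (hconj : ∀ e ∈ E, e = 1 ∨ ∃ k, e = k * x0 * k⁻¹)
    (x y v : G) (hx : x ∈ E) (hy : y ∈ E) (hv : v ∈ E)
    (hne : x ≠ 1 ∧ y ≠ 1 ∧ v ≠ 1 ∧ x * y ≠ 1 ∧ x * v ≠ 1 ∧ y * v ≠ 1 ∧ x * (y * v) ≠ 1)
    (ω s t : G) (hω : ∀ e ∈ E, ω * e * ω⁻¹ ∈ E ∧ ω⁻¹ * e * ω ∈ E)
    (hT : ∀ e ∈ E, e * (ω * e * ω⁻¹) * (ω⁻¹ * e * ω) = 1)
    (hs : ∃ k, s = k * x0 * k⁻¹) (ht : ∃ k, t = k * x0 * k⁻¹)
    (hst : ∃ k, s * t * s * t = k * x0 * k⁻¹)
    (hsE : ∀ e ∈ E, s * e * s⁻¹ ∈ E) (htE : ∀ e ∈ E, t * e * t⁻¹ ∈ E)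
    (hsω : s⁻¹ * ω * s = ω ∨ s⁻¹ * ω * s = ω⁻¹) (htω : t⁻¹ * ω * t = ω ∨ t⁻¹ * ω * t = ω⁻¹)
    (hD : s * t * s * t ∉ E ∧ s ∉ E ∧ (s * t * s * t)⁻¹ * s ∉ E ∧ t ∉ E ∧
      (s * t * s * t)⁻¹ * t ∉ E ∧ s⁻¹ * t ∉ E ∧ (s * t * s * t)⁻¹ * (s⁻¹ * t) ∉ E)
    (hG : ¬ 16 * Nat.card E ∣ Nat.card G) : σ.ker = ⊥ := by
  have hc : σ.ker ≤ center Γ := hσ.2.1
  have h2 : ∀ ζ ∈ σ.ker, ζ * ζ = 1 := fun ζ hζ => by rw [← pow_two]; exact hexp ζ hζ
  obtain ⟨X0, rfl⟩ := hσ.1 x0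
  have hq : X0 * X0 ∈ σ.ker := by rw [MonoidHom.mem_ker, map_mul, hx0]
  have claim1 : ∀ X, (∃ k, σ X = k * σ X0 * k⁻¹) → X * X = X0 * X0 := by
    rintro X ⟨k, hk⟩
    obtain ⟨K, rfl⟩ := hσ.1 k
    exact sq_lift_const σ hc h2 hq hk
  have claim2 : ∀ X, σ X ∈ E → σ X ≠ 1 → X * X = X0 * X0 := by
    intro X hX hX1
    rcases hconj _ hX with h | h
    · exact absurd h hX1
    · exact claim1 X h
  obtain ⟨X, rfl⟩ := hσ.1 x
  obtain ⟨Y, rfl⟩ := hσ.1 y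
  obtain ⟨V, rfl⟩ := hσ.1 v
  obtain ⟨n1, n2, n3, n4, n5, n6, n7⟩ := hne
  have hq1 : X0 * X0 = 1 := by
    apply sq_lift_eq_one σ hc h2 hq (claim2 X hx n1) (claim2 Y hy n2) (claim2 V hv n3)
    · exact claim2 (X * Y) (by rw [map_mul]; exact E.mul_mem hx hy) (by rw [map_mul]; exact n4)
    · exact claim2 (X * V) (by rw [map_mul]; exact E.mul_mem hx hv) (by rw [map_mul]; exact n5)
    · exact claim2 (Y * V) (by rw [map_mul]; exact E.mul_mem hy hv) (by rw [map_mul]; exact n6)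
    · exact claim2 (X * (Y * V)) (by rw [map_mul, map_mul]; exact E.mul_mem hx (E.mul_mem hy hv))
        (by rw [map_mul, map_mul]; exact n7)
  obtain ⟨w, rfl⟩ := hσ.1 ω
  obtain ⟨S, rfl⟩ := hσ.1 s
  obtain ⟨T, rfl⟩ := hσ.1 t
  have h : EHyp σ E w :=
    { hc := hc
      h2 := h2
      hE := by
        intro Z hZ
        by_cases hZ1 : σ Z = 1
        · exact h2 Z hZ1
        · rw [claim2 Z hZ hZ1, hq1]
      hw := hω
      hT := hT }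
  have hSS : S * S = 1 := by rw [claim1 S hs, hq1]
  have hTT : T * T = 1 := by rw [claim1 T ht, hq1]
  set D := S * T * S * T with hDdef
  have hσD : σ D = σ S * σ T * σ S * σ T := by rw [hDdef]; simp only [map_mul]
  have hDD : D * D = 1 := by rw [claim1 D (by rw [hσD]; exact hst), hq1]
  have eS : S⁻¹ = S := inv_eq_of_mul_eq_one_right hSS
  have eT : T⁻¹ = T := inv_eq_of_mul_eq_one_right hTT
  have eD : D⁻¹ = D := inv_eq_of_mul_eq_one_right hDD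
  have eD' : T * S * T * S = D := by
    rw [← eD, hDdef]
    simp only [mul_inv_rev, eS, eT, mul_assoc]
  have cS := h.E0_conj hsE hsω
  have cT := h.E0_conj htE htω
  have cD : ∀ Z ∈ h.E0, D * Z * D⁻¹ ∈ h.E0 := by
    intro Z hZ
    have : D * Z * D⁻¹ = S * (T * (S * (T * Z * T⁻¹) * S⁻¹) * T⁻¹) * S⁻¹ := by
      rw [hDdef]; group
    rw [this]
    exact cS _ (cT _ (cS _ (cT _ hZ)))
  have hDD' : D * D ∈ h.E0 := by rw [hDD]; exact one_mem _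
  set M3 := dbl h.E0 D hDD' cD with hM3
  have hDM3 : D ∈ M3 := self_mem_dbl _ _ _ _
  have hSD : S * D * S⁻¹ = D := by
    rw [eS]
    calc S * D * S = (S * S) * (T * S * T * S) := by rw [hDdef]; group
      _ = D := by rw [hSS, one_mul, eD']
  have hTD : T * D * T⁻¹ = D := by
    rw [eT]
    calc T * D * T = (T * S * T * S) * (T * T) := by rw [hDdef]; group
      _ = D := by rw [hTT, mul_one, eD']
  have cS3 : ∀ Z ∈ M3, S * Z * S⁻¹ ∈ M3 :=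
    conj_mem_dbl (fun n hn => le_dbl _ _ _ _ (cS n hn)) (by rw [hSD]; exact hDM3)
  have cT3 : ∀ Z ∈ M3, T * Z * T⁻¹ ∈ M3 :=
    conj_mem_dbl (fun n hn => le_dbl _ _ _ _ (cT n hn)) (by rw [hTD]; exact hDM3)
  have hSS' : S * S ∈ M3 := by rw [hSS]; exact one_mem _
  set M2 := dbl M3 S hSS' cS3 with hM2
  have hSM2 : S ∈ M2 := self_mem_dbl _ _ _ _
  have hTS : T * S * T⁻¹ = S * D := by
    rw [eT]
    calc T * S * T = (S * S) * (T * S * T) := by rw [hSS, one_mul]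
      _ = S * D := by rw [hDdef]; group
  have cT2 : ∀ Z ∈ M2, T * Z * T⁻¹ ∈ M2 :=
    conj_mem_dbl (fun n hn => le_dbl _ _ _ _ (cT3 n hn))
      (by rw [hTS]; exact M2.mul_mem hSM2 (le_dbl _ _ _ _ hDM3))
  have hTT' : T * T ∈ M2 := by rw [hTT]; exact one_mem _
  set M1 := dbl M2 T hTT' cT2 with hM1
  obtain ⟨d1, d2, d3, d4, d5, d6, d7⟩ := hD
  rw [← hσD] at d1 d3 d5 d7
  -- images
  have i3 : ∀ n ∈ h.E0, σ n ≠ σ D := fun n hn hc' => d1 (hc' ▸ hn.1)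
  have key3 : ∀ (g : G), g ∉ E → (σ D)⁻¹ * g ∉ E → ∀ n ∈ M3, σ n ≠ g := by
    rintro g hg1 hg2 n (hn | hn) rfl
    · exact hg1 hn.1
    · apply hg2
      have := hn.1
      rwa [map_mul, map_inv] at this
  have i2 : ∀ n ∈ M3, σ n ≠ σ S := key3 _ d2 d3
  have i1 : ∀ n ∈ M2, σ n ≠ σ T := by
    rintro n (hn | hn) hc'
    · exact key3 _ d4 d5 n hn hc'
    · apply key3 _ d6 d7 _ hn
      rw [map_mul, map_inv, hc']
  have j3 := dbl_inj σ (hx2 := hDD') (hn := cD) h.E0_inj i3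
  have j2 := dbl_inj σ (hx2 := hSS') (hn := cS3) j3 i2
  have j1 := dbl_inj σ (hx2 := hTT') (hn := cT2) j2 i1
  have c3 := card_dbl _ _ hDD' cD (notMem_of_map_ne σ i3)
  have c2 := card_dbl _ _ hSS' cS3 (notMem_of_map_ne σ i2)
  have c1 := card_dbl _ _ hTT' cT2 (notMem_of_map_ne σ i1)
  apply ker_eq_bot_of_complement hσ Nat.prime_two hexp M1 j1
  rw [hM1, c1, c2, c3, h.card_E0 hσ.1]
  intro hdvd
  apply hG
  have : 2 * (2 * (2 * (2 * Nat.card E))) = 16 * Nat.card E := by ring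
  rwa [this] at hdvd

end Cfsg.Agent.Lib.Helper7
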