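import Cfsg.Agent.Lib.Helper7.Stem4
import Cfsg.Agent.Lib.Helper7.OutM12

/-!
# The Schur multiplier of `M11` is trivial
-/

set_option autoImplicit false
set_option linter.style.haveILetI false

namespace Cfsg.Agent.Lib.Helper7

open Cfsg Cfsg.Agent.Lib.Helper27

/-- Boolean comparison of two words in coded permutations -/
def wordEqB (w1 w2 : List ℕ) : Bool :=
  allBelow (fun i => Nat.beq (wordEnt w1 i) (wordEnt w2 i)) 24

theorem word_eq_iff {w1 w2 : List ℕ} (h1 : allList validCode w1 = true)
    (h2 : allList validCode w2 = true) :
    (w1.map permOf).prod = (w2.map permOf).prod ↔ wordEqB w1 w2 = true := by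
  rw [allList_iff] at h1 h2
  unfold wordEqB
  rw [allBelow_iff]
  constructor
  · intro h k hk
    rw [Nat.beq_eq]
    have e1 := idx_prod_apply w1 h1 (pt k)
    have e2 := idx_prod_apply w2 h2 (pt k)
    rw [idx_pt hk] at e1 e2
    rw [← e1, ← e2, h]
  · intro h
    ext1 p
    apply idx_injective
    rw [idx_prod_apply w1 h1, idx_prod_apply w2 h2]
    exact Nat.eq_of_beq_eq_true (h _ (idx_lt p))

theorem word_eq {w1 w2 : List ℕ} (h1 : allList validCode w1 = true)
    (h2 : allList validCode w2 = true) (h : wordEqB w1 w2 = true) :
    (w1.map permOf).prod = (w2.map permOf).prod := (word_eq_iff h1 h2).2 h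

theorem word_ne {w1 w2 : List ℕ} (h1 : allList validCode w1 = true)
    (h2 : allList validCode w2 = true) (h : wordEqB w1 w2 = false) :
    (w1.map permOf).prod ≠ (w2.map permOf).prod := by
  intro hc
  rw [(word_eq_iff h1 h2).1 hc] at h
  exact Bool.noConfusion h

/-- primes other than 2 and 3 -/
theorem not_sq_dvd_of_squarefree {p a b m : ℕ} (hp : p.Prime) (h2 : p ≠ 2) (h3 : p ≠ 3)
    (hm : Squarefree m) : ¬ p ^ 2 ∣ 2 ^ a * 3 ^ b * m := by
  intro h
  have c2 : Nat.Coprime (p ^ 2) (2 ^ a) :=
    Nat.Coprime.pow _ _ ((Nat.coprime_primes hp Nat.prime_two).2 h2)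
  have c3 : Nat.Coprime (p ^ 2) (3 ^ b) :=
    Nat.Coprime.pow _ _ ((Nat.coprime_primes hp Nat.prime_three).2 h3)
  have h1 : p ^ 2 ∣ m := (Nat.Coprime.mul_right c2 c3).dvd_of_dvd_mul_left h
  rw [pow_two] at h1
  exact hp.one_lt.ne' (Nat.isUnit_iff.1 (hm p h1))

def cA11 : ℕ := 604077954529176104625682193612619968
def cB11 : ℕ := 974421764120477162002732052473186496
def cU11 : ℕ := 984765784409758197788303441407641728
def cV11 : ℕ := 612218963835680564669868943779957024
def cG11 : ℕ := 944321390771573873146037076249621632

theorem multiplier_fixer_D1 : Cfsg.HasCyclicSchurMultiplier (fixer D1) 1 := by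
  apply trivial_multiplier_of_exponent
  intro p hp Γ _ _ σ hσ hexp
  by_cases h2 : p = 2
  · subst h2
    let a : fixer D1 := ⟨permOf cA11, permOf_mem_fixer (by decide +kernel)⟩
    let b : fixer D1 := ⟨permOf cB11, permOf_mem_fixer (by decide +kernel)⟩
    have ha : orderOf a = 8 := by
      apply orderOf_eq_prime_pow (p := 2) (n := 2)
      · intro h
        have h' := congrArg Subtype.val h
        exact word_ne (w1 := [cA11, cA11, cA11, cA11]) (w2 := []) (by decide +kernel)
          (by decide +kernel) (by decide +kernel) (by simpa [a, pow_succ, mul_assoc] using h')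
      · apply Subtype.ext
        have := word_eq (w1 := [cA11, cA11, cA11, cA11, cA11, cA11, cA11, cA11]) (w2 := [])
          (by decide +kernel) (by decide +kernel) (by decide +kernel)
        simpa [a, pow_succ, mul_assoc] using this
    have hb : b * b = 1 := by
      apply Subtype.ext
      have := word_eq (w1 := [cB11, cB11]) (w2 := [])
        (by decide +kernel) (by decide +kernel) (by decide +kernel)
      simpa [b] using this
    have hba : b * a * b⁻¹ = a ^ 3 := by
      rw [mul_inv_eq_iff_eq_mul]
      apply Subtype.ext
      have := word_eq (w1 := [cB11, cA11]) (w2 := [cA11, cA11, cA11, cB11])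
        (by decide +kernel) (by decide +kernel) (by decide +kernel)
      simpa [a, b, pow_succ, mul_assoc] using this
    apply ker_eq_bot_of_semidihedral hσ hexp ha hb hba
    rw [card_fixer_D1]; norm_num
  · by_cases h3 : p = 3
    · subst h3
      let a : fixer D1 := ⟨permOf cU11, permOf_mem_fixer (by decide +kernel)⟩
      let b : fixer D1 := ⟨permOf cV11, permOf_mem_fixer (by decide +kernel)⟩
      let g : fixer D1 := ⟨permOf cG11, permOf_mem_fixer (by decide +kernel)⟩
      have ha : orderOf a = 3 := by
        apply orderOf_eq_prime
        · apply Subtype.ext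
          have := word_eq (w1 := [cU11, cU11, cU11]) (w2 := [])
            (by decide +kernel) (by decide +kernel) (by decide +kernel)
          simpa [a, pow_succ, mul_assoc] using this
        · intro h
          have h' := congrArg Subtype.val h
          exact word_ne (w1 := [cU11]) (w2 := []) (by decide +kernel)
            (by decide +kernel) (by decide +kernel) (by simpa [a] using h')
      have hb : b ^ 3 = 1 := by
        apply Subtype.ext
        have := word_eq (w1 := [cV11, cV11, cV11]) (w2 := [])
          (by decide +kernel) (by decide +kernel) (by decide +kernel)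
        simpa [b, pow_succ, mul_assoc] using this
      have hb1 : b ≠ 1 := by
        intro h
        have h' := congrArg Subtype.val h
        exact word_ne (w1 := [cV11]) (w2 := []) (by decide +kernel)
          (by decide +kernel) (by decide +kernel) (by simpa [b] using h')
      have hab : a * b = b * a := by
        apply Subtype.ext
        have := word_eq (w1 := [cU11, cV11]) (w2 := [cV11, cU11])
          (by decide +kernel) (by decide +kernel) (by decide +kernel)
        simpa [a, b] using this
      have hga : g * a * g⁻¹ = a := by
        rw [mul_inv_eq_iff_eq_mul]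
        apply Subtype.ext
        have := word_eq (w1 := [cG11, cU11]) (w2 := [cU11, cG11])
          (by decide +kernel) (by decide +kernel) (by decide +kernel)
        simpa [a, g] using this
      have hgb : g * b * g⁻¹ = b⁻¹ := by
        rw [mul_inv_eq_iff_eq_mul, eq_inv_mul_iff_mul_eq]
        apply Subtype.ext
        have := word_eq (w1 := [cV11, cG11, cV11]) (w2 := [cG11])
          (by decide +kernel) (by decide +kernel) (by decide +kernel)
        simpa [b, g, mul_assoc] using this
      apply ker_eq_bot_of_reflection hσ hexp hab ha hb hb1 hga hgb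
      rw [card_fixer_D1]; norm_num
    · apply ker_eq_bot_of_not_sq_dvd hσ hp hexp
      rw [card_fixer_D1]
      exact not_sq_dvd_of_squarefree (a := 4) (b := 2) (m := 55) hp h2 h3 (by decide +kernel)

theorem multiplier_M11 : Cfsg.HasCyclicSchurMultiplier Spor.M11 1 := by
  rw [M11_eq_fixer]; exact multiplier_fixer_D1

end Cfsg.Agent.Lib.Helper7
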