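import Cfsg.Agent.Lib.Helper7.BlkTools

/-!
# Lists of coded involutions: checks, sortedness, weighted sums of labels
-/

set_option autoImplicit false

namespace Cfsg.Agent.Lib.Helper7.Blk

open Cfsg
open Cfsg.Agent.Lib.Helper27
open Cfsg.Agent.Lib.Helper92 (sumList sumList_cons mulU idCode memL memL_iff)

/-- Boolean disjunction. -/
def bOr (x y : Bool) : Bool := Bool.rec y true x

theorem bOr_eq (x y : Bool) : bOr x y = (x || y) := by cases x <;> rfl

/-- the code is in `M24` and of square `1`. -/
def chkInv (c : ℕ) : Bool := band (checkM24 c) (Nat.beq (mulU c c) idCode)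

theorem chkInv_iff {c : ℕ} : chkInv c = true ↔ checkM24 c = true ∧ mulU c c = idCode := by
  unfold chkInv
  rw [band_eq, Bool.and_eq_true, Nat.beq_eq]

/-- strictly increasing, in the interval `(lo, hi]`. -/
def incrB (l : List ℕ) : ℕ → ℕ → Bool :=
  List.rec (fun lo hi => Nat.ble lo hi) (fun a _ ih lo hi => band (Nat.blt lo a) (ih a hi)) l

theorem incrB_nil (lo hi : ℕ) : incrB [] lo hi = Nat.ble lo hi := rfl

theorem incrB_cons (a : ℕ) (l : List ℕ) (lo hi : ℕ) :
    incrB (a :: l) lo hi = band (Nat.blt lo a) (incrB l a hi) := rfl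

theorem incrB_spec : ∀ (l : List ℕ) (lo hi : ℕ), incrB l lo hi = true →
    l.Pairwise (· < ·) ∧ (∀ a ∈ l, lo < a ∧ a ≤ hi) ∧ lo ≤ hi := by
  intro l
  induction l with
  | nil =>
    intro lo hi h
    rw [incrB_nil] at h
    exact ⟨List.Pairwise.nil, fun a ha => absurd ha (List.not_mem_nil), Nat.le_of_ble_eq_true h⟩
  | cons a l ih =>
    intro lo hi h
    rw [incrB_cons, band_eq, Bool.and_eq_true] at h
    obtain ⟨h1, h2⟩ := h
    have h1' : lo < a := Nat.le_of_ble_eq_true h1
    obtain ⟨i1, i2, i3⟩ := ih a hi h2
    refine ⟨List.pairwise_cons.2 ⟨fun b hb => (i2 b hb).1, i1⟩, ?_, by omega⟩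
    intro b hb
    rcases List.mem_cons.1 hb with rfl | hb
    · exact ⟨h1', i3⟩
    · exact ⟨lt_trans h1' (i2 b hb).1, (i2 b hb).2⟩

/-- length. -/
def lenL (l : List ℕ) : ℕ := sumList (fun _ => 1) l

theorem lenL_eq (l : List ℕ) : lenL l = l.length := by
  induction l with
  | nil => rfl
  | cons a l ih =>
    unfold lenL at ih ⊢
    rw [sumList_cons, ih, List.length_cons, add_comm]

theorem sumList_append (f : ℕ → ℕ) (l l' : List ℕ) :
    sumList f (l ++ l') = sumList f l + sumList f l' := by
  induction l with
  | nil => simp [sumList]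
  | cons a l ih => rw [List.cons_append, sumList_cons, sumList_cons, ih, add_assoc]

/-- the weight of a label. -/
def wt (v : ℕ) : ℕ := Nat.shiftLeft 1 (Nat.mul 16 v)

theorem wt_eq (v : ℕ) : wt v = 2 ^ (16 * v) := by
  show 1 <<< (16 * v) = _
  rw [Nat.shiftLeft_eq, one_mul]

/-- the weighted sum of the labels in terms of the numbers of occurrences. -/
theorem sum_wt (f : ℕ → ℕ) (vs : List ℕ) (hvs : vs.Nodup) (l : List ℕ) (hf : ∀ c ∈ l, f c ∈ vs) :
    sumList (fun c => wt (f c)) l = (vs.map fun v => l.countP (fun c => f c == v) * wt v).sum := by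
  induction l with
  | nil => simp [sumList]
  | cons a l ih =>
    rw [sumList_cons, ih (fun c hc => hf c (List.mem_cons_of_mem _ hc))]
    have ha := hf a (List.mem_cons_self)
    clear ih hf
    induction vs with
    | nil => exact absurd ha (List.not_mem_nil)
    | cons v vs ihv =>
      rw [List.map_cons, List.map_cons, List.sum_cons, List.sum_cons, List.countP_cons]
      have hnd := List.nodup_cons.1 hvs
      by_cases hav : f a = v
      · have h1 : ∀ w ∈ vs, (a :: l).countP (fun c => f c == w) = l.countP (fun c => f c == w) := by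
          intro w hw
          rw [List.countP_cons]
          have : (f a == w) = false := by
            rw [beq_eq_false_iff_ne]
            rintro rfl
            exact hnd.1 (hav ▸ hw)
          simp [this]
        have h2 : (vs.map fun v => (a :: l).countP (fun c => f c == v) * wt v) =
            vs.map fun v => l.countP (fun c => f c == v) * wt v :=
          List.map_congr_left fun w hw => by rw [h1 w hw]
        rw [h2]
        simp only [hav, beq_self_eq_true, if_true]
        ring
      · have ha' : f a ∈ vs := by
          rcases List.mem_cons.1 ha with h | h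
          · exact absurd h hav
          · exact h
        have := ihv hnd.2 ha'
        have h3 : (f a == v) = false := by rw [beq_eq_false_iff_ne]; exact hav
        simp only [h3, Bool.false_eq_true, if_false, add_zero]
        rw [← this]
        ring

/-- the code fixes the points `23` and `0`. -/
def in22 (c : ℕ) : Bool := band (Nat.beq (ent c 23) 23) (Nat.beq (ent c 0) 0)

end Cfsg.Agent.Lib.Helper7.Blk
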