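import Mathlib
import Cfsg.Agent.Lib.Helper16.Nilpotent
import Cfsg.Agent.Lib.Helper16.Kulshammer

/-!
# A criterion for a finite group to have a single 2-block (algebraic part)

`k` is a field of characteristic `p`.

* `isNilpotent_of_sum_eq_zero` : if `P` is a normal `p`-subgroup of `G` with `C_G(P) ≤ P`, every
  central element of `k[G]` of augmentation `0` is nilpotent.
* `exists_pow_vanish` : Brauer map for an involution.
-/

set_option autoImplicit false

namespace Cfsg.Agent.Lib.Helper7.OneBlock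

open MonoidAlgebra Cfsg.Agent.Lib.Helper16

section nil

variable {k G : Type*} [Field k] [Group G] [Finite G] (p : ℕ) [Fact p.Prime] [CharP k p]

/-- If `y` is invariant under left multiplication by the normal `p`-subgroup `P ≥ C_G(P)` and the
central element `z` has augmentation `0`, then `z * y = 0`. -/
theorem mul_eq_zero_of_left_invariant' [Fintype G] (P : Subgroup G) [P.Normal] (hP : IsPGroup p P)
    (hC : Subgroup.centralizer (P : Set G) ≤ P)
    {z : MonoidAlgebra k G} (hz : z ∈ Zc k G) (hz0 : ∑ g, z.coeff g = 0)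
    (y : MonoidAlgebra k G) (hy : ∀ u ∈ P, single u (1 : k) * y = y) : z * y = 0 := by
  classical
  apply ext_coeff
  intro t
  have hy' : ∀ u ∈ P, ∀ h, y.coeff (u * h) = y.coeff h := by
    intro u hu h
    have := congrArg (fun x => x.coeff h) (hy u⁻¹ (P.inv_mem hu))
    simp only [coeff_single_mul_apply, inv_inv, one_mul] at this
    exact this
  have hzc := mem_center_iff_coeff.1 hz
  rw [coeff_mul_eq_sum, sum_eq_sum_centralizer p P hP]
  · simp only [coeff_zero, Finsupp.coe_zero, Pi.zero_apply]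
    have h1 : ∀ c ∈ Finset.univ.filter (fun x : G => x ∈ Subgroup.centralizer (P : Set G)),
        z.coeff c * y.coeff (c⁻¹ * t) = z.coeff c * y.coeff t := by
      intro c hc
      simp only [Finset.mem_filter, Finset.mem_univ, true_and] at hc
      rw [hy' c⁻¹ (P.inv_mem (hC hc))]
    rw [Finset.sum_congr rfl h1, ← Finset.sum_mul,
      ← sum_eq_sum_centralizer p P hP (fun g => z.coeff g) (fun q _ x => hzc x q), hz0, zero_mul]
  · intro u hu g
    rw [hzc]
    congr 1
    have h1 : (u * g * u⁻¹)⁻¹ * t = (u * (g⁻¹ * u⁻¹ * g)) * (g⁻¹ * t) := by group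
    rw [h1, hy']
    apply P.mul_mem hu
    have := (inferInstance : P.Normal).conj_mem u⁻¹ (P.inv_mem hu) g⁻¹
    simpa using this

/-- If `C_G(P) ≤ P` for a normal `p`-subgroup `P`, a central element of augmentation `0` is
nilpotent. -/
theorem isNilpotent_of_sum_eq_zero [Fintype G] (P : Subgroup G) [P.Normal] (hP : IsPGroup p P)
    (hC : Subgroup.centralizer (P : Set G) ≤ P)
    {z : MonoidAlgebra k G} (hz : z ∈ Zc k G) (hz0 : ∑ g, z.coeff g = 0) : IsNilpotent z := by
  classical
  have hcomm : ∀ x, x * z = z * x := Subalgebra.mem_center_iff.1 hz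
  obtain ⟨n, hn⟩ := (((LinearMap.eventually_isCompl_ker_pow_range_pow
    (LinearMap.mulLeft k z)).and (Filter.eventually_ge_atTop 1))).exists
  obtain ⟨hcompl, hn1⟩ := hn
  refine ⟨n, ?_⟩
  by_contra hne
  let _ : DistribMulAction P (MonoidAlgebra k G) :=
    DistribMulAction.compHom (MonoidAlgebra k G) ((MonoidAlgebra.of k G).comp P.subtype)
  have hsm : ∀ (u : P) (x : MonoidAlgebra k G), u • x = single (u : G) (1 : k) * x := fun u x => rfl
  obtain ⟨y, hy0, hyfix, hymem⟩ := exists_fixed_ne_zero (P := P) (W := MonoidAlgebra k G) p hP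
    (fun w => by
      rw [nsmul_eq_mul]
      have : ((p : ℕ) : MonoidAlgebra k G) = 0 := by
        rw [natCast_def, CharP.cast_eq_zero, single_zero]
      rw [this, zero_mul]) (z ^ n) hne
  have hpowcomm : ∀ x, x * z ^ n = z ^ n * x := fun x =>
    ((Commute.pow_right (show Commute x z from hcomm x) n)).eq
  have hyrange : y ∈ LinearMap.range ((LinearMap.mulLeft k z) ^ n) := by
    have hle : AddSubgroup.closure (Set.range fun u : P => u • z ^ n) ≤
        (LinearMap.range ((LinearMap.mulLeft k z) ^ n)).toAddSubgroup := by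
      rw [AddSubgroup.closure_le]
      rintro _ ⟨u, rfl⟩
      refine ⟨single (u : G) (1 : k), ?_⟩
      simp only [hsm]
      rw [LinearMap.pow_mulLeft, LinearMap.mulLeft_apply, hpowcomm]
    exact hle hymem
  have hzy : z * y = 0 := mul_eq_zero_of_left_invariant' p P hP hC hz hz0 y
    (fun u hu => hyfix ⟨u, hu⟩)
  have hyker : y ∈ LinearMap.ker ((LinearMap.mulLeft k z) ^ n) := by
    rw [LinearMap.mem_ker, LinearMap.pow_mulLeft, LinearMap.mulLeft_apply]
    obtain ⟨m, rfl⟩ := Nat.exists_eq_add_of_le hn1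
    rw [add_comm, pow_succ, mul_assoc, hzy, mul_zero]
  exact hy0 ((Submodule.mem_bot k).1 (hcompl.disjoint.le_bot ⟨hyker, hyrange⟩))

end nil

section brauer

variable {k G : Type*} [Field k] [Group G] [Fintype G] [CharP k 2]

/-- `g` commutes with an involution. -/
def EvenC (g : G) : Prop := ∃ t : G, t ≠ 1 ∧ t * t = 1 ∧ t * g = g * t

/-- the local hypothesis at the involution `t`: a `2`-subgroup `Q` of `C(t)`, normal in `C(t)`,
containing its centralizer in `C(t)`. -/
def LocalOK (t : G) : Prop :=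
  ∃ Q : Subgroup G, IsPGroup 2 Q ∧ (∀ q ∈ Q, t * q = q * t) ∧
    (∀ c, t * c = c * t → ∀ q ∈ Q, c * q * c⁻¹ ∈ Q) ∧
    (∀ c, t * c = c * t → (∀ q ∈ Q, q * c = c * q) → c ∈ Q)

omit [Fintype G] in
theorem mem_centralizer_zpowers {t c : G} :
    c ∈ Subgroup.centralizer ((Subgroup.zpowers t : Subgroup G) : Set G) ↔ t * c = c * t := by
  rw [Subgroup.mem_centralizer_iff]
  constructor
  · intro h
    exact h t (Subgroup.mem_zpowers t)
  · rintro h _ ⟨n, rfl⟩
    exact ((show Commute t c from h).zpow_left n).eq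

omit [Fintype G] in
theorem isPGroup_zpowers {t : G} (ht : t * t = 1) : IsPGroup 2 (Subgroup.zpowers t) := by
  rintro ⟨_, n, rfl⟩
  refine ⟨1, Subtype.ext ?_⟩
  show (t ^ n) ^ 2 ^ 1 = 1
  rw [pow_one, ← zpow_natCast, ← zpow_mul, mul_comm, zpow_mul, zpow_natCast, pow_two, ht, one_zpow]

theorem exists_pow_vanish {t : G} (ht : t * t = 1) (hQ : LocalOK t) {a : MonoidAlgebra k G}
    (ha : a ∈ Zc k G) (ha0 : ∑ g, a.coeff g = 0) :
    ∃ N, ∀ n, N ≤ n → ∀ c, t * c = c * t → (a ^ n).coeff c = 0 := by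
  classical
  have : Fact (Nat.Prime 2) := ⟨Nat.prime_two⟩
  obtain ⟨Q, hQ2, hQt, hQn, hQc⟩ := hQ
  set P : Subgroup G := Subgroup.zpowers t with hPdef
  have hP : IsPGroup 2 P := isPGroup_zpowers ht
  set H : Subgroup G := Subgroup.centralizer (P : Set G) with hH
  have hmemH : ∀ c, c ∈ H ↔ t * c = c * t := fun c => mem_centralizer_zpowers
  have hHN : H ≤ Subgroup.normalizer (P : Set G) := Subgroup.centralizer_le_normalizer _
  let φ := brauerHom (k := k) 2 P H hP le_rfl hHN
  set y := φ ⟨a, ha⟩ with hy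
  have hycoeff : ∀ (x : Zc k G) (h : H), (φ x).1.coeff h = x.1.coeff (h : G) := by
    intro x h
    show (brauerFun P H x.1).coeff h = _
    simp only [brauerFun, ofFun_coeff]
    rw [if_pos h.2]
  have hac := mem_center_iff_coeff.1 ha
  have hy0 : ∑ h : H, y.1.coeff h = 0 := by
    have h1 : ∀ h : H, y.1.coeff h = (fun g : G => if g ∈ H then a.coeff g else 0) (h : G) := by
      intro h
      rw [hy, hycoeff]
      simp [h.2]
    rw [Finset.sum_congr rfl fun h _ => h1 h,
      sum_coe_eq_sum_of_support H (fun g : G => if g ∈ H then a.coeff g else 0)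
        (fun g hg => if_neg hg), ← Finset.sum_filter,
      ← sum_eq_sum_centralizer 2 P hP (fun g => a.coeff g) (fun q _ x => hac x q), ha0]
  have hQH : Q ≤ H := fun q hq => (hmemH q).2 (hQt q hq)
  have : (Q.subgroupOf H).Normal := by
    constructor
    intro q hq c
    rw [Subgroup.mem_subgroupOf] at hq ⊢
    exact hQn c ((hmemH c).1 c.2) q hq
  have hQ2' : IsPGroup 2 (Q.subgroupOf H) := hQ2.comap_subtype
  have hcen : Subgroup.centralizer ((Q.subgroupOf H : Subgroup H) : Set H) ≤ Q.subgroupOf H := by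
    intro c hc
    rw [Subgroup.mem_subgroupOf]
    apply hQc c ((hmemH c).1 c.2)
    intro q hq
    have := hc ⟨q, hQH hq⟩ (Subgroup.mem_subgroupOf.2 hq)
    exact congrArg Subtype.val this
  obtain ⟨N, hN⟩ := isNilpotent_of_sum_eq_zero 2 (Q.subgroupOf H) hQ2' hcen y.2 hy0
  refine ⟨N, fun n hn c hc => ?_⟩
  have h1 : (φ (⟨a, ha⟩ ^ n)).1 = 0 := by
    rw [map_pow]
    show y.1 ^ n = 0
    exact pow_eq_zero_of_le hn hN
  have h2 := hycoeff (⟨a, ha⟩ ^ n) ⟨c, (hmemH c).2 hc⟩
  rw [h1] at h2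
  simpa using h2.symm

/-- all the involutions at once. -/
theorem exists_pow_vanish_all (hloc : ∀ t : G, t ≠ 1 → t * t = 1 → LocalOK t)
    {a : MonoidAlgebra k G} (ha : a ∈ Zc k G) (ha0 : ∑ g, a.coeff g = 0) :
    ∃ N, ∀ g, EvenC g → (a ^ N).coeff g = 0 := by
  classical
  have h : ∀ t : G, ∃ N, t ≠ 1 → t * t = 1 → ∀ n, N ≤ n → ∀ c, t * c = c * t →
      (a ^ n).coeff c = 0 := by
    intro t
    by_cases h1 : t ≠ 1 ∧ t * t = 1
    · obtain ⟨N, hN⟩ := exists_pow_vanish h1.2 (hloc t h1.1 h1.2) ha ha0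
      exact ⟨N, fun _ _ => hN⟩
    · exact ⟨0, fun h2 h3 => absurd ⟨h2, h3⟩ h1⟩
  choose f hf using h
  refine ⟨Finset.univ.sup f, ?_⟩
  rintro g ⟨t, ht1, ht2, htg⟩
  exact hf t ht1 ht2 _ (Finset.le_sup (Finset.mem_univ t)) g htg

end brauer

end Cfsg.Agent.Lib.Helper7.OneBlock
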