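import Mathlib
import Cfsg.Agent.Lib.Helper7.OneBlockA

/-!
# A criterion for a finite group to have a single 2-block (the classes of defect zero)
-/

set_option autoImplicit false

namespace Cfsg.Agent.Lib.Helper7.OneBlock

open MonoidAlgebra Cfsg.Agent.Lib.Helper16

section dz

variable {k G : Type*} [Field k] [Group G] [Fintype G] [DecidableEq G] [CharP k 2]

/-- the classification data: the elements commuting with no involution have their order in `S`, and
are determined up to conjugacy and inversion by their order; parity of the numbers of `x` with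
`x ^ 2 = 1` and `x * r ℓ` of order `ℓ'`. -/
structure Data (S : Finset ℕ) (r : ℕ → G) : Prop where
  odd : ∀ ℓ ∈ S, Odd ℓ
  cls : ∀ g : G, (orderOf g ∉ S ∧ EvenC g) ∨
    (orderOf g ∈ S ∧ (IsConj g (r (orderOf g)) ∨ IsConj g (r (orderOf g))⁻¹))
  par : ∀ ℓ ∈ S, ∀ ℓ' ∈ S,
    Even (Finset.univ.filter fun x : G => x * x = 1 ∧ orderOf (x * r ℓ) = ℓ').card

/-- the sum of `f (x * g)` over the `x` with `x ^ 2 = 1`. -/
def TT (f : G → k) (g : G) : k := ∑ x with x * x = 1, f (x * g)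

omit [CharP k 2] in
theorem TT_conj {f : G → k} (hc : ∀ c x, f (c * x * c⁻¹) = f x) (c g : G) :
    TT f (c * g * c⁻¹) = TT f g := by
  unfold TT
  rw [Finset.sum_filter, Finset.sum_filter, ← Equiv.sum_comp (MulAut.conj c).toEquiv]
  refine Finset.sum_congr rfl fun x _ => ?_
  have h1 : (MulAut.conj c).toEquiv x = c * x * c⁻¹ := rfl
  have h2 : c * x * c⁻¹ * (c * x * c⁻¹) = 1 ↔ x * x = 1 := by
    have : c * x * c⁻¹ * (c * x * c⁻¹) = c * (x * x) * c⁻¹ := by group
    rw [this]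
    constructor
    · intro h
      have := congrArg (fun y => c⁻¹ * y * c) h
      simpa [mul_assoc] using this
    · intro h; rw [h]; group
  have h3 : c * x * c⁻¹ * (c * g * c⁻¹) = c * (x * g) * c⁻¹ := by group
  rw [h1]
  simp only [h2, h3, hc]

omit [CharP k 2] in
theorem TT_inv {f : G → k} (hc : ∀ c x, f (c * x * c⁻¹) = f x) (g : G) :
    TT f g⁻¹ = TT (fun x => f x⁻¹) g := by
  unfold TT
  refine Finset.sum_congr rfl fun x hx => ?_
  simp only [Finset.mem_filter, Finset.mem_univ, true_and] at hx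
  have hx' : x⁻¹ = x := inv_eq_of_mul_eq_one_left hx
  show f (x * g⁻¹) = f (x * g)⁻¹
  rw [mul_inv_rev, hx', ← hc g (g⁻¹ * x)]
  congr 1
  group

theorem TT_rep {S : Finset ℕ} {r : ℕ → G} (D : Data S r) {f : G → k}
    (hc : ∀ c x, f (c * x * c⁻¹) = f x) (hi : ∀ x, f x⁻¹ = f x) (h0 : ∀ x, EvenC x → f x = 0)
    {ℓ : ℕ} (hℓ : ℓ ∈ S) : TT f (r ℓ) = 0 := by
  unfold TT
  have hconj : ∀ x y : G, IsConj x y → f x = f y := by
    intro x y h
    obtain ⟨c, hc'⟩ := isConj_iff.1 h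
    rw [← hc', hc]
  have h1 : ∀ x ∈ Finset.univ.filter (fun x : G => x * x = 1),
      f (x * r ℓ) = ∑ ℓ' ∈ S, if orderOf (x * r ℓ) = ℓ' then f (r ℓ') else 0 := by
    intro x _
    rcases D.cls (x * r ℓ) with ⟨h2, h3⟩ | ⟨h2, h3⟩
    · rw [h0 _ h3]
      symm
      apply Finset.sum_eq_zero
      intro ℓ' hℓ'
      rw [if_neg]
      rintro rfl
      exact h2 hℓ'
    · rw [Finset.sum_ite_eq S (orderOf (x * r ℓ)) (fun ℓ' => f (r ℓ')), if_pos h2]
      rcases h3 with h3 | h3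
      · exact hconj _ _ h3
      · rw [hconj _ _ h3, hi]
  rw [Finset.sum_congr rfl h1, Finset.sum_comm]
  apply Finset.sum_eq_zero
  intro ℓ' hℓ'
  rw [← Finset.sum_filter, Finset.sum_const, Finset.filter_filter]
  obtain ⟨m, hm⟩ := D.par ℓ hℓ ℓ' hℓ'
  rw [hm, ← two_mul, mul_smul, nsmul_eq_mul, Nat.cast_ofNat, CharTwo.two_eq_zero, zero_mul]

theorem TT_eq_zero {S : Finset ℕ} {r : ℕ → G} (D : Data S r) {f : G → k}
    (hc : ∀ c x, f (c * x * c⁻¹) = f x) (hi : ∀ x, f x⁻¹ = f x) (h0 : ∀ x, EvenC x → f x = 0)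
    {g : G} (hg : orderOf g ∈ S) : TT f g = 0 := by
  rcases D.cls g with ⟨h2, _⟩ | ⟨_, h3 | h3⟩
  · exact absurd hg h2
  · obtain ⟨c, hc'⟩ := isConj_iff.1 h3
    rw [← TT_conj hc c g, hc', TT_rep D hc hi h0 hg]
  · obtain ⟨c, hc'⟩ := isConj_iff.1 h3
    rw [← TT_conj hc c g, hc', TT_inv hc]
    have : (fun x => f x⁻¹) = f := funext hi
    rw [this, TT_rep D hc hi h0 hg]

omit [Fintype G] [DecidableEq G] in
theorem EvenC.inv {g : G} (h : EvenC g) : EvenC g⁻¹ := by
  obtain ⟨t, h1, h2, h3⟩ := h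
  exact ⟨t, h1, h2, ((show Commute t g from h3).inv_right).eq⟩

omit [DecidableEq G] in
theorem mul_vanish {z w : MonoidAlgebra k G} (hz : z ∈ Zc k G) (hw : w ∈ Zc k G)
    (h0 : ∀ g, EvenC g → z.coeff g = 0) : ∀ g, EvenC g → (z * w).coeff g = 0 := by
  classical
  have : Fact (Nat.Prime 2) := ⟨Nat.prime_two⟩
  rintro g ⟨t, h1, h2, h3⟩
  rw [coeff_mul_of_centralizes 2 hz hw (Subgroup.zpowers t) (isPGroup_zpowers h2) g
    (mem_centralizer_zpowers.2 h3)]
  apply Finset.sum_eq_zero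
  intro x hx
  simp only [Finset.mem_filter, Finset.mem_univ, true_and] at hx
  rw [h0 x ⟨t, h1, h2, mem_centralizer_zpowers.1 hx⟩, zero_mul]

theorem coeff_sq_eq {z : MonoidAlgebra k G} (hz : z ∈ Zc k G) (h : G) :
    (z ^ 2).coeff (h ^ 2) = (TT (fun x => z.coeff x) h) ^ 2 := by
  have : Fact (Nat.Prime 2) := ⟨Nat.prime_two⟩
  have h1 := sum_coeff_pow_eq 2 z h ((Subalgebra.mem_center_iff.1 hz (single h⁻¹ 1)).symm) 1
  simp only [pow_one] at h1
  rw [← h1]
  unfold TT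
  rw [Finset.sum_filter]
  simp only [pow_two]

omit [Fintype G] [DecidableEq G] in
theorem exists_sqrt {g : G} (h : Odd (orderOf g)) : ∃ h : G, h ^ 2 = g ∧ orderOf h = orderOf g := by
  obtain ⟨j, hj⟩ := h
  refine ⟨g ^ (j + 1), ?_, ?_⟩
  · rw [← pow_mul]
    have : (j + 1) * 2 = orderOf g + 1 := by rw [hj]; ring
    rw [this, pow_succ, pow_orderOf_eq_one, one_mul]
  · apply Nat.Coprime.orderOf_pow
    rw [hj]
    exact Nat.isCoprime_iff_coprime.1 ⟨-1, 2, by push_cast; ring⟩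

theorem sq_eq_zero_of_symm {S : Finset ℕ} {r : ℕ → G} (D : Data S r) {z : MonoidAlgebra k G}
    (hz : z ∈ Zc k G) (h0 : ∀ g, EvenC g → z.coeff g = 0) (hi : ∀ x, z.coeff x⁻¹ = z.coeff x) :
    z ^ 2 = 0 := by
  apply ext_coeff
  intro g
  have hzc := mem_center_iff_coeff.1 hz
  rcases D.cls g with ⟨_, h3⟩ | ⟨h2, _⟩
  · rw [pow_two, mul_vanish hz hz h0 g h3]; simp
  · obtain ⟨h, hh, ho⟩ := exists_sqrt (D.odd _ h2)
    rw [← hh, coeff_sq_eq hz, TT_eq_zero D (f := fun x => z.coeff x) (fun c x => hzc x c) hi h0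
      (by rw [ho]; exact h2)]
    simp

theorem pow_four_eq_zero {S : Finset ℕ} {r : ℕ → G} (D : Data S r) {z : MonoidAlgebra k G}
    (hz : z ∈ Zc k G) (h0 : ∀ g, EvenC g → z.coeff g = 0) : z ^ 4 = 0 := by
  have hzc := mem_center_iff_coeff.1 hz
  have hw : z ^ 2 ∈ Zc k G := Subalgebra.pow_mem _ hz 2
  have hw0 : ∀ g, EvenC g → (z ^ 2).coeff g = 0 := by
    intro g hg
    rw [pow_two]; exact mul_vanish hz hz h0 g hg
  have hwi : ∀ x, (z ^ 2).coeff x⁻¹ = (z ^ 2).coeff x := by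
    intro x
    rcases D.cls x with ⟨_, h3⟩ | ⟨h2, _⟩
    · rw [hw0 x h3, hw0 _ h3.inv]
    · obtain ⟨h, hh, ho⟩ := exists_sqrt (D.odd _ h2)
      have hh' : x⁻¹ = h⁻¹ ^ 2 := by rw [inv_pow, hh]
      rw [hh', coeff_sq_eq hz, ← hh, coeff_sq_eq hz, TT_inv (fun c x => hzc x c)]
      have h4 : TT (fun x => z.coeff x + z.coeff x⁻¹) h = 0 := by
        apply TT_eq_zero D _ _ _ (by rw [ho]; exact h2)
        · intro c y
          have : (c * y * c⁻¹)⁻¹ = c * y⁻¹ * c⁻¹ := by group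
          rw [this, hzc, hzc]
        · intro y
          rw [inv_inv, add_comm]
        · intro y hy
          rw [h0 y hy, h0 _ hy.inv, add_zero]
      have h5 : TT (fun x => z.coeff x + z.coeff x⁻¹) h =
          TT (fun x => z.coeff x) h + TT (fun x => z.coeff x⁻¹) h := by
        unfold TT
        rw [← Finset.sum_add_distrib]
      rw [h5, CharTwo.add_eq_zero] at h4
      rw [h4]
  have := sq_eq_zero_of_symm D hw hw0 hwi
  rw [← pow_mul] at this
  exact this

/-- **all the algebra homomorphisms `Z(kG) → k` are the augmentation.** -/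
theorem algHom_eq_sum (hloc : ∀ t : G, t ≠ 1 → t * t = 1 → LocalOK t) {S : Finset ℕ} {r : ℕ → G}
    (D : Data S r) (Λ : Zc k G →ₐ[k] k) (z : Zc k G) : Λ z = ∑ g, z.1.coeff g := by
  set e : k := ∑ g, z.1.coeff g with he
  set a : Zc k G := z - e • 1 with ha
  have ha0 : ∑ g, a.1.coeff g = 0 := by
    have h1 : ∀ g, a.1.coeff g = z.1.coeff g - e * (if g = 1 then 1 else 0) := by
      intro g
      have : a.1 = z.1 - e • (1 : MonoidAlgebra k G) := rfl
      rw [this, coeff_sub, coeff_smul, Finsupp.sub_apply, Finsupp.smul_apply, coeff_one_eq,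
        smul_eq_mul]
    rw [Finset.sum_congr rfl fun g _ => h1 g, Finset.sum_sub_distrib, ← Finset.mul_sum,
      Finset.sum_ite_eq' Finset.univ (1 : G) (fun _ => (1 : k)), if_pos (Finset.mem_univ _),
      mul_one, sub_self]
  obtain ⟨N, hN⟩ := exists_pow_vanish_all hloc a.2 ha0
  have h4 := pow_four_eq_zero D (Subalgebra.pow_mem _ a.2 N) hN
  have h5 : a ^ (N * 4) = 0 := by
    apply Subtype.ext
    rw [pow_mul]
    exact h4
  have h6 : Λ a = 0 := by
    have := congrArg Λ h5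
    rw [map_pow, map_zero] at this
    exact eq_zero_of_pow_eq_zero this
  rw [ha, map_sub, map_smul, map_one, smul_eq_mul, mul_one, sub_eq_zero] at h6
  exact h6

end dz

end Cfsg.Agent.Lib.Helper7.OneBlock
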