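import Mathlib
import Cfsg.Agent.Lib.Helper7.OneBlockB

/-!
# The classification hypothesis of the one-block criterion, via Sylow's theorem
-/

set_option autoImplicit false

namespace Cfsg.Agent.Lib.Helper7.OneBlock

variable {G : Type*} [Group G]

theorem orderOf_conj' (c g : G) : orderOf (c * g * c⁻¹) = orderOf g :=
  (SemiconjBy.orderOf_eq c (show SemiconjBy c g (c * g * c⁻¹) by
    unfold SemiconjBy; group)).symm

/-- an element of `p`-power order is conjugate into a subgroup of order `p ^ e` when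
`p ^ (e + 1)` does not divide the order of the group. -/
theorem exists_conj_mem [Finite G] {p e : ℕ} [Fact p.Prime] (P : Subgroup G)
    (hP : Nat.card P = p ^ e) (hG : ¬ p ^ (e + 1) ∣ Nat.card G) (g : G)
    (hg : ∃ i, orderOf g = p ^ i) : ∃ c : G, c * g * c⁻¹ ∈ P := by
  have hp : p.Prime := Fact.out
  have hne : Nat.card G ≠ 0 := Nat.card_pos.ne'
  have hfac : (Nat.card G).factorization p = e := by
    have h1 : e ≤ (Nat.card G).factorization p := by
      rw [← hp.pow_dvd_iff_le_factorization hne, ← hP]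
      exact Subgroup.card_subgroup_dvd_card P
    have h2 : ¬ e + 1 ≤ (Nat.card G).factorization p := by
      rw [← hp.pow_dvd_iff_le_factorization hne]; exact hG
    omega
  let S : Sylow p G := Sylow.ofCard P (by rw [hfac, hP])
  obtain ⟨i, hi⟩ := hg
  have hz : IsPGroup p (Subgroup.zpowers g) := IsPGroup.of_card (n := i) (by rw [Nat.card_zpowers, hi])
  obtain ⟨Q, hQ⟩ := hz.exists_le_sylow
  obtain ⟨c, hc⟩ := MulAction.exists_smul_eq G Q S
  refine ⟨c, ?_⟩
  have h1 : c * g * c⁻¹ ∈ ((c • Q : Sylow p G) : Subgroup G) := by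
    rw [Sylow.coe_subgroup_smul]
    exact ⟨g, hQ (Subgroup.mem_zpowers g), by simp⟩
  rw [hc] at h1
  exact h1

/-- the alternative of the classification hypothesis. -/
def KK (S : Finset ℕ) (r : ℕ → G) (g : G) : Prop :=
  (orderOf g ∉ S ∧ EvenC g) ∨
    (orderOf g ∈ S ∧ (IsConj g (r (orderOf g)) ∨ IsConj g (r (orderOf g))⁻¹))

theorem EvenC.of_conj {c g : G} (h : EvenC (c * g * c⁻¹)) : EvenC g := by
  obtain ⟨t, h1, h2, h3⟩ := h
  refine ⟨c⁻¹ * t * c, ?_, ?_, ?_⟩
  · intro e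
    apply h1
    have := congrArg (fun y => c * y * c⁻¹) e
    simpa [mul_assoc] using this
  · calc c⁻¹ * t * c * (c⁻¹ * t * c) = c⁻¹ * (t * t) * c := by group
      _ = 1 := by rw [h2]; group
  · calc c⁻¹ * t * c * g = c⁻¹ * (t * (c * g * c⁻¹)) * c := by group
      _ = c⁻¹ * (c * g * c⁻¹ * t) * c := by rw [h3]
      _ = g * (c⁻¹ * t * c) := by group

theorem KK.of_conj {S : Finset ℕ} {r : ℕ → G} {c g : G} (h : KK S r (c * g * c⁻¹)) : KK S r g := by
  unfold KK at h ⊢
  rw [orderOf_conj'] at h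
  have hc : IsConj g (c * g * c⁻¹) := isConj_iff.2 ⟨c, rfl⟩
  rcases h with ⟨h1, h2⟩ | ⟨h1, h2 | h2⟩
  · exact Or.inl ⟨h1, h2.of_conj⟩
  · exact Or.inr ⟨h1, Or.inl (hc.trans h2)⟩
  · exact Or.inr ⟨h1, Or.inr (hc.trans h2)⟩

theorem evenC_of_even_order [Finite G] {g : G} (h : 2 ∣ orderOf g) : EvenC g := by
  obtain ⟨m, hm⟩ := h
  have hpos : 0 < orderOf g := orderOf_pos g
  refine ⟨g ^ m, ?_, ?_, ?_⟩
  · exact pow_ne_one_of_lt_orderOf (by omega) (by omega)
  · rw [← pow_add, ← two_mul, ← hm, pow_orderOf_eq_one]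
  · exact ((Commute.refl g).pow_left m).eq

/-- **reduction of the classification hypothesis** to centralizers of elements of prime order `p`
(`p ^ 2 ∤ |G|`) and to one Sylow subgroup. -/
theorem cls_of_sylow [Finite G] {S : Finset ℕ} {r : ℕ → G} (hodd : ∀ ℓ ∈ S, Odd ℓ) (ps : List ℕ)
    (hps : ∀ p ∈ ps, p.Prime ∧ ¬ p ^ 2 ∣ Nat.card G ∧
      ∃ h : G, orderOf h = p ∧ ∀ x, x * h = h * x → KK S r x)
    {q e : ℕ} (hq : q.Prime) (P : Subgroup G) (hP : Nat.card P = q ^ e)
    (hqG : ¬ q ^ (e + 1) ∣ Nat.card G) (hPK : ∀ x ∈ P, KK S r x)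
    (hprimes : ∀ p, p.Prime → p ∣ Nat.card G → p = 2 ∨ p = q ∨ p ∈ ps) (g : G) : KK S r g := by
  have hpos : 0 < orderOf g := orderOf_pos g
  by_cases h2 : 2 ∣ orderOf g
  · refine Or.inl ⟨fun hS => ?_, evenC_of_even_order h2⟩
    exact (Nat.not_even_iff_odd.2 (hodd _ hS)) (even_iff_two_dvd.2 h2)
  by_cases h3 : ∃ p ∈ ps, p ∣ orderOf g
  · obtain ⟨p, hp, hpd⟩ := h3
    obtain ⟨hpp, hp2, h, hho, hK⟩ := hps p hp
    have : Fact p.Prime := ⟨hpp⟩
    set y := g ^ (orderOf g / p) with hy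
    have hyo : orderOf y = p := orderOf_pow_orderOf_div hpos.ne' hpd
    obtain ⟨c, hc⟩ := exists_conj_mem (p := p) (e := 1) (Subgroup.zpowers h)
      (by rw [Nat.card_zpowers, hho, pow_one]) hp2 y ⟨1, by rw [hyo, pow_one]⟩
    apply KK.of_conj (c := c)
    apply hK
    have hle : Subgroup.zpowers (c * y * c⁻¹) ≤ Subgroup.zpowers h :=
      Subgroup.zpowers_le.2 hc
    have heq : Subgroup.zpowers (c * y * c⁻¹) = Subgroup.zpowers h := by
      apply Subgroup.eq_of_le_of_card_ge hle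
      rw [Nat.card_zpowers, Nat.card_zpowers, orderOf_conj', hyo, hho]
    have hmem : h ∈ Subgroup.zpowers (c * y * c⁻¹) := by rw [heq]; exact Subgroup.mem_zpowers h
    obtain ⟨k, hk⟩ := hmem
    have hcomm : Commute (c * g * c⁻¹) (c * y * c⁻¹) := by
      have : c * y * c⁻¹ = (c * g * c⁻¹) ^ (orderOf g / p) := by
        rw [hy, conj_pow]
      rw [this]
      exact (Commute.refl _).pow_right _
    rw [← hk]
    exact (hcomm.zpow_right k).eq
  · have : Fact q.Prime := ⟨hq⟩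
    have hpow : orderOf g = q ^ (orderOf g).primeFactorsList.length := by
      apply Nat.eq_prime_pow_of_unique_prime_dvd hpos.ne'
      intro d hd hdd
      rcases hprimes d hd (hdd.trans (orderOf_dvd_natCard g)) with rfl | rfl | h
      · exact absurd hdd h2
      · rfl
      · exact absurd ⟨d, h, hdd⟩ h3
    obtain ⟨c, hc⟩ := exists_conj_mem P hP hqG g ⟨_, hpow⟩
    exact KK.of_conj (hPK _ hc)

end Cfsg.Agent.Lib.Helper7.OneBlock
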