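import Cfsg.Agent.Lib.Helper92.M24InvolCent
import Cfsg.Agent.Lib.Helper92.CodeGroup
import Cfsg.Agent.Lib.Helper7.BlkCount
import Cfsg.Agent.Lib.Helper7.OneBlockD

/-!
# Certificates for the classification hypothesis of the one-block criterion
-/

set_option autoImplicit false

namespace Cfsg.Agent.Lib.Helper7.Blk

open Cfsg
open Cfsg.Agent.Lib.Helper27
open Cfsg.Agent.Lib.Helper92 (mulU idCode mulU_eq_idCode_iff mulU_eq_iff powU permOf_powU isId
  permOf_eq_one_iff memL memL_iff permOf_idCode SChain allP M24_forall interB interB_iff_QC QC)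
open Cfsg.Agent.Lib.Helper7.OneBlock

/-- the alternative of the classification hypothesis, in the ambient symmetric group. -/
def KA (Γ : Subgroup (Equiv.Perm GolayPt)) (S : Finset ℕ) (R : ℕ → Equiv.Perm GolayPt)
    (x : Equiv.Perm GolayPt) : Prop :=
  (orderOf x ∉ S ∧ ∃ t ∈ Γ, t ≠ 1 ∧ t * t = 1 ∧ t * x = x * t) ∨
    (orderOf x ∈ S ∧ ∃ k ∈ Γ, k * x * k⁻¹ = R (orderOf x) ∨ k * x * k⁻¹ = (R (orderOf x))⁻¹)

theorem KK_of_KA {Γ : Subgroup (Equiv.Perm GolayPt)} {S : Finset ℕ} {R : ℕ → Equiv.Perm GolayPt}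
    {r : ℕ → Γ} (hr : ∀ ℓ ∈ S, (r ℓ : Equiv.Perm GolayPt) = R ℓ) {x : Γ}
    (h : KA Γ S R (x : Equiv.Perm GolayPt)) : KK S r x := by
  unfold KA at h
  unfold KK
  rw [Subgroup.orderOf_coe] at h
  rcases h with ⟨h1, t, ht, t1, t2, t3⟩ | ⟨h1, k, hk, h2⟩
  · exact Or.inl ⟨h1, ⟨t, ht⟩, fun e => t1 (congrArg Subtype.val e), Subtype.ext t2, Subtype.ext t3⟩
  · refine Or.inr ⟨h1, ?_⟩
    rw [← hr _ h1] at h2
    rcases h2 with h2 | h2
    · exact Or.inl (isConj_iff.2 ⟨⟨k, hk⟩, Subtype.ext h2⟩)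
    · exact Or.inr (isConj_iff.2 ⟨⟨k, hk⟩, Subtype.ext h2⟩)

/-- a certificate `(code, kind, a, w)`: kind `0`: the code has exponent `a` (not a multiple of an
element of `S`) and commutes with the involution `w`; kind `1` (`2`): `w` conjugates the code to
the representative of order `a` (to its inverse). -/
abbrev Cert := ℕ × ℕ × ℕ × ℕ

def cert0 (L Sl : List ℕ) (c a w : ℕ) : Bool :=
  band (Nat.beq (powU c a) idCode) (band (allList (fun ℓ => bNot (Nat.beq (Nat.mod a ℓ) 0)) Sl)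
    (band (checkFix L w) (band (bNot (isId w)) (band (Nat.beq (mulU w w) idCode)
      (Nat.beq (mulU w c) (mulU c w))))))

def cert1 (L Sl : List ℕ) (Rc : ℕ → ℕ) (c a w : ℕ) : Bool :=
  band (memL a Sl) (band (checkFix L w) (Nat.beq (mulU w c) (mulU (Rc a) w)))

def certOK (L Sl : List ℕ) (Rc Ri : ℕ → ℕ) (e : Cert) : Bool :=
  band (validCode e.1) (Nat.rec (cert0 L Sl e.1 e.2.2.1 e.2.2.2)
    (fun n _ => Nat.rec (cert1 L Sl Rc e.1 e.2.2.1 e.2.2.2)
      (fun _ _ => cert1 L Sl Ri e.1 e.2.2.1 e.2.2.2) n) e.2.1)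

/-- the data on the representatives. -/
structure RepOK (Sl : List ℕ) (Rc Ri : ℕ → ℕ) : Prop where
  v : ∀ ℓ ∈ Sl, validCode (Rc ℓ) = true
  vi : ∀ ℓ ∈ Sl, validCode (Ri ℓ) = true
  inv : ∀ ℓ ∈ Sl, mulU (Rc ℓ) (Ri ℓ) = idCode
  ord : ∀ ℓ ∈ Sl, orderOf (permOf (Rc ℓ)) = ℓ

theorem RepOK.inv_eq {Sl : List ℕ} {Rc Ri : ℕ → ℕ} (H : RepOK Sl Rc Ri) {ℓ : ℕ} (hℓ : ℓ ∈ Sl) :
    permOf (Ri ℓ) = (permOf (Rc ℓ))⁻¹ :=
  eq_inv_of_mul_eq_one_right ((mulU_eq_idCode_iff (H.v ℓ hℓ) (H.vi ℓ hℓ)).1 (H.inv ℓ hℓ))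

theorem cert1_spec {L Sl : List ℕ} {R' : ℕ → ℕ} {c a w : ℕ} (hc : validCode c = true)
    (hR : ∀ ℓ ∈ Sl, validCode (R' ℓ) = true) (h : cert1 L Sl R' c a w = true) :
    a ∈ Sl ∧ permOf w ∈ fixer L ∧ permOf w * permOf c * (permOf w)⁻¹ = permOf (R' a) := by
  unfold cert1 at h
  rw [band_eq, band_eq, Bool.and_eq_true, Bool.and_eq_true, memL_iff, Nat.beq_eq] at h
  obtain ⟨h1, h2, h3⟩ := h
  refine ⟨h1, permOf_mem_fixer h2, ?_⟩
  rw [mulU_eq_iff (valid_of_checkFix h2) hc (hR a h1) (valid_of_checkFix h2)] at h3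
  rw [h3, mul_inv_cancel_right]

theorem certOK_spec {L Sl : List ℕ} {Rc Ri : ℕ → ℕ} (H : RepOK Sl Rc Ri) {S : Finset ℕ}
    (hS : ∀ ℓ, ℓ ∈ S ↔ ℓ ∈ Sl) {e : Cert} (h : certOK L Sl Rc Ri e = true) :
    KA (fixer L) S (fun ℓ => permOf (Rc ℓ)) (permOf e.1) := by
  obtain ⟨c, kind, a, w⟩ := e
  unfold certOK at h
  rw [band_eq, Bool.and_eq_true] at h
  obtain ⟨hc, h⟩ := h
  simp only at hc h ⊢
  rcases kind with _ | _ | kind
  · have h' : cert0 L Sl c a w = true := h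
    unfold cert0 at h'
    simp only [band_eq, Bool.and_eq_true, Nat.beq_eq, allList_iff, bNot_eq_true] at h'
    obtain ⟨h1, h2, h3, h4, h5, h6⟩ := h'
    have hw := valid_of_checkFix h3
    left
    refine ⟨fun hmem => ?_, permOf w, permOf_mem_fixer h3, ?_, (mulU_eq_idCode_iff hw hw).1 h5,
      (mulU_eq_iff hw hc hc hw).1 h6⟩
    · have h7 : permOf c ^ a = 1 := by rw [← permOf_powU hc, h1, permOf_idCode]
      have h8 := orderOf_dvd_of_pow_eq_one h7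
      have h9 := h2 _ ((hS _).1 hmem)
      rw [← Bool.not_eq_true, Nat.beq_eq] at h9
      exact h9 (Nat.mod_eq_zero_of_dvd h8)
    · intro e1
      rw [permOf_eq_one_iff hw, h4] at e1
      exact absurd e1 (by simp)
  · have h' : cert1 L Sl Rc c a w = true := h
    obtain ⟨h1, h2, h3⟩ := cert1_spec hc H.v h'
    have ho : orderOf (permOf c) = a := by
      rw [← orderOf_conj' (permOf w) (permOf c), h3, H.ord a h1]
    right
    rw [ho]
    exact ⟨(hS a).2 h1, permOf w, h2, Or.inl h3⟩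
  · have h' : cert1 L Sl Ri c a w = true := h
    obtain ⟨h1, h2, h3⟩ := cert1_spec hc H.vi h'
    rw [H.inv_eq h1] at h3
    have ho : orderOf (permOf c) = a := by
      rw [← orderOf_conj' (permOf w) (permOf c), h3, orderOf_inv, H.ord a h1]
    right
    rw [ho]
    exact ⟨(hS a).2 h1, permOf w, h2, Or.inr h3⟩

/-- the first components. -/
def fsts (C : List Cert) : List ℕ := List.rec [] (fun e _ ih => e.1 :: ih) C

theorem mem_fsts {C : List Cert} {c : ℕ} : c ∈ fsts C ↔ ∃ e ∈ C, e.1 = c := by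
  induction C with
  | nil => simp [fsts]
  | cons e C ih =>
    have : fsts (e :: C) = e.1 :: fsts C := rfl
    rw [this, List.mem_cons, ih]
    simp [eq_comm]

theorem KA_of_mem {L Sl : List ℕ} {Rc Ri : ℕ → ℕ} (H : RepOK Sl Rc Ri) {S : Finset ℕ}
    (hS : ∀ ℓ, ℓ ∈ S ↔ ℓ ∈ Sl) {C : List Cert} (hC : allList (certOK L Sl Rc Ri) C = true) {c : ℕ}
    (hc : c ∈ fsts C) : KA (fixer L) S (fun ℓ => permOf (Rc ℓ)) (permOf c) := by
  obtain ⟨e, he, rfl⟩ := mem_fsts.1 hc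
  exact certOK_spec H hS ((allList_iff _ _).1 hC e he)

/-- the test at the leaves of the search for a centralizer. -/
def leafT (s : ℕ) (l : List ℕ) (c : ℕ) : Bool := bOr (bNot (interB s s c)) (memL c l)

/-- the classification alternative on a centralizer, from a search. -/
theorem KA_of_search {L Sl : List ℕ} {Rc Ri : ℕ → ℕ} (H : RepOK Sl Rc Ri) {S : Finset ℕ}
    (hS : ∀ ℓ, ℓ ∈ S ↔ ℓ ∈ Sl) {C : List Cert} (hC : allList (certOK L Sl Rc Ri) C = true)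
    {s : ℕ} (hs : checkM24 s = true) {Q : Equiv.Perm GolayPt → Prop}
    {lv : List (ℕ × List ℕ × (ℕ → ℕ → Bool))} (hch : SChain Q [] lv) (hQ : ∀ g, Q g → QC s g)
    (hall : allP (leafT s (fsts C)) lv idCode = true) :
    ∀ g ∈ M24, Q g → KA (fixer L) S (fun ℓ => permOf (Rc ℓ)) g := by
  intro g hg hQg
  obtain ⟨c, hv, rfl, hf⟩ := M24_forall hch hall g hg hQg
  unfold leafT at hf
  rw [bOr_eq, Bool.or_eq_true, bNot_eq_true, memL_iff] at hf
  rcases hf with hf | hf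
  · rw [(interB_iff_QC hs c hv hg).2 (hQ _ hQg)] at hf
    exact absurd hf (by simp)
  · exact KA_of_mem H hS hC hf

end Cfsg.Agent.Lib.Helper7.Blk
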