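import Cfsg.Agent.Lib.Helper7.BlkInvB
import Cfsg.Agent.Lib.Helper7.BlkCert

/-!
# Generic glue for the one-block criterion in the groups `fixer L`
-/

set_option autoImplicit false

namespace Cfsg.Agent.Lib.Helper7.Blk

open Cfsg
open Cfsg.Agent.Lib.Helper27
open Cfsg.Agent.Lib.Helper92 (mulU idCode powU permOf_powU isId permOf_eq_one_iff permOf_idCode
  listGrp grpCheck mem_listGrp card_listGrp)
open Cfsg.Agent.Lib.Helper7.OneBlock

/-- the representatives as elements of the group. -/
noncomputable def rOf (L : List ℕ) (Rc : ℕ → ℕ) (ℓ : ℕ) : fixer L :=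
  if h : checkFix L (Rc ℓ) = true then ⟨permOf (Rc ℓ), permOf_mem_fixer h⟩ else 1

theorem rOf_coe {L : List ℕ} {Rc : ℕ → ℕ} {ℓ : ℕ} (h : checkFix L (Rc ℓ) = true) :
    (rOf L Rc ℓ : Equiv.Perm GolayPt) = permOf (Rc ℓ) := by
  unfold rOf
  rw [dif_pos h]

theorem check_of_checkFix {L : List ℕ} {c : ℕ} (h : checkFix L c = true) : checkM24 c = true := by
  unfold checkFix at h
  rw [band_eq, Bool.and_eq_true] at h
  exact h.1

theorem pow_code {c n : ℕ} (hv : validCode c = true) : powU c n = idCode → permOf c ^ n = 1 := by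
  intro h
  rw [← permOf_powU hv, h, permOf_idCode]

theorem pow_code_ne {c n : ℕ} (hv : validCode c = true) (h : isId (powU c n) = false) :
    permOf c ^ n ≠ 1 := by
  intro e
  rw [← permOf_powU hv, permOf_eq_one_iff (Cfsg.Agent.Lib.Helper92.validCode_powU hv n), h] at e
  exact absurd e (by simp)

theorem orderOf_code_prime {c p : ℕ} (hv : validCode c = true) (hp : p.Prime)
    (h1 : powU c p = idCode) (h2 : isId (powU c 1) = false) : orderOf (permOf c) = p := by
  have : Fact p.Prime := ⟨hp⟩
  apply orderOf_eq_prime (pow_code hv h1)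
  have := pow_code_ne hv h2
  rwa [pow_one] at this

theorem orderOf_code_mul {c a b : ℕ} (hv : validCode c = true) (ha : a.Prime) (hb : b.Prime)
    (h1 : powU c (a * b) = idCode) (h2 : isId (powU c a) = false) (h3 : isId (powU c b) = false) :
    orderOf (permOf c) = a * b :=
  (orderOf_eq_mul_iff _ ha hb).2 ⟨pow_code hv h1, pow_code_ne hv h2, pow_code_ne hv h3⟩

/-- parity of the number of `x` with `x ^ 2 = 1` and `x * r` of order `ℓ'`. -/
theorem par_of_count {L l : List ℕ} (H : CompleteList (fixer L) l) [Fintype (fixer L)]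
    [DecidableEq (fixer L)] {r : fixer L} {hc : ℕ} (hr : (r : Equiv.Perm GolayPt) = permOf hc)
    (f : ℕ → ℕ) {ℓ' : ℕ} (hf : ∀ c ∈ l, f c = ℓ' ↔ orderOf (permOf c * permOf hc) = ℓ') {n : ℕ}
    (hcount : l.countP (fun c => f c == ℓ') = 2 * n) :
    Even (Finset.univ.filter fun x : fixer L => x * x = 1 ∧ orderOf (x * r) = ℓ').card := by
  have h1 := H.card_eq_countP (fun g => orderOf (g * permOf hc) = ℓ') (fun c => f c == ℓ')
    (fun c hcl => by rw [beq_iff_eq]; exact hf c hcl)
  have h2 : (Finset.univ.filter fun x : fixer L => x * x = 1 ∧ orderOf (x * r) = ℓ').card =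
      Nat.card {x : fixer L // x * x = 1 ∧
        orderOf ((x : Equiv.Perm GolayPt) * permOf hc) = ℓ'} := by
    rw [Nat.card_eq_fintype_card, Fintype.card_subtype]
    congr 1
    ext x
    simp only [Finset.mem_filter, Finset.mem_univ, true_and]
    rw [← hr, ← Subgroup.coe_mul, Subgroup.orderOf_coe]
  rw [h2, h1, hcount]
  exact even_two_mul n

/-- a list group inside `fixer L`, as a subgroup of `fixer L`. -/
theorem card_listGrp_subgroupOf {L l : List ℕ} (h : grpCheck l = true) (hnd : l.Nodup)
    (hl : ∀ c ∈ l, checkFix L c = true) :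
    Nat.card ((listGrp l h).subgroupOf (fixer L)) = l.length := by
  have hle : listGrp l h ≤ fixer L := by
    rintro _ ⟨c, hc, rfl⟩
    exact permOf_mem_fixer (hl c hc)
  rw [← card_listGrp h hnd]
  exact Nat.card_congr (Subgroup.subgroupOfEquivOfLe hle).toEquiv

end Cfsg.Agent.Lib.Helper7.Blk
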