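import Cfsg.Agent.Lib.Helper92.M24InvolCent
import Cfsg.Agent.Lib.Helper80.ClassSize
import Cfsg.Agent.Lib.Helper27.M24Order

/-!
# `M24` has exactly `43264` elements of square `1`
-/

set_option autoImplicit false

namespace Cfsg.Agent.Lib.Helper7.Blk

open Cfsg
open Cfsg.Agent.Lib.Helper27
open Cfsg.Agent.Lib.Helper92
open scoped Pointwise

/-- levels of the search for the centralizer of `z0`. -/
def lvZ : List (ℕ × List ℕ × (ℕ → ℕ → Bool)) :=
  stdLv (keepS 4536592 4536592 23) (keepI z0c 0 23) (keepS 4536592 4536592 1) (keepI z0c 2 1)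
    (keepS 4536592 4536592 3) (keepS 4536592 4536592 4) (keepI z0c 5 3)

theorem QC_fix {g : Equiv.Perm GolayPt} (h : QC z0c g) : g • unmask 4536592 = unmask 4536592 := by
  rw [← fix_z0]; exact smul_fix_of_comm h

theorem chainZ : SChain (QC z0c) [] lvZ :=
  stdChain ((keepS_ok stp0 _ _).mono fun _ h => QC_fix h)
    ((keepI_ok stp1 z0c_valid z0c_valid (by norm_num) (by simp [L1]) (by decide +kernel)).mono
      fun _ h => h)
    ((keepS_ok stp2 _ _).mono fun _ h => QC_fix h)
    ((keepI_ok stp3 z0c_valid z0c_valid (by norm_num) (by simp [L3]) (by decide +kernel)).mono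
      fun _ h => h)
    ((keepS_ok stp4 _ _).mono fun _ h => QC_fix h)
    ((keepS_ok stp5 _ _).mono fun _ h => QC_fix h)
    ((keepI_ok stp6 z0c_valid z0c_valid (by norm_num) (by simp [L6]) (by decide +kernel)).mono
      fun _ h => h)

theorem count_Z : countP (interB z0c z0c) lvZ idCode = 21504 := by decide +kernel

theorem card_centM_z0 : Nat.card (centM z0c) = 21504 := by
  rw [← card_centM, ← count_Z]
  exact M24_count chainZ (interB_iff_QC z0c_check)

/-- the two standard involutions as elements of the group. -/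
noncomputable def zG : M24 := ⟨permOf z0c, permOf_mem_M24 z0c_check⟩
noncomputable def tG : M24 := ⟨permOf t0c, permOf_mem_M24 t0c_check⟩

theorem card_centralizer_code {s : ℕ} (hs : checkM24 s = true) :
    Nat.card (Subgroup.centralizer ({(⟨permOf s, permOf_mem_M24 hs⟩ : M24)} : Set M24)) =
      Nat.card (centM s) := by
  apply Nat.card_congr
  refine ⟨fun c => ⟨c.1.1, mem_centM.2 ⟨c.1.2, ?_⟩⟩, fun c => ⟨⟨c.1, (mem_centM.1 c.2).1⟩, ?_⟩,
    fun c => rfl, fun c => rfl⟩
  · have := Subgroup.mem_centralizer_singleton_iff.1 c.2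
    exact congrArg Subtype.val this
  · rw [Subgroup.mem_centralizer_singleton_iff]
    exact Subtype.ext (mem_centM.1 c.2).2

theorem card_conj_zG : Nat.card {x : M24 // IsConj zG x} = 11385 := by
  have h := Cfsg.Agent.Lib.Helper80.card_conj_mul_card_centralizer zG
  have hc : Nat.card (Subgroup.centralizer ({zG} : Set M24)) = 21504 := by
    unfold zG
    rw [card_centralizer_code z0c_check, card_centM_z0]
  rw [hc, card_M24] at h
  clear hc
  generalize Nat.card {x : M24 // IsConj zG x} = N at h ⊢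
  omega

theorem card_conj_tG : Nat.card {x : M24 // IsConj tG x} = 31878 := by
  have h := Cfsg.Agent.Lib.Helper80.card_conj_mul_card_centralizer tG
  have hc : Nat.card (Subgroup.centralizer ({tG} : Set M24)) = 7680 := by
    unfold tG
    rw [card_centralizer_code t0c_check, card_centM_t0]
  rw [hc, card_M24] at h
  clear hc
  generalize Nat.card {x : M24 // IsConj tG x} = N at h ⊢
  omega

theorem isConj_of_amb {x y : M24} {k : Equiv.Perm GolayPt} (hk : k ∈ M24)
    (h : k * (x : Equiv.Perm GolayPt) * k⁻¹ = y) : IsConj x y :=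
  isConj_iff.2 ⟨⟨k, hk⟩, Subtype.ext h⟩

theorem sq_one_cases (x : M24) (h : x * x = 1) : x = 1 ∨ IsConj zG x ∨ IsConj tG x := by
  by_cases h1 : x = 1
  · exact Or.inl h1
  · right
    have h2 : (x : Equiv.Perm GolayPt) * x = 1 := congrArg Subtype.val h
    have h3 : (x : Equiv.Perm GolayPt) ≠ 1 := fun e => h1 (Subtype.ext e)
    rcases invol_class x.2 (orderOf_eq_two h2 h3) with ⟨k, hk, he⟩ | ⟨k, hk, he⟩
    · exact Or.inl (isConj_of_amb (y := zG) hk he).symm
    · exact Or.inr (isConj_of_amb (y := tG) hk he).symm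

theorem sq_of_isConj {a x : M24} (ha : a * a = 1) (h : IsConj a x) : x * x = 1 := by
  obtain ⟨c, rfl⟩ := isConj_iff.1 h
  calc c * a * c⁻¹ * (c * a * c⁻¹) = c * (a * a) * c⁻¹ := by group
    _ = 1 := by rw [ha]; group

theorem zG_sq : zG * zG = 1 := Subtype.ext z0_sq
theorem tG_sq : tG * tG = 1 := Subtype.ext t0_sq

theorem not_isConj_one {a : M24} (ha : a ≠ 1) : ¬ IsConj a 1 := by
  intro h
  exact ha (isConj_one_right.1 h.symm)

theorem not_isConj_zG_tG {x : M24} (h1 : IsConj zG x) (h2 : IsConj tG x) : False := by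
  obtain ⟨c, hc⟩ := isConj_iff.1 (h1.trans h2.symm)
  have h3 : (c : Equiv.Perm GolayPt) * permOf z0c * (c : Equiv.Perm GolayPt)⁻¹ = permOf t0c :=
    congrArg Subtype.val hc
  have h4 : permOf z0c (pt 4) = pt 4 := by
    rw [permOf_pt z0c_valid (by norm_num)]
    congr 1
  apply fix_t0 ((c : Equiv.Perm GolayPt) (pt 4))
  rw [← h3]
  simp [h4]

/-- **the number of elements of square `1` of `M24`.** -/
theorem card_sq_one : Nat.card {x : M24 // x * x = 1} = 43264 := by
  have hset : {x : M24 | x * x = 1} = {1} ∪ ({x | IsConj zG x} ∪ {x | IsConj tG x}) := by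
    ext x
    simp only [Set.mem_ofPred_eq, Set.mem_union, Set.mem_singleton_iff]
    constructor
    · exact sq_one_cases x
    · rintro (rfl | h | h)
      · exact one_mul 1
      · exact sq_of_isConj zG_sq h
      · exact sq_of_isConj tG_sq h
  have hz1 : zG ≠ 1 := fun e => z0_ne_one (congrArg Subtype.val e)
  have ht1 : tG ≠ 1 := fun e => t0_ne_one (congrArg Subtype.val e)
  have hd1 : Disjoint {x : M24 | IsConj zG x} {x | IsConj tG x} := by
    rw [Set.disjoint_left]
    intro x h1 h2
    exact not_isConj_zG_tG h1 h2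
  have hd2 : Disjoint ({1} : Set M24) ({x | IsConj zG x} ∪ {x | IsConj tG x}) := by
    rw [Set.disjoint_left]
    intro x h1 h2
    rw [Set.mem_singleton_iff] at h1
    subst h1
    rcases h2 with h2 | h2
    · exact not_isConj_one hz1 h2
    · exact not_isConj_one ht1 h2
  have e1 : Nat.card {x : M24 // x * x = 1} = {x : M24 | x * x = 1}.ncard :=
    Nat.card_coe_set_eq _
  rw [e1, hset, Set.ncard_union_eq hd2 (Set.toFinite _) (Set.toFinite _),
    Set.ncard_union_eq hd1 (Set.toFinite _) (Set.toFinite _), Set.ncard_singleton]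
  have e2 : {x : M24 | IsConj zG x}.ncard = 11385 := by
    rw [← card_conj_zG]; exact (Nat.card_coe_set_eq _).symm
  have e3 : {x : M24 | IsConj tG x}.ncard = 31878 := by
    rw [← card_conj_tG]; exact (Nat.card_coe_set_eq _).symm
  rw [e2, e3]

end Cfsg.Agent.Lib.Helper7.Blk
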