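import Cfsg.Agent.Lib.Helper7.BlkInvA
import Cfsg.Agent.Lib.Helper7.BlkX0
import Cfsg.Agent.Lib.Helper7.BlkX1
import Cfsg.Agent.Lib.Helper7.BlkX2
import Cfsg.Agent.Lib.Helper7.BlkX3
import Cfsg.Agent.Lib.Helper7.BlkX4
import Cfsg.Agent.Lib.Helper7.BlkX5
import Cfsg.Agent.Lib.Helper7.BlkX6
import Cfsg.Agent.Lib.Helper7.BlkX7

/-!
# The complete lists of the elements of square `1` of `M24` and of `M22`
-/

set_option autoImplicit false

namespace Cfsg.Agent.Lib.Helper7.Blk

open Cfsg
open Cfsg.Agent.Lib.Helper27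
open Cfsg.Agent.Lib.Helper92 (sumList mulU idCode memL memL_iff eq_of_permOf_eq mulU_eq_idCode_iff
  permOf_pt pt_injOn)

theorem incrB_mono {l : List ℕ} {lo lo' hi : ℕ} (h : lo ≤ lo') (H : incrB l lo' hi = true) :
    incrB l lo hi = true := by
  cases l with
  | nil =>
    rw [incrB_nil] at H ⊢
    exact Nat.ble_eq_true_of_le (le_trans h (Nat.le_of_ble_eq_true H))
  | cons a l =>
    rw [incrB_cons, band_eq, Bool.and_eq_true] at H ⊢
    refine ⟨?_, H.2⟩
    have h1 : lo' < a := Nat.le_of_ble_eq_true H.1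
    exact Nat.ble_eq_true_of_le (show lo + 1 ≤ a by omega)

theorem incrB_append {l l' : List ℕ} {mid hi : ℕ} (h2 : incrB l' mid hi = true) :
    ∀ {lo : ℕ}, incrB l lo mid = true → incrB (l ++ l') lo hi = true := by
  induction l with
  | nil =>
    intro lo h1
    rw [incrB_nil] at h1
    exact incrB_mono (Nat.le_of_ble_eq_true h1) h2
  | cons a l ih =>
    intro lo h1
    rw [incrB_cons, band_eq, Bool.and_eq_true] at h1
    rw [List.cons_append, incrB_cons, band_eq, Bool.and_eq_true]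
    exact ⟨h1.1, ih h1.2⟩

/-- a complete irredundant list of codes of the elements of square `1` of `Γ`. -/
structure CompleteList (Γ : Subgroup (Equiv.Perm GolayPt)) (l : List ℕ) : Prop where
  chk : ∀ c ∈ l, checkM24 c = true
  lt : ∀ c ∈ l, c < 2 ^ 120
  mem : ∀ c ∈ l, permOf c ∈ Γ
  sq : ∀ c ∈ l, permOf c * permOf c = 1
  nodup : l.Nodup
  complete : ∀ g ∈ Γ, g * g = 1 → ∃ c ∈ l, permOf c = g

/-- counting with a complete list. -/
theorem CompleteList.card_eq_countP {Γ : Subgroup (Equiv.Perm GolayPt)} {l : List ℕ}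
    (H : CompleteList Γ l) (P : Equiv.Perm GolayPt → Prop) (q : ℕ → Bool)
    (hq : ∀ c ∈ l, (q c = true ↔ P (permOf c))) :
    Nat.card {x : Γ // x * x = 1 ∧ P (x : Equiv.Perm GolayPt)} = l.countP q := by
  have hnd : (l.filter q).Nodup := H.nodup.filter _
  rw [List.countP_eq_length_filter, ← List.toFinset_card_of_nodup hnd, ← Fintype.card_coe,
    ← Nat.card_eq_fintype_card]
  symm
  apply Nat.card_congr
  have hm : ∀ c : {c // c ∈ (l.filter q).toFinset}, c.1 ∈ l ∧ q c.1 = true := by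
    intro c
    have := c.2
    rw [List.mem_toFinset, List.mem_filter] at this
    exact this
  refine Equiv.ofBijective (fun c => ⟨⟨permOf c.1, H.mem _ (hm c).1⟩,
    Subtype.ext (H.sq _ (hm c).1), (hq _ (hm c).1).1 (hm c).2⟩) ⟨?_, ?_⟩
  · intro a b hab
    have h1 : permOf a.1 = permOf b.1 := congrArg (fun x => ((x.1 : Γ) : Equiv.Perm GolayPt)) hab
    exact Subtype.ext (eq_of_permOf_eq (valid_of_check (H.chk _ (hm a).1))
      (valid_of_check (H.chk _ (hm b).1)) (H.lt _ (hm a).1) (H.lt _ (hm b).1) h1)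
  · intro y
    have h1' : (y.1 : Equiv.Perm GolayPt) * (y.1 : Equiv.Perm GolayPt) = 1 := by
      have h3 := congrArg (Subtype.val (p := fun x => x ∈ Γ)) y.2.1
      rwa [Subgroup.coe_mul, Subgroup.coe_one] at h3
    exact Exists.elim (H.complete _ y.1.2 h1') fun c hc =>
      ⟨⟨c, by rw [List.mem_toFinset, List.mem_filter]
              exact ⟨hc.1, (hq c hc.1).2 (by rw [hc.2]; exact y.2.2)⟩⟩,
        Subtype.ext (Subtype.ext hc.2)⟩

/-- the list of all the elements of square `1` of `M24`. -/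
def Xl : List ℕ := X0 ++ (X1 ++ (X2 ++ (X3 ++ (X4 ++ (X5 ++ (X6 ++ X7))))))

theorem forall_Xl {P : ℕ → Prop} (h0 : ∀ c ∈ X0, P c) (h1 : ∀ c ∈ X1, P c) (h2 : ∀ c ∈ X2, P c)
    (h3 : ∀ c ∈ X3, P c) (h4 : ∀ c ∈ X4, P c) (h5 : ∀ c ∈ X5, P c) (h6 : ∀ c ∈ X6, P c)
    (h7 : ∀ c ∈ X7, P c) : ∀ c ∈ Xl, P c := by
  intro c hc
  unfold Xl at hc
  simp only [List.mem_append] at hc
  rcases hc with h | h | h | h | h | h | h | h
  · exact h0 c h
  · exact h1 c h
  · exact h2 c h
  · exact h3 c h
  · exact h4 c h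
  · exact h5 c h
  · exact h6 c h
  · exact h7 c h

theorem Xl_chk : ∀ c ∈ Xl, chkInv c = true :=
  forall_Xl ((allList_iff _ _).1 X0_chk) ((allList_iff _ _).1 X1_chk) ((allList_iff _ _).1 X2_chk)
    ((allList_iff _ _).1 X3_chk) ((allList_iff _ _).1 X4_chk) ((allList_iff _ _).1 X5_chk)
    ((allList_iff _ _).1 X6_chk) ((allList_iff _ _).1 X7_chk)

theorem Xl_incr : incrB Xl 0 984818244535754528103549039458486304 = true :=
  incrB_append (incrB_append (incrB_append (incrB_append (incrB_append (incrB_append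
    (incrB_append X7_incr X6_incr) X5_incr) X4_incr) X3_incr) X2_incr) X1_incr) X0_incr

theorem lenL_append (l l' : List ℕ) : lenL (l ++ l') = lenL l + lenL l' := sumList_append _ _ _

theorem Xl_length : Xl.length = 43264 := by
  rw [← lenL_eq]
  unfold Xl
  simp only [lenL_append]
  rw [X0_len, X1_len, X2_len, X3_len, X4_len, X5_len, X6_len, X7_len]

theorem Xl_sum (f : ℕ → ℕ) : sumList f Xl = sumList f X0 + (sumList f X1 + (sumList f X2 +
    (sumList f X3 + (sumList f X4 + (sumList f X5 + (sumList f X6 + sumList f X7)))))) := by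
  unfold Xl
  simp only [sumList_append]

theorem nodup_of_incrB {l : List ℕ} {lo hi : ℕ} (h : incrB l lo hi = true) : l.Nodup :=
  (incrB_spec l lo hi h).1.imp (fun h => h.ne)

theorem Xl_complete : CompleteList M24 Xl := by
  have hchk : ∀ c ∈ Xl, checkM24 c = true := fun c hc => (chkInv_iff.1 (Xl_chk c hc)).1
  have hlt : ∀ c ∈ Xl, c < 2 ^ 120 := fun c hc =>
    lt_of_le_of_lt ((incrB_spec _ _ _ Xl_incr).2.1 c hc).2 (by norm_num)
  have hsq : ∀ c ∈ Xl, permOf c * permOf c = 1 := fun c hc =>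
    (mulU_eq_idCode_iff (valid_of_check (hchk c hc)) (valid_of_check (hchk c hc))).1
      (chkInv_iff.1 (Xl_chk c hc)).2
  have hnd : Xl.Nodup := nodup_of_incrB Xl_incr
  refine ⟨hchk, hlt, fun c hc => permOf_mem_M24 (hchk c hc), hsq, hnd, ?_⟩
  let f : {c // c ∈ Xl.toFinset} → {x : M24 // x * x = 1} := fun c =>
    ⟨⟨permOf c.1, permOf_mem_M24 (hchk _ (List.mem_toFinset.1 c.2))⟩,
      Subtype.ext (hsq _ (List.mem_toFinset.1 c.2))⟩
  have hinj : Function.Injective f := by
    intro a b hab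
    have h1 : permOf a.1 = permOf b.1 := congrArg (fun x => ((x.1 : M24) : Equiv.Perm GolayPt)) hab
    exact Subtype.ext (eq_of_permOf_eq (valid_of_check (hchk _ (List.mem_toFinset.1 a.2)))
      (valid_of_check (hchk _ (List.mem_toFinset.1 b.2))) (hlt _ (List.mem_toFinset.1 a.2))
      (hlt _ (List.mem_toFinset.1 b.2)) h1)
  have hcard : Nat.card {x : M24 // x * x = 1} ≤ Nat.card {c // c ∈ Xl.toFinset} := by
    rw [card_sq_one, Nat.card_eq_fintype_card, Fintype.card_coe, List.toFinset_card_of_nodup hnd,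
      Xl_length]
  have hbij := hinj.bijective_of_nat_card_le hcard
  intro g hg hgg
  obtain ⟨c, hc⟩ := hbij.2 ⟨⟨g, hg⟩, Subtype.ext hgg⟩
  exact ⟨c.1, List.mem_toFinset.1 c.2, congrArg (fun x => ((x.1 : M24) : Equiv.Perm GolayPt)) hc⟩

/-! ### `M22` -/

theorem X22_chk : allList (fun c => band (checkFix L2 c) (Nat.beq (mulU c c) idCode)) X22 = true := by
  decide +kernel

theorem X22_incr : incrB X22 0 984818244535754528103549039458486304 = true := by decide +kernel

theorem Xl_22 : ∀ c ∈ Xl, bOr (bNot (in22 c)) (memL c X22) = true :=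
  forall_Xl ((allList_iff _ _).1 X0_22) ((allList_iff _ _).1 X1_22) ((allList_iff _ _).1 X2_22)
    ((allList_iff _ _).1 X3_22) ((allList_iff _ _).1 X4_22) ((allList_iff _ _).1 X5_22)
    ((allList_iff _ _).1 X6_22) ((allList_iff _ _).1 X7_22)

theorem X22_complete : CompleteList (fixer L2) X22 := by
  have h0 : ∀ c ∈ X22, checkFix L2 c = true ∧ mulU c c = idCode := by
    intro c hc
    have := (allList_iff _ _).1 X22_chk c hc
    rw [band_eq, Bool.and_eq_true, Nat.beq_eq] at this
    exact this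
  have hv : ∀ c ∈ X22, validCode c = true := fun c hc => valid_of_checkFix (h0 c hc).1
  refine ⟨?_, fun c hc => lt_of_le_of_lt ((incrB_spec _ _ _ X22_incr).2.1 c hc).2 (by norm_num),
    fun c hc => permOf_mem_fixer (h0 c hc).1,
    fun c hc => (mulU_eq_idCode_iff (hv c hc) (hv c hc)).1 (h0 c hc).2, nodup_of_incrB X22_incr, ?_⟩
  · intro c hc
    have := (h0 c hc).1
    unfold checkFix at this
    rw [band_eq, Bool.and_eq_true] at this
    exact this.1
  · intro g hg hgg
    obtain ⟨c, hc, rfl⟩ := Xl_complete.complete g (fixer_le_M24 _ hg) hgg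
    refine ⟨c, ?_, rfl⟩
    have hcv := valid_of_check (Xl_complete.chk c hc)
    have h23 : ent c 23 = 23 := by
      have := fixer_fix hg (i := 23) (by norm_num) (by simp [L2])
      rw [permOf_pt hcv (by norm_num)] at this
      exact pt_injOn (ent_lt_of_valid hcv 23 (by norm_num)) (by norm_num) this
    have h00 : ent c 0 = 0 := by
      have := fixer_fix hg (i := 0) (by norm_num) (by simp [L2])
      rw [permOf_pt hcv (by norm_num)] at this
      exact pt_injOn (ent_lt_of_valid hcv 0 (by norm_num)) (by norm_num) this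
    have hin : in22 c = true := by
      unfold in22
      rw [band_eq, Bool.and_eq_true, Nat.beq_eq, Nat.beq_eq]
      exact ⟨h23, h00⟩
    have := Xl_22 c hc
    rw [bOr_eq, Bool.or_eq_true, bNot_eq_true, hin, memL_iff] at this
    rcases this with h | h
    · exact absurd h (by simp)
    · exact h

end Cfsg.Agent.Lib.Helper7.Blk
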