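import Cfsg.Agent.Lib.Helper7.BlkLocal
import Cfsg.Agent.Lib.Helper7.BlkCount

/-!
# The local hypothesis of the one-block criterion for the fixed-point-free involutions of `M24`
-/

set_option autoImplicit false

namespace Cfsg.Agent.Lib.Helper7.Blk

open Cfsg
open Cfsg.Agent.Lib.Helper27
open Cfsg.Agent.Lib.Helper92 (mulU idCode mulU_eq_idCode_iff mulU_eq_iff
  invol_class orderOf_eq_two z0c t0c z0c_valid t0c_valid t0c_check fix_t0 smul_fix_of_comm fixMask
  unmask_fixMask QC interB interB_iff_QC centM mem_centM sextT sextT_lt cent_t0_sextet fam mem_fam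
  SChain allP stdLv stdChain keepS keepI keepS_ok keepI_ok stp0 stp1 stp2 stp3 stp4 stp5 stp6
  M24_forall KeepOK.mono)
open Cfsg.Agent.Lib.Helper7.OneBlock
open scoped Pointwise

/-- the local hypothesis is invariant under conjugation. -/
theorem LocA.of_conj {Γ : Subgroup (Equiv.Perm GolayPt)} {t t' k : Equiv.Perm GolayPt}
    (hk : k ∈ Γ) (he : k * t' * k⁻¹ = t) (h : LocA Γ t) : LocA Γ t' := by
  obtain ⟨Q, hQΓ, hQ2, hQt, hQn, hQc⟩ := h
  have hmem : ∀ q, q ∈ Q.comap (MulAut.conj k).toMonoidHom ↔ k * q * k⁻¹ ∈ Q := fun q => Iff.rfl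
  have hcomm : ∀ c, t' * c = c * t' → t * (k * c * k⁻¹) = k * c * k⁻¹ * t := by
    intro c hc
    rw [← he]
    calc k * t' * k⁻¹ * (k * c * k⁻¹) = k * (t' * c) * k⁻¹ := by group
      _ = k * (c * t') * k⁻¹ := by rw [hc]
      _ = _ := by group
  have hcancel : ∀ a b : Equiv.Perm GolayPt, k * a * k⁻¹ = k * b * k⁻¹ → a = b := by
    intro a b hab
    have := congrArg (fun z => k⁻¹ * z * k) hab
    simpa [mul_assoc] using this
  refine ⟨Q.comap (MulAut.conj k).toMonoidHom, ?_, ?_, ?_, ?_, ?_⟩
  · intro q hq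
    rw [hmem] at hq
    have := Γ.mul_mem (Γ.mul_mem (Γ.inv_mem hk) (hQΓ hq)) hk
    simpa [mul_assoc] using this
  · intro q hq
    rw [hmem] at hq
    apply hcancel
    have h3 : k * (q * q) * k⁻¹ = k * q * k⁻¹ * (k * q * k⁻¹) := by group
    rw [h3, hQ2 _ hq]; group
  · intro q hq
    rw [hmem] at hq
    apply hcancel
    have h3 : k * (t' * q) * k⁻¹ = k * t' * k⁻¹ * (k * q * k⁻¹) := by group
    have h4 : k * (q * t') * k⁻¹ = k * q * k⁻¹ * (k * t' * k⁻¹) := by group
    rw [h3, h4, he]
    exact hQt _ hq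
  · intro c hc hct q hq
    rw [hmem] at hq ⊢
    have := hQn (k * c * k⁻¹) (Γ.mul_mem (Γ.mul_mem hk hc) (Γ.inv_mem hk)) (hcomm c hct) _ hq
    have h3 : k * c * k⁻¹ * (k * q * k⁻¹) * (k * c * k⁻¹)⁻¹ = k * (c * q * c⁻¹) * k⁻¹ := by group
    rw [h3] at this
    exact this
  · intro c hc hct hcq
    rw [hmem]
    apply hQc _ (Γ.mul_mem (Γ.mul_mem hk hc) (Γ.inv_mem hk)) (hcomm c hct)
    intro e he'
    have h3 : k⁻¹ * e * k ∈ Q.comap (MulAut.conj k).toMonoidHom := by
      rw [hmem]
      have : k * (k⁻¹ * e * k) * k⁻¹ = e := by group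
      rw [this]; exact he'
    have h4 := hcq _ h3
    calc e * (k * c * k⁻¹) = k * (k⁻¹ * e * k * c) * k⁻¹ := by group
      _ = k * (c * (k⁻¹ * e * k)) * k⁻¹ := by rw [h4]
      _ = _ := by group

/-! ### the normal `2^6` of the centraliser of `t0` -/

/-- commuting with `t0` and fixing the six tetrads. -/
def QB (g : Equiv.Perm GolayPt) : Prop := QC t0c g ∧ ∀ m ∈ sextT, g • unmask m = unmask m

def lvB : List (ℕ × List ℕ × (ℕ → ℕ → Bool)) :=
  stdLv (keepS 8422401 8422401 23) (keepI t0c 0 23) (keepS 1049094 1049094 1) (keepI t0c 2 1)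
    (keepS 196632 196632 3) (keepI t0c 4 3) (keepS 4218912 4218912 5)

theorem chainB : SChain QB [] lvB :=
  stdChain ((keepS_ok stp0 _ _).mono (fun _ h => h.2 _ (by simp [sextT])))
    ((keepI_ok stp1 t0c_valid t0c_valid (by norm_num) (by simp [L1]) (by decide +kernel)).mono
      (fun _ h => h.1))
    ((keepS_ok stp2 _ _).mono (fun _ h => h.2 _ (by simp [sextT])))
    ((keepI_ok stp3 t0c_valid t0c_valid (by norm_num) (by simp [L3]) (by decide +kernel)).mono
      (fun _ h => h.1))
    ((keepS_ok stp4 _ _).mono (fun _ h => h.2 _ (by simp [sextT])))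
    ((keepI_ok stp5 t0c_valid t0c_valid (by norm_num) (by simp [L5]) (by decide +kernel)).mono
      (fun _ h => h.1))
    ((keepS_ok stp6 _ _).mono (fun _ h => h.2 _ (by simp [sextT])))

def leafB (c : ℕ) : Bool :=
  bOr (bNot (band (interB t0c t0c c) (allList (fun m => Nat.beq (permMask c m) m) sextT)))
    (Nat.beq (mulU c c) idCode)

theorem allB : allP leafB lvB idCode = true := by decide +kernel

theorem QB_sq {g : Equiv.Perm GolayPt} (hg : g ∈ M24) (h : QB g) : g * g = 1 := by
  obtain ⟨c, hv, rfl, hf⟩ := M24_forall chainB allB g hg h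
  unfold leafB at hf
  rw [bOr_eq, Bool.or_eq_true, bNot_eq_true, Nat.beq_eq] at hf
  rcases hf with hf | hf
  · exfalso
    have h1 : interB t0c t0c c = true := (interB_iff_QC t0c_check c hv hg).2 h.1
    have h2 : allList (fun m => Nat.beq (permMask c m) m) sextT = true := by
      rw [allList_iff]
      intro m hm
      rw [Nat.beq_eq]
      have h3 := h.2 m hm
      rw [smul_unmask_permOf hv (sextT_lt m hm)] at h3
      exact unmask_injOn (permMask_lt hv (sextT_lt m hm)) (sextT_lt m hm) h3
    rw [h1, h2] at hf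
    exact absurd hf (by decide)
  · exact (mulU_eq_idCode_iff hv hv).1 hf

/-- the subgroup `2^6`. -/
def QBs : Subgroup (Equiv.Perm GolayPt) := fixer sextT ⊓ centM t0c

theorem mem_QBs {g : Equiv.Perm GolayPt} : g ∈ QBs ↔ g ∈ M24 ∧ QB g := by
  unfold QBs QB
  rw [Subgroup.mem_inf, mem_fixer, mem_centM]
  tauto

/-- four involutions of `2^6` fixing two tetrads pointwise. -/
def cq01 : ℕ := 18622127190325874496707935820960055
def cq02 : ℕ := 17225281453758255096025682200856631
def cq34 : ℕ := 29412790718383625999356429906497847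
def cq35 : ℕ := 962737030784108451051703854020691008

theorem mem_QBs_of_check {c : ℕ} (h1 : checkFix sextT c = true) (h2 : interB t0c t0c c = true) :
    permOf c ∈ QBs := by
  have hm := permOf_mem_fixer h1
  exact Subgroup.mem_inf.2 ⟨hm, mem_centM.2 ⟨hm.1,
    (interB_iff_QC t0c_check c (valid_of_checkFix h1) hm.1).1 h2⟩⟩

theorem smul_of_comm_code {g : Equiv.Perm GolayPt} {c m : ℕ} (hv : validCode c = true)
    (hm : fixMask c = m) (h : permOf c * g = g * permOf c) : g • unmask m = unmask m := by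
  rw [← hm, unmask_fixMask hv]
  exact smul_fix_of_comm h.symm

theorem fixes_tetrads {g : Equiv.Perm GolayPt} (h : ∀ q ∈ QBs, q * g = g * q) :
    ∀ m ∈ sextT, g • unmask m = unmask m := by
  have h01 : g • unmask 463064 = unmask 463064 :=
    smul_of_comm_code (c := cq01) (by decide +kernel) (by decide +kernel)
      (h _ (mem_QBs_of_check (by decide +kernel) (by decide +kernel)))
  have h02 : g • unmask 1245726 = unmask 1245726 :=
    smul_of_comm_code (c := cq02) (by decide +kernel) (by decide +kernel)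
      (h _ (mem_QBs_of_check (by decide +kernel) (by decide +kernel)))
  have h34 : g • unmask 6842656 = unmask 6842656 :=
    smul_of_comm_code (c := cq34) (by decide +kernel) (by decide +kernel)
      (h _ (mem_QBs_of_check (by decide +kernel) (by decide +kernel)))
  have h35 : g • unmask 11046145 = unmask 11046145 :=
    smul_of_comm_code (c := cq35) (by decide +kernel) (by decide +kernel)
      (h _ (mem_QBs_of_check (by decide +kernel) (by decide +kernel)))
  have e0 : unmask 196632 = unmask 463064 ∩ unmask 1245726 := by decide +kernel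
  have e1 : unmask 266432 = unmask 463064 \ unmask 1245726 := by decide +kernel
  have e2 : unmask 1049094 = unmask 1245726 \ unmask 463064 := by decide +kernel
  have e3 : unmask 2623744 = unmask 6842656 ∩ unmask 11046145 := by decide +kernel
  have e4 : unmask 4218912 = unmask 6842656 \ unmask 11046145 := by decide +kernel
  have e5 : unmask 8422401 = unmask 11046145 \ unmask 6842656 := by decide +kernel
  intro m hm
  simp only [sextT, List.mem_cons, List.not_mem_nil, or_false] at hm
  rcases hm with rfl | rfl | rfl | rfl | rfl | rfl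
  · rw [e0, Finset.smul_finset_inter, h01, h02]
  · rw [e1, Finset.smul_finset_sdiff, h01, h02]
  · rw [e2, Finset.smul_finset_sdiff, h01, h02]
  · rw [e3, Finset.smul_finset_inter, h34, h35]
  · rw [e4, Finset.smul_finset_sdiff, h34, h35]
  · rw [e5, Finset.smul_finset_sdiff, h34, h35]

theorem locA_t0 : LocA M24 (permOf t0c) := by
  refine ⟨QBs, fun q hq => (mem_QBs.1 hq).1, fun q hq => QB_sq (mem_QBs.1 hq).1 (mem_QBs.1 hq).2,
    fun q hq => ((mem_QBs.1 hq).2.1).symm, ?_, ?_⟩
  · intro c hc hct q hq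
    obtain ⟨hqM, hq1, hq2⟩ := mem_QBs.1 hq
    have hcC : c ∈ centM t0c := mem_centM.2 ⟨hc, hct.symm⟩
    refine mem_QBs.2 ⟨M24.mul_mem (M24.mul_mem hc hqM) (M24.inv_mem hc), ?_, ?_⟩
    · have h1 : QC t0c (c * q * c⁻¹) :=
        (mem_centM.1 ((centM t0c).mul_mem ((centM t0c).mul_mem hcC (mem_centM.2 ⟨hqM, hq1⟩))
          ((centM t0c).inv_mem hcC))).2
      exact h1
    · intro m hm
      have h1 : c⁻¹ • unmask m ∈ fam sextT := by
        rw [← cent_t0_sextet ((centM t0c).inv_mem hcC)]
        exact Finset.smul_mem_smul_finset (mem_fam.2 ⟨m, hm, rfl⟩)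
      obtain ⟨m', hm', he⟩ := mem_fam.1 h1
      rw [mul_smul, mul_smul, ← he, hq2 m' hm', he, smul_inv_smul]
  · intro c hc hct hcq
    exact mem_QBs.2 ⟨hc, hct.symm, fixes_tetrads hcq⟩

/-- **the local hypothesis for all involutions of `M24`.** -/
theorem locA_M24 {t : Equiv.Perm GolayPt} (ht : t ∈ M24) (h2 : t * t = 1) (h1 : t ≠ 1) :
    LocA M24 t := by
  by_cases hfix : ∃ p, t p = p
  · obtain ⟨p, hp⟩ := hfix
    exact locA_of_fixed le_rfl ht h2 h1 hp (fun g hg _ => hg)
  · rcases invol_class ht (orderOf_eq_two h2 h1) with ⟨k, hk, he⟩ | ⟨k, hk, he⟩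
    · exfalso
      apply hfix
      have h3 : pt 4 ∈ Finset.univ.filter (fun p => permOf z0c p = p) := by
        rw [Cfsg.Agent.Lib.Helper92.fix_z0]; decide +kernel
      rw [Finset.mem_filter] at h3
      refine ⟨k⁻¹ (pt 4), ?_⟩
      have h4 := h3.2
      rw [← he] at h4
      simp only [Equiv.Perm.mul_apply] at h4
      exact k.injective (by rw [h4]; simp)
    · exact LocA.of_conj hk he locA_t0

end Cfsg.Agent.Lib.Helper7.Blk
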