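import Cfsg.Agent.Lib.Helper7.Stem6
import Cfsg.Agent.Lib.Helper7.MultM11

/-!
# The Schur multiplier of `M23` is trivial
-/

set_option autoImplicit false
set_option linter.style.haveILetI false

namespace Cfsg.Agent.Lib.Helper7

open Cfsg Cfsg.Agent.Lib.Helper27
open scoped Pointwise

/-- `∃ a ∈ l, f a`, kernel friendly -/
def anyL {α : Type} (f : α → Bool) (l : List α) : Bool := List.rec false (fun a _ ih => bor (f a) ih) l

theorem anyL_iff {α : Type} (f : α → Bool) (l : List α) :
    anyL f l = true ↔ ∃ a ∈ l, f a = true := by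
  induction l with
  | nil => simp [anyL]
  | cons a l ih =>
    have : anyL f (a :: l) = bor (f a) (anyL f l) := rfl
    rw [this, bor_eq, Bool.or_eq_true, ih]
    simp

/-- the pointwise stabiliser of the standard octad -/
def LE : List ℕ := [2 ^ 5, 2 ^ 3, 2 ^ 2, 2 ^ 1, 2 ^ 0, 2 ^ 23]

theorem fixer_LE_le : fixer LE ≤ fixer L5 := fixer_cons_le L5 (2 ^ 5)

theorem card_fixer_LE : Nat.card (fixer LE) = 16 := by
  have h := card_fixer_cons L5 (b := 5) (by norm_num) 147488
    (fun q hq => by
      obtain ⟨g, hg, hgq⟩ := trans6 q hq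
      exact ⟨g, fixer_cons_le L5 (2 ^ 4) hg, hgq⟩)
    (fun g hg => (inv5_octad.xor inv5b).apply_mem (by decide +kernel) hg)
  rw [card_fixer_L5, show pc 147488 = 3 by decide +kernel] at h
  have h' : Nat.card (fixer LE) = Nat.card (fixer (2 ^ 5 :: L5)) := rfl
  omega

def cX0 : ℕ := 976448692869377735270425038196672544
def cOm : ℕ := 976531636853126291160407323722221600
def cS : ℕ := 975731401803090368440380524540725283
def cT : ℕ := 970408745037899174542809581725223937
def cKs : ℕ := 972682816246399726163167348885467300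
def cKt : ℕ := 963628134693512041558038198912002220
def cKd : ℕ := 967094033065630175826877147755189575
def cY0 : ℕ := 963721886883755259286232606933354528
def cV0 : ℕ := 972512676110088067912772961567868960

/-- the involutions of `fixer LE`, each with an element of `M23` conjugating `cX0` to it -/
def tabE : List (ℕ × ℕ) := [(976448692869377735270425038196672544, 964642278632390034165056726389691488), (963721886883755259286232606933354528, 963800342034149429510734661531370574), (972512676110088067912772961567868960, 968542355603429581248704311106517538), (965128854020860192151391391390468128, 970034783805846748419749615244448881), (961365507626256404119956257276790816, 979531620350550705168889696643121186), (970499966350631336865513127433832480, 971834447719012622077087895689661486), (967812279691448225500382947153381408, 968900238329523959760483854738003041), (983548720921252936276249910206105632, 965955489590341378921859359770154051), (980224387687010295957922729495201824, 968551312566990114329035289880857602), (975346028712660580592452217730074656,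 970054594532569418592095736742122510), (971592882964418941354553515258775584, 972510448945097482524974685559526449), (968708902336673183175954409307867168, 979367055578057416540365708978097710), (966182099583441531322624363496310816, 979018296012666151072643059522109521), (981818691054096003685363657089320992, 967566614975904446582067252806844494), (979121071158219704299181131031480352, 969993941653313814458970758997772291)]

def chkE (w : List ℕ) : Bool :=
  bor (Bool.not (Nat.beq (wordEnt w 5) 5))
    (bor (powIsOne w 1) (anyL (fun ck => checkWord ck.1 w) tabE))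

/-- the checks on an entry of the table -/
def chkTab (ck : ℕ × ℕ) : Bool :=
  band (validCode ck.1) (band (checkFix L1 ck.2) (band (wordEqB [ck.1, ck.2] [ck.2, cX0])
    (band (wordEqB [ck.1, cOm, ck.1, cOm, cOm, cOm, cOm, ck.1, cOm] [])
      (band (Nat.beq (ent ck.1 14) 14) (Nat.beq (ent ck.1 17) 17)))))

theorem tabE_ok : ∀ ck ∈ tabE, chkTab ck = true := (allList_iff _ _).1 (by decide +kernel)

theorem mem_LE_cases {g : Equiv.Perm GolayPt} (hg : g ∈ fixer LE) :
    g = 1 ∨ ∃ ck ∈ tabE, g = permOf ck.1 := by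
  obtain ⟨w, hw, hf⟩ := enum_L5.forall chkE (by decide +kernel) (fixer_LE_le hg)
  have h5 : g (pt 5) = pt 5 := fixer_fix hg (i := 5) (by norm_num) (by simp [LE])
  unfold chkE at hf
  rw [bor_eq, bor_eq, Bool.or_eq_true, Bool.or_eq_true] at hf
  rcases hf with hf | hf | hf
  · exfalso
    have := hw (pt 5)
    rw [h5, idx_pt (by norm_num)] at this
    rw [← this] at hf
    simp at hf
  · left
    simpa using pow_eq_one_of_check hw hf
  · right
    obtain ⟨ck, hck, hc⟩ := (anyL_iff _ _).1 hf
    refine ⟨ck, hck, ?_⟩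
    have hv := tabE_ok ck hck
    unfold chkTab at hv
    rw [band_eq, Bool.and_eq_true] at hv
    unfold checkWord at hc
    rw [allBelow_iff] at hc
    ext1 p
    apply idx_injective
    rw [hw p, idx_permOf_apply hv.1]
    exact (Nat.eq_of_beq_eq_true (hc _ (idx_lt p))).symm

theorem word_eq' {w1 w2 : List ℕ} (h1 : ∀ c ∈ w1, validCode c = true)
    (h2 : ∀ c ∈ w2, validCode c = true) (h : wordEqB w1 w2 = true) :
    (w1.map permOf).prod = (w2.map permOf).prod :=
  word_eq ((allList_iff _ _).2 h1) ((allList_iff _ _).2 h2) h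

theorem LE_fix {e : Equiv.Perm GolayPt} (he : e ∈ fixer LE) {p : GolayPt}
    (hp : p ∈ unmask stdOctad) : e p = p := by
  have hcases : ∀ p : GolayPt, p ∈ unmask stdOctad → p = pt 23 ∨ p = pt 0 ∨ p = pt 1 ∨ p = pt 2 ∨
      p = pt 3 ∨ p = pt 5 ∨ p = pt 14 ∨ p = pt 17 := by decide +kernel
  have h1417 : e (pt 14) = pt 14 ∧ e (pt 17) = pt 17 := by
    rcases mem_LE_cases he with rfl | ⟨ck, hck, rfl⟩
    · exact ⟨rfl, rfl⟩
    · have hv := tabE_ok ck hck
      unfold chkTab at hv
      simp only [band_eq, Bool.and_eq_true, Nat.beq_eq] at hv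
      obtain ⟨v1, -, -, -, v5, v6⟩ := hv
      rw [permOf_apply v1, permOf_apply v1, idx_pt (by norm_num), idx_pt (by norm_num), v5, v6]
      exact ⟨rfl, rfl⟩
  rcases hcases p hp with rfl | rfl | rfl | rfl | rfl | rfl | rfl | rfl
  · exact fixer_fix he (i := 23) (by norm_num) (by simp [LE])
  · exact fixer_fix he (i := 0) (by norm_num) (by simp [LE])
  · exact fixer_fix he (i := 1) (by norm_num) (by simp [LE])
  · exact fixer_fix he (i := 2) (by norm_num) (by simp [LE])
  · exact fixer_fix he (i := 3) (by norm_num) (by simp [LE])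
  · exact fixer_fix he (i := 5) (by norm_num) (by simp [LE])
  · exact h1417.1
  · exact h1417.2

theorem conj_mem_LE {d e : Equiv.Perm GolayPt} (hd : d ∈ M24)
    (hO : d • unmask stdOctad = unmask stdOctad) (he : e ∈ fixer LE) : d * e * d⁻¹ ∈ fixer LE := by
  refine mem_fixer_of_pts (M24.mul_mem (M24.mul_mem hd he.1) (M24.inv_mem hd)) [5, 3, 2, 1, 0, 23] ?_
  intro b hb
  have hb' : b < 24 ∧ pt b ∈ unmask stdOctad := by
    simp only [List.mem_cons, List.not_mem_nil, or_false] at hb
    rcases hb with rfl | rfl | rfl | rfl | rfl | rfl <;> exact ⟨by norm_num, by decide +kernel⟩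
  refine ⟨hb'.1, ?_⟩
  have h1 : d⁻¹ (pt b) ∈ unmask stdOctad := by
    have : pt b ∈ d • unmask stdOctad := by rw [hO]; exact hb'.2
    exact Finset.inv_smul_mem_iff.2 this
  rw [Equiv.Perm.mul_apply, Equiv.Perm.mul_apply, LE_fix he h1]
  simp

theorem smul_octad_of_code {c : ℕ} (h : validCode c = true)
    (h2 : Nat.beq (permMask c stdOctad) stdOctad = true) :
    permOf c • unmask stdOctad = unmask stdOctad := by
  rw [smul_unmask_permOf h (by decide +kernel), Nat.eq_of_beq_eq_true h2]

theorem notMem_LE_word (w : List ℕ) (hv : allList validCode w = true) (b : ℕ) (hb : 2 ^ b ∈ LE)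
    (hb24 : b < 24) (h : Nat.beq (wordEnt w b) b = false) : (w.map permOf).prod ∉ fixer LE := by
  intro hc
  have h1 := fixer_fix hc hb24 hb
  have h2 := idx_prod_apply w ((allList_iff _ _).1 hv) (pt b)
  rw [h1, idx_pt hb24] at h2
  rw [← h2] at h
  simp at h

def cU23 : ℕ := 978280772040925110715012262448869408
def cV23 : ℕ := 962307125737334968210105022915325970
def cG23 : ℕ := 977677647657165301346664098906055681

theorem fixer_LE_le_L1 : fixer LE ≤ fixer L1 := by
  intro g hg
  exact ⟨hg.1, fun m hm => hg.2 m (by simp only [L1, List.mem_singleton] at hm; subst hm; simp [LE])⟩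

/-- an element of `M23` from its code -/
noncomputable def mkL1 (c : ℕ) (h : checkFix L1 c = true) : fixer L1 := ⟨permOf c, permOf_mem_fixer h⟩

@[simp] theorem coe_mkL1 (c : ℕ) (h : checkFix L1 c = true) :
    ((mkL1 c h : fixer L1) : Equiv.Perm GolayPt) = permOf c := rfl

theorem okX0 : checkFix L1 cX0 = true := by decide +kernel
theorem okY0 : checkFix L1 cY0 = true := by decide +kernel
theorem okV0 : checkFix L1 cV0 = true := by decide +kernel
theorem okOm : checkFix L1 cOm = true := by decide +kernel
theorem okS : checkFix L1 cS = true := by decide +kernel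
theorem okT : checkFix L1 cT = true := by decide +kernel
theorem okKs : checkFix L1 cKs = true := by decide +kernel
theorem okKt : checkFix L1 cKt = true := by decide +kernel
theorem okKd : checkFix L1 cKd = true := by decide +kernel

/-- the group `E` inside `M23` -/
def E23 : Subgroup (fixer L1) := (fixer LE).subgroupOf (fixer L1)

theorem mem_E23 {e : fixer L1} : e ∈ E23 ↔ (e : Equiv.Perm GolayPt) ∈ fixer LE :=
  Subgroup.mem_subgroupOf

theorem card_E23 : Nat.card E23 = 16 := by
  rw [← card_fixer_LE]
  exact Nat.card_congr (Subgroup.subgroupOfEquivOfLe fixer_LE_le_L1).toEquiv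

/-- equality of two words in `M23` -/
theorem eq_of_words {a b : fixer L1} (w1 w2 : List ℕ) (h1 : allList validCode w1 = true)
    (h2 : allList validCode w2 = true) (h : wordEqB w1 w2 = true)
    (ha : (a : Equiv.Perm GolayPt) = (w1.map permOf).prod)
    (hb : (b : Equiv.Perm GolayPt) = (w2.map permOf).prod) : a = b :=
  Subtype.ext (by rw [ha, hb]; exact word_eq h1 h2 h)

theorem ne_of_words {a b : fixer L1} (w1 w2 : List ℕ) (h1 : allList validCode w1 = true)
    (h2 : allList validCode w2 = true) (h : wordEqB w1 w2 = false)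
    (ha : (a : Equiv.Perm GolayPt) = (w1.map permOf).prod)
    (hb : (b : Equiv.Perm GolayPt) = (w2.map permOf).prod) : a ≠ b := by
  intro hc
  apply word_ne h1 h2 h
  rw [← ha, ← hb, hc]

noncomputable abbrev gX0 := mkL1 cX0 okX0
noncomputable abbrev gY0 := mkL1 cY0 okY0
noncomputable abbrev gV0 := mkL1 cV0 okV0
noncomputable abbrev gOm := mkL1 cOm okOm
noncomputable abbrev gS := mkL1 cS okS
noncomputable abbrev gT := mkL1 cT okT

theorem gOm_inv : gOm⁻¹ = gOm * gOm := by
  apply inv_eq_of_mul_eq_one_right
  exact eq_of_words [cOm, cOm, cOm] [] (by decide +kernel) (by decide +kernel) (by decide +kernel)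
    (by simp) (by simp)

theorem gS_inv : gS⁻¹ = gS := by
  apply inv_eq_of_mul_eq_one_right
  exact eq_of_words [cS, cS] [] (by decide +kernel) (by decide +kernel) (by decide +kernel)
    (by simp) (by simp)

theorem gT_inv : gT⁻¹ = gT := by
  apply inv_eq_of_mul_eq_one_right
  exact eq_of_words [cT, cT] [] (by decide +kernel) (by decide +kernel) (by decide +kernel)
    (by simp) (by simp)

theorem gD_inv : (gS * gT * gS * gT)⁻¹ = gS * gT * gS * gT := by
  apply inv_eq_of_mul_eq_one_right
  exact eq_of_words [cS, cT, cS, cT, cS, cT, cS, cT] [] (by decide +kernel) (by decide +kernel)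
    (by decide +kernel) (by simp [mul_assoc]) (by simp)

theorem conj_mem_E23 (d : fixer L1)
    (hd : (d : Equiv.Perm GolayPt) • unmask stdOctad = unmask stdOctad) :
    ∀ e ∈ E23, d * e * d⁻¹ ∈ E23 := fun _ he => conj_mem_LE d.2.1 hd he

theorem octad_Om : (gOm : Equiv.Perm GolayPt) • unmask stdOctad = unmask stdOctad :=
  smul_octad_of_code (c := cOm) (by decide +kernel) (by decide +kernel)
theorem octad_S : (gS : Equiv.Perm GolayPt) • unmask stdOctad = unmask stdOctad :=
  smul_octad_of_code (c := cS) (by decide +kernel) (by decide +kernel)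
theorem octad_T : (gT : Equiv.Perm GolayPt) • unmask stdOctad = unmask stdOctad :=
  smul_octad_of_code (c := cT) (by decide +kernel) (by decide +kernel)

theorem E23_hω : ∀ e ∈ E23, gOm * e * gOm⁻¹ ∈ E23 ∧ gOm⁻¹ * e * gOm ∈ E23 := by
  intro e he
  refine ⟨conj_mem_E23 gOm octad_Om e he, ?_⟩
  have := conj_mem_E23 gOm⁻¹ (by rw [Subgroup.coe_inv, inv_smul_eq_iff, octad_Om]) e he
  rwa [inv_inv] at this

theorem E23_hT : ∀ e ∈ E23, e * (gOm * e * gOm⁻¹) * (gOm⁻¹ * e * gOm) = 1 := by
  intro e he
  rcases mem_LE_cases (mem_E23.1 he) with h1 | ⟨ck, hck, h1⟩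
  · have : e = 1 := Subtype.ext h1
    subst this
    simp
  · have hv := tabE_ok ck hck
    unfold chkTab at hv
    simp only [band_eq, Bool.and_eq_true] at hv
    obtain ⟨v1, v2, v3, v4, -, -⟩ := hv
    rw [gOm_inv]
    apply Subtype.ext
    have hvO : validCode cOm = true := by decide +kernel
    have := word_eq' (w1 := [ck.1, cOm, ck.1, cOm, cOm, cOm, cOm, ck.1, cOm]) (w2 := [])
      (by
        intro c hc
        simp only [List.mem_cons, List.not_mem_nil, or_false] at hc
        rcases hc with h | h | h | h | h | h | h | h | h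
        · rw [h]; exact v1
        · rw [h]; exact hvO
        · rw [h]; exact v1
        · rw [h]; exact hvO
        · rw [h]; exact hvO
        · rw [h]; exact hvO
        · rw [h]; exact hvO
        · rw [h]; exact v1
        · rw [h]; exact hvO)
      (by simp) v4
    simpa [h1, mul_assoc] using this

theorem E23_hconj : ∀ e ∈ E23, e = 1 ∨ ∃ k, e = k * gX0 * k⁻¹ := by
  intro e he
  rcases mem_LE_cases (mem_E23.1 he) with h1 | ⟨ck, hck, h1⟩
  · left; exact Subtype.ext h1
  · right
    have hv := tabE_ok ck hck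
    unfold chkTab at hv
    simp only [band_eq, Bool.and_eq_true] at hv
    obtain ⟨v1, v2, v3, -, -, -⟩ := hv
    refine ⟨mkL1 ck.2 v2, ?_⟩
    rw [eq_mul_inv_iff_mul_eq]
    apply Subtype.ext
    have hvX : validCode cX0 = true := by decide +kernel
    have hvk := valid_of_checkFix v2
    have := word_eq' (w1 := [ck.1, ck.2]) (w2 := [ck.2, cX0])
      (by
        intro c hc
        simp only [List.mem_cons, List.not_mem_nil, or_false] at hc
        rcases hc with h | h
        · rw [h]; exact v1
        · rw [h]; exact hvk)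
      (by
        intro c hc
        simp only [List.mem_cons, List.not_mem_nil, or_false] at hc
        rcases hc with h | h
        · rw [h]; exact hvk
        · rw [h]; exact hvX) v3
    simpa [h1] using this

theorem notMem_E23 {a : fixer L1} (w : List ℕ) (hv : allList validCode w = true) (b : ℕ)
    (hb : 2 ^ b ∈ LE) (hb24 : b < 24) (h : Nat.beq (wordEnt w b) b = false)
    (ha : (a : Equiv.Perm GolayPt) = (w.map permOf).prod) : a ∉ E23 := by
  intro hc
  apply notMem_LE_word w hv b hb hb24 h
  rw [← ha]
  exact mem_E23.1 hc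

theorem E23_hD : gS * gT * gS * gT ∉ E23 ∧ gS ∉ E23 ∧ (gS * gT * gS * gT)⁻¹ * gS ∉ E23 ∧ gT ∉ E23 ∧
    (gS * gT * gS * gT)⁻¹ * gT ∉ E23 ∧ gS⁻¹ * gT ∉ E23 ∧
    (gS * gT * gS * gT)⁻¹ * (gS⁻¹ * gT) ∉ E23 := by
  rw [gD_inv, gS_inv]
  refine ⟨?_, ?_, ?_, ?_, ?_, ?_, ?_⟩
  · exact notMem_E23 [cS, cT, cS, cT] (by decide +kernel) 0 (by simp [LE]) (by norm_num)
      (by decide +kernel) (by simp [mul_assoc])
  · exact notMem_E23 [cS] (by decide +kernel) 0 (by simp [LE]) (by norm_num)
      (by decide +kernel) (by simp [mul_assoc])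
  · exact notMem_E23 [cS, cT, cS, cT, cS] (by decide +kernel) 1 (by simp [LE]) (by norm_num)
      (by decide +kernel) (by simp [mul_assoc])
  · exact notMem_E23 [cT] (by decide +kernel) 0 (by simp [LE]) (by norm_num)
      (by decide +kernel) (by simp [mul_assoc])
  · exact notMem_E23 [cS, cT, cS, cT, cT] (by decide +kernel) 0 (by simp [LE]) (by norm_num)
      (by decide +kernel) (by simp [mul_assoc])
  · exact notMem_E23 [cS, cT] (by decide +kernel) 0 (by simp [LE]) (by norm_num)
      (by decide +kernel) (by simp [mul_assoc])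
  · exact notMem_E23 [cS, cT, cS, cT, cS, cT] (by decide +kernel) 0 (by simp [LE]) (by norm_num)
      (by decide +kernel) (by simp [mul_assoc])

theorem E23_hne : gX0 ≠ 1 ∧ gY0 ≠ 1 ∧ gV0 ≠ 1 ∧ gX0 * gY0 ≠ 1 ∧ gX0 * gV0 ≠ 1 ∧ gY0 * gV0 ≠ 1 ∧
    gX0 * (gY0 * gV0) ≠ 1 := by
  refine ⟨?_, ?_, ?_, ?_, ?_, ?_, ?_⟩
  · exact ne_of_words [cX0] [] (by decide +kernel) (by decide +kernel) (by decide +kernel)
      (by simp) (by simp)
  · exact ne_of_words [cY0] [] (by decide +kernel) (by decide +kernel) (by decide +kernel)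
      (by simp) (by simp)
  · exact ne_of_words [cV0] [] (by decide +kernel) (by decide +kernel) (by decide +kernel)
      (by simp) (by simp)
  · exact ne_of_words [cX0, cY0] [] (by decide +kernel) (by decide +kernel) (by decide +kernel)
      (by simp) (by simp)
  · exact ne_of_words [cX0, cV0] [] (by decide +kernel) (by decide +kernel) (by decide +kernel)
      (by simp) (by simp)
  · exact ne_of_words [cY0, cV0] [] (by decide +kernel) (by decide +kernel) (by decide +kernel)
      (by simp) (by simp)
  · exact ne_of_words [cX0, cY0, cV0] [] (by decide +kernel) (by decide +kernel) (by decide +kernel)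
      (by simp) (by simp)

theorem E23_hs : ∃ k, gS = k * gX0 * k⁻¹ := by
  refine ⟨mkL1 cKs okKs, ?_⟩
  rw [eq_mul_inv_iff_mul_eq]
  exact eq_of_words [cS, cKs] [cKs, cX0] (by decide +kernel) (by decide +kernel) (by decide +kernel)
    (by simp) (by simp)

theorem E23_ht : ∃ k, gT = k * gX0 * k⁻¹ := by
  refine ⟨mkL1 cKt okKt, ?_⟩
  rw [eq_mul_inv_iff_mul_eq]
  exact eq_of_words [cT, cKt] [cKt, cX0] (by decide +kernel) (by decide +kernel) (by decide +kernel)
    (by simp) (by simp)

theorem E23_hst : ∃ k, gS * gT * gS * gT = k * gX0 * k⁻¹ := by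
  refine ⟨mkL1 cKd okKd, ?_⟩
  rw [eq_mul_inv_iff_mul_eq]
  exact eq_of_words [cS, cT, cS, cT, cKd] [cKd, cX0] (by decide +kernel) (by decide +kernel)
    (by decide +kernel) (by simp [mul_assoc]) (by simp)

theorem E23_hsω : gS⁻¹ * gOm * gS = gOm⁻¹ := by
  rw [mul_assoc, inv_mul_eq_iff_eq_mul, gOm_inv]
  exact eq_of_words [cOm, cS] [cS, cOm, cOm] (by decide +kernel) (by decide +kernel)
    (by decide +kernel) (by simp) (by simp)

theorem E23_htω : gT⁻¹ * gOm * gT = gOm := by
  rw [mul_assoc, inv_mul_eq_iff_eq_mul]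
  exact eq_of_words [cOm, cT] [cT, cOm] (by decide +kernel) (by decide +kernel)
    (by decide +kernel) (by simp) (by simp)

theorem gX0_sq : gX0 * gX0 = 1 :=
  eq_of_words [cX0, cX0] [] (by decide +kernel) (by decide +kernel) (by decide +kernel)
    (by simp) (by simp)

theorem gX0_mem : gX0 ∈ E23 := mem_E23.2 (permOf_mem_fixer (L := LE) (c := cX0) (by decide +kernel))
theorem gY0_mem : gY0 ∈ E23 := mem_E23.2 (permOf_mem_fixer (L := LE) (c := cY0) (by decide +kernel))
theorem gV0_mem : gV0 ∈ E23 := mem_E23.2 (permOf_mem_fixer (L := LE) (c := cV0) (by decide +kernel))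

theorem two_part_M23 {Γ : Type} [Group Γ] [Finite Γ] {σ : Γ →* fixer L1}
    (hσ : Cfsg.IsStemExtension σ) (hexp : ∀ x ∈ σ.ker, x ^ 2 = 1) : σ.ker = ⊥ :=
  ker_eq_bot_of_E_D8 hσ hexp E23 gX0 gX0_sq E23_hconj gX0 gY0 gV0
    gX0_mem gY0_mem gV0_mem E23_hne gOm gS gT E23_hω E23_hT
    E23_hs E23_ht E23_hst (conj_mem_E23 gS octad_S) (conj_mem_E23 gT octad_T)
    (Or.inr E23_hsω) (Or.inl E23_htω) E23_hD (by rw [card_E23, card_fixer_L1]; norm_num)

theorem okU23 : checkFix L1 cU23 = true := by decide +kernel
theorem okV23 : checkFix L1 cV23 = true := by decide +kernel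
theorem okG23 : checkFix L1 cG23 = true := by decide +kernel

theorem three_part_M23 {Γ : Type} [Group Γ] [Finite Γ] {σ : Γ →* fixer L1}
    (hσ : Cfsg.IsStemExtension σ) (hexp : ∀ x ∈ σ.ker, x ^ 3 = 1) : σ.ker = ⊥ := by
  haveI : Fact (Nat.Prime 3) := ⟨by norm_num⟩
  have ha : orderOf (mkL1 cU23 okU23) = 3 := by
    apply orderOf_eq_prime
    · exact eq_of_words [cU23, cU23, cU23] [] (by decide +kernel) (by decide +kernel)
        (by decide +kernel) (by simp [pow_succ, mul_assoc]) (by simp)
    · exact ne_of_words [cU23] [] (by decide +kernel) (by decide +kernel) (by decide +kernel)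
        (by simp) (by simp)
  have hb : (mkL1 cV23 okV23) ^ 3 = 1 :=
    eq_of_words [cV23, cV23, cV23] [] (by decide +kernel) (by decide +kernel)
      (by decide +kernel) (by simp [pow_succ, mul_assoc]) (by simp)
  have hb1 : mkL1 cV23 okV23 ≠ 1 :=
    ne_of_words [cV23] [] (by decide +kernel) (by decide +kernel) (by decide +kernel)
      (by simp) (by simp)
  have hab : mkL1 cU23 okU23 * mkL1 cV23 okV23 = mkL1 cV23 okV23 * mkL1 cU23 okU23 :=
    eq_of_words [cU23, cV23] [cV23, cU23] (by decide +kernel) (by decide +kernel)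
      (by decide +kernel) (by simp) (by simp)
  have hga : mkL1 cG23 okG23 * mkL1 cU23 okU23 * (mkL1 cG23 okG23)⁻¹ = mkL1 cU23 okU23 := by
    rw [mul_inv_eq_iff_eq_mul]
    exact eq_of_words [cG23, cU23] [cU23, cG23] (by decide +kernel) (by decide +kernel)
      (by decide +kernel) (by simp) (by simp)
  have hgb : mkL1 cG23 okG23 * mkL1 cV23 okV23 * (mkL1 cG23 okG23)⁻¹ = (mkL1 cV23 okV23)⁻¹ := by
    rw [mul_inv_eq_iff_eq_mul, eq_inv_mul_iff_mul_eq]
    exact eq_of_words [cV23, cG23, cV23] [cG23] (by decide +kernel) (by decide +kernel)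
      (by decide +kernel) (by simp [mul_assoc]) (by simp)
  apply ker_eq_bot_of_reflection hσ hexp hab ha hb hb1 hga hgb
  rw [card_fixer_L1]; norm_num

theorem multiplier_fixer_L1 : Cfsg.HasCyclicSchurMultiplier (fixer L1) 1 := by
  apply trivial_multiplier_of_exponent
  intro p hp Γ _ _ σ hσ hexp
  by_cases h2 : p = 2
  · subst h2; exact two_part_M23 hσ hexp
  · by_cases h3 : p = 3
    · subst h3; exact three_part_M23 hσ hexp
    · apply ker_eq_bot_of_not_sq_dvd hσ hp hexp
      rw [card_fixer_L1]
      exact not_sq_dvd_of_squarefree (a := 7) (b := 2) (m := 8855) hp h2 h3 (by decide +kernel)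

theorem multiplier_M23 : Cfsg.HasCyclicSchurMultiplier Spor.M23 1 := by
  rw [M23_eq_fixer]; exact multiplier_fixer_L1

end Cfsg.Agent.Lib.Helper7
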