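import Cfsg.Agent.Lib.Helper92.M24InvolCent
import Cfsg.Agent.Lib.Helper7.MultM23
import Cfsg.Agent.Lib.Helper7.OneBlockA

/-!
# The local hypothesis of the one-block criterion for the involutions of `M24` with fixed points
-/

set_option autoImplicit false

namespace Cfsg.Agent.Lib.Helper7.Blk

open Cfsg
open Cfsg.Agent.Lib.Helper27
open Cfsg.Agent.Lib.Helper92 (mulU idCode mulU_eq_idCode_iff mulU_eq_iff permOf_pt pt_injOn
  invol_class orderOf_eq_two z0c t0c z0c_valid t0c_valid fix_t0 smul_fix_of_comm fixMask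
  unmask_fixMask imgMask testBit_imgMask validCode_idCode permOf_idCode)
open Cfsg.Agent.Lib.Helper7.OneBlock
open scoped Pointwise

/-- the local hypothesis, in the ambient symmetric group. -/
def LocA (Γ : Subgroup (Equiv.Perm GolayPt)) (t : Equiv.Perm GolayPt) : Prop :=
  ∃ Q : Subgroup (Equiv.Perm GolayPt), Q ≤ Γ ∧ (∀ q ∈ Q, q * q = 1) ∧ (∀ q ∈ Q, t * q = q * t) ∧
    (∀ c ∈ Γ, t * c = c * t → ∀ q ∈ Q, c * q * c⁻¹ ∈ Q) ∧
    (∀ c ∈ Γ, t * c = c * t → (∀ q ∈ Q, q * c = c * q) → c ∈ Q)

theorem localOK_of_locA {Γ : Subgroup (Equiv.Perm GolayPt)} {t : Γ}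
    (h : LocA Γ (t : Equiv.Perm GolayPt)) : LocalOK t := by
  obtain ⟨Q, hQΓ, hQ2, hQt, hQn, hQc⟩ := h
  refine ⟨Q.subgroupOf Γ, ?_, ?_, ?_, ?_⟩
  · intro q
    refine ⟨1, ?_⟩
    apply Subtype.ext
    apply Subtype.ext
    have := hQ2 (q : Γ) (Subgroup.mem_subgroupOf.1 q.2)
    rw [pow_one, pow_two]
    exact this
  · intro q hq
    exact Subtype.ext (hQt q (Subgroup.mem_subgroupOf.1 hq))
  · intro c hc q hq
    rw [Subgroup.mem_subgroupOf] at hq ⊢
    exact hQn c c.2 (congrArg Subtype.val hc) q hq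
  · intro c hc hcq
    rw [Subgroup.mem_subgroupOf]
    apply hQc c c.2 (congrArg Subtype.val hc)
    intro q hq
    exact congrArg Subtype.val (hcq ⟨q, hQΓ hq⟩ (Subgroup.mem_subgroupOf.2 hq))

/-! ### the pointwise stabiliser of the standard octad -/

theorem tabE_valid : ∀ ck ∈ tabE, validCode ck.1 = true := by
  intro ck hck
  have hv := tabE_ok ck hck
  unfold chkTab at hv
  rw [band_eq, Bool.and_eq_true] at hv
  exact hv.1

theorem tabE_sq : ∀ ck ∈ tabE, mulU ck.1 ck.1 = idCode := by decide +kernel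

theorem LE_sq {e : Equiv.Perm GolayPt} (he : e ∈ fixer LE) : e * e = 1 := by
  rcases mem_LE_cases he with rfl | ⟨ck, hck, rfl⟩
  · exact one_mul 1
  · exact (mulU_eq_idCode_iff (tabE_valid ck hck) (tabE_valid ck hck)).1 (tabE_sq ck hck)

theorem LE_comm {e e' : Equiv.Perm GolayPt} (he : e ∈ fixer LE) (he' : e' ∈ fixer LE) :
    e * e' = e' * e := by
  have h1 := LE_sq ((fixer LE).mul_mem he he')
  have h2 := LE_sq he
  have h3 := LE_sq he'
  calc e * e' = e' * e' * (e * e') * (e * e) := by rw [h2, h3]; group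
    _ = e' * (e' * e * (e' * e)) * e := by group
    _ = e' * e := by
      have : e' * e * (e' * e) = 1 := LE_sq ((fixer LE).mul_mem he' he)
      rw [this]; group

theorem cX0_mem : permOf cX0 ∈ fixer LE := permOf_mem_fixer (L := LE) (c := cX0) (by decide +kernel)

theorem cX0_valid : validCode cX0 = true := by decide +kernel

theorem fix_cX0 : Finset.univ.filter (fun p => permOf cX0 p = p) = unmask stdOctad := by
  rw [← unmask_fixMask cX0_valid]
  congr 1

/-- the codes of the elements of `fixer LE`. -/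
def codesE : List ℕ := idCode :: tabE.map Prod.fst

theorem codesE_mem : ∀ c ∈ codesE, checkFix LE c = true := by decide +kernel

theorem LE_trans {y : GolayPt} (hy : y ∉ unmask stdOctad) : ∃ e ∈ fixer LE, e (pt 4) = y := by
  have h : imgMask codesE 4 = 8241104 := by decide +kernel
  have h0 : ∀ q : GolayPt, q ∉ unmask stdOctad → (8241104 : ℕ).testBit (idx q) = true := by
    decide +kernel
  have h1 : (imgMask codesE 4).testBit (idx y) = true := by rw [h]; exact h0 y hy
  obtain ⟨u, hu, he⟩ := (testBit_imgMask codesE 4 _).1 h1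
  exact ⟨permOf u, permOf_mem_fixer (codesE_mem u hu),
    by rw [permOf_pt (valid_of_checkFix (codesE_mem u hu)) (by norm_num), he, pt_idx]⟩

/-- `fixer LE` is its own centralizer in `M24`. -/
theorem LE_self_centralizing {c : Equiv.Perm GolayPt} (hc : c ∈ M24)
    (h : ∀ e ∈ fixer LE, e * c = c * e) : c ∈ fixer LE := by
  have hO : c • unmask stdOctad = unmask stdOctad := by
    rw [← fix_cX0]
    exact smul_fix_of_comm (h _ cX0_mem).symm
  have h4 : pt 4 ∉ unmask stdOctad := by decide +kernel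
  have hy : c (pt 4) ∉ unmask stdOctad := by
    intro hmem
    apply h4
    rw [← hO] at hmem
    exact (Finset.smul_mem_smul_finset_iff c).1 hmem
  obtain ⟨e, he, hey⟩ := LE_trans hy
  have hc' : e⁻¹ * c = 1 := by
    by_contra hne
    have hm : e⁻¹ * c ∈ M24 := M24.mul_mem (M24.inv_mem he.1) hc
    have h8 := card_fixedPts_le hm hne
    have hsub : Finset.univ \ unmask stdOctad ⊆ fixedPts (e⁻¹ * c) := by
      intro p hp
      rw [Finset.mem_sdiff] at hp
      obtain ⟨e', he', hep⟩ := LE_trans hp.2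
      rw [mem_fixedPts, ← hep, Equiv.Perm.mul_apply, ← Equiv.Perm.mul_apply c e', ← h e' he',
        Equiv.Perm.mul_apply, ← hey, ← Equiv.Perm.mul_apply e' e, LE_comm he' he,
        Equiv.Perm.mul_apply]
      simp
    have h16 := Finset.card_le_card hsub
    have : (Finset.univ \ unmask stdOctad : Finset GolayPt).card = 16 := by decide +kernel
    omega
  have : c = e := by
    have := congrArg (fun z => e * z) hc'
    simpa using this
  rw [this]; exact he

/-- conjugates `z0` to `cX0`. -/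
def cKz : ℕ := 755009546031209907480412781729729740

theorem cKz_check : checkM24 cKz = true := by decide +kernel

theorem cKz_conj : permOf cKz * permOf z0c * (permOf cKz)⁻¹ = permOf cX0 := by
  have h : mulU cKz z0c = mulU cX0 cKz := by decide +kernel
  rw [mulU_eq_iff (valid_of_check cKz_check) z0c_valid cX0_valid (valid_of_check cKz_check)] at h
  rw [h, mul_inv_cancel_right]

theorem exists_conj_cX0 {t : Equiv.Perm GolayPt} (ht : t ∈ M24) (h2 : t * t = 1) (h1 : t ≠ 1)
    {p : GolayPt} (hp : t p = p) : ∃ k ∈ M24, k * t * k⁻¹ = permOf cX0 := by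
  rcases invol_class ht (orderOf_eq_two h2 h1) with ⟨k, hk, he⟩ | ⟨k, hk, he⟩
  · refine ⟨permOf cKz * k, M24.mul_mem (permOf_mem_M24 cKz_check) hk, ?_⟩
    rw [← cKz_conj, ← he]; group
  · exfalso
    apply fix_t0 (k p)
    rw [← he]
    simp [hp]

/-- **the local hypothesis for the involutions with a fixed point.** -/
theorem locA_of_fixed {Γ : Subgroup (Equiv.Perm GolayPt)} (hΓ : Γ ≤ M24) {t : Equiv.Perm GolayPt}
    (ht : t ∈ M24) (h2 : t * t = 1) (h1 : t ≠ 1) {p : GolayPt} (hp : t p = p)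
    (hΓ' : ∀ g ∈ M24, (∀ p, t p = p → g p = p) → g ∈ Γ) : LocA Γ t := by
  obtain ⟨k, hk, he⟩ := exists_conj_cX0 ht h2 h1 hp
  have hmem : ∀ q, q ∈ (fixer LE).comap (MulAut.conj k).toMonoidHom ↔ k * q * k⁻¹ ∈ fixer LE :=
    fun q => Iff.rfl
  have hcomm : ∀ c, t * c = c * t → permOf cX0 * (k * c * k⁻¹) = k * c * k⁻¹ * permOf cX0 := by
    intro c hc
    rw [← he]
    calc k * t * k⁻¹ * (k * c * k⁻¹) = k * (t * c) * k⁻¹ := by group
      _ = k * (c * t) * k⁻¹ := by rw [hc]
      _ = _ := by group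
  refine ⟨(fixer LE).comap (MulAut.conj k).toMonoidHom, ?_, ?_, ?_, ?_, ?_⟩
  · intro q hq
    rw [hmem] at hq
    apply hΓ'
    · have := M24.mul_mem (M24.mul_mem (M24.inv_mem hk) hq.1) hk
      simpa [mul_assoc] using this
    · intro x hx
      have h3 : k x ∈ unmask stdOctad := by
        rw [← fix_cX0, Finset.mem_filter]
        refine ⟨Finset.mem_univ _, ?_⟩
        rw [← he]
        simp [hx]
      have h4 := LE_fix hq h3
      simpa using h4
  · intro q hq
    rw [hmem] at hq
    have := LE_sq hq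
    have h3 : k * q * k⁻¹ * (k * q * k⁻¹) = k * (q * q) * k⁻¹ := by group
    rw [h3] at this
    have := congrArg (fun z => k⁻¹ * z * k) this
    simpa [mul_assoc] using this
  · intro q hq
    rw [hmem] at hq
    have := LE_comm cX0_mem hq
    rw [← he] at this
    have h3 : k * t * k⁻¹ * (k * q * k⁻¹) = k * (t * q) * k⁻¹ := by group
    have h4 : k * q * k⁻¹ * (k * t * k⁻¹) = k * (q * t) * k⁻¹ := by group
    rw [h3, h4] at this
    have := congrArg (fun z => k⁻¹ * z * k) this
    simpa [mul_assoc] using this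
  · intro c hc hct q hq
    rw [hmem] at hq ⊢
    have hO : (k * c * k⁻¹) • unmask stdOctad = unmask stdOctad := by
      rw [← fix_cX0]
      exact smul_fix_of_comm (hcomm c hct).symm
    have := conj_mem_LE (M24.mul_mem (M24.mul_mem hk (hΓ hc)) (M24.inv_mem hk)) hO hq
    have h3 : k * c * k⁻¹ * (k * q * k⁻¹) * (k * c * k⁻¹)⁻¹ = k * (c * q * c⁻¹) * k⁻¹ := by group
    rw [h3] at this
    exact this
  · intro c hc _ hcq
    rw [hmem]
    apply LE_self_centralizing (M24.mul_mem (M24.mul_mem hk (hΓ hc)) (M24.inv_mem hk))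
    intro e he'
    have h3 : k⁻¹ * e * k ∈ (fixer LE).comap (MulAut.conj k).toMonoidHom := by
      rw [hmem]
      have : k * (k⁻¹ * e * k) * k⁻¹ = e := by group
      rw [this]; exact he'
    have h4 := hcq _ h3
    calc e * (k * c * k⁻¹) = k * (k⁻¹ * e * k * c) * k⁻¹ := by group
      _ = k * (c * (k⁻¹ * e * k)) * k⁻¹ := by rw [h4]
      _ = _ := by group

end Cfsg.Agent.Lib.Helper7.Blk
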