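import Mathlib
import Cfsg.Agent.Lib.Helper7.OneBlockB
import Cfsg.Agent.Lib.Helper16.BlockDict

/-!
# A criterion for a finite group to have a single 2-block
-/

set_option autoImplicit false

namespace Cfsg.Agent.Lib.Helper7.OneBlock

open Cfsg Cfsg.Agent.Lib.Helper16

/-- **criterion for a single 2-block.** -/
theorem sameBlock_all {G : Type*} [Group G] [Fintype G] [DecidableEq G]
    (hloc : ∀ t : G, t ≠ 1 → t * t = 1 → LocalOK t) {S : Finset ℕ} {r : ℕ → G}
    (D : Data S r) (M : Ideal AlgInt) (hM : IsPModular 2 M) (χ ψ : IrrCharacter G) :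
    SameBlock M (χ : G → ℂ) (ψ : G → ℂ) := by
  have : M.IsMaximal := hM.2.1
  have : CharP (FM M) 2 := charP_FM hM
  rw [sameBlock_iff_lam_eq]
  apply AlgHom.ext
  intro z
  rw [algHom_eq_sum hloc D, algHom_eq_sum hloc D]

end Cfsg.Agent.Lib.Helper7.OneBlock
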