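import Cfsg.Agent.Lib.Helper7.BlkGen
import Cfsg.Agent.Lib.Helper7.BlkLocal
import Cfsg.Agent.Lib.Helper7.OneBlockC
import Cfsg.Agent.Lib.Helper7.OutM22a

/-!
# `M22` has a single 2-block
-/

set_option autoImplicit false

namespace Cfsg.Agent.Lib.Helper7.Blk

open Cfsg
open Cfsg.Agent.Lib.Helper27
open Cfsg.Agent.Lib.Helper92 (mulU idCode powU isId sumList SChain allP stdLv stdChain keepV keepI
  keepT keepV_ok keepI_ok keepT_ok stp0 stp1 stp2 stp3 stp4 stp5 stp6 QC listGrp grpCheck
  mem_listGrp KeepOK.mono)
open Cfsg.Agent.Lib.Helper7.OneBlock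

/-! ### representatives -/

def S22l : List ℕ := [5, 7, 11]
def S22 : Finset ℕ := {5, 7, 11}

theorem mem_S22 (ℓ : ℕ) : ℓ ∈ S22 ↔ ℓ ∈ S22l := by simp [S22, S22l]

def Rc22 (ℓ : ℕ) : ℕ := Bool.rec (Bool.rec cS11 cS7 (Nat.beq ℓ 7)) cS5 (Nat.beq ℓ 5)
def Ri22 (ℓ : ℕ) : ℕ := Bool.rec (Bool.rec 971175736626365664275505582066173632 969062445576853532209096115247711648 (Nat.beq ℓ 7)) 975442729215174487856029653418444160 (Nat.beq ℓ 5)

theorem Rc22_chk : ∀ ℓ ∈ S22l, checkFix L2 (Rc22 ℓ) = true := by decide +kernel

theorem rep22 : RepOK S22l Rc22 Ri22 where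
  v := by decide +kernel
  vi := by decide +kernel
  inv := by decide +kernel
  ord := by
    intro ℓ hℓ
    have hv := valid_of_checkFix (Rc22_chk ℓ hℓ)
    simp only [S22l, List.mem_cons, List.not_mem_nil, or_false] at hℓ
    rcases hℓ with rfl | rfl | rfl
    · exact orderOf_code_prime hv (by norm_num) (by decide +kernel) (by decide +kernel)
    · exact orderOf_code_prime hv (by norm_num) (by decide +kernel) (by decide +kernel)
    · exact orderOf_code_prime hv (by norm_num) (by decide +kernel) (by decide +kernel)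

/-! ### certificates -/

def C22_5 : List Cert := [(984818244535754528103549039458486304, 0, 1, 984036102911248115080220955032835104),
  (976703853006366076956190391421504576, 1, 5, 984818244535754528103549039458486304),
  (981607391567655577683709268545900640, 1, 5, 978028670967317364724647472125775904),
  (980520773755002089200642627452579968, 1, 5, 977716431536233763167633050966559776),
  (975442729215174487856029653418444160, 1, 5, 984492485564996429423573422847438880)]

def C22_7 : List Cert := [(984818244535754528103549039458486304, 0, 1, 984036102911248115080220955032835104),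
  (974055362495516289877840210542332992, 1, 7, 984818244535754528103549039458486304),
  (967702309577390094084750005474857056, 1, 7, 965263177935055450004879253662929952),
  (979537122921343079073101693232354432, 2, 7, 968862408122672741797669726672030752),
  (964724799127704175894785171469541536, 1, 7, 968862408122672741797669726672030752),
  (982016454037227734852505660792288512, 2, 7, 965263177935055450004879253662929952),
  (969062445576853532209096115247711648, 2, 7, 984818244535754528103549039458486304)]

def C22_11 : List Cert := [(984818244535754528103549039458486304, 0, 1, 984036102911248115080220955032835104),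
  (957216104379803036343468712724139072, 1, 11, 984818244535754528103549039458486304),
  (958677656113003866231602882395934816, 2, 11, 972445920898500723826376314799739936),
  (959661748280373643086103572077253760, 1, 11, 977962421026084269740727986383262752),
  (961082241574671771005741478014538912, 1, 11, 967293757546894361454440390444093472),
  (962783450992148806689461543443674784, 1, 11, 959383668065080709065506702122070048),
  (982693489507109786961662920173602208, 2, 11, 959383668065080709065506702122070048),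
  (972362186683571921225392446467614240, 2, 11, 967293757546894361454440390444093472),
  (977596238043831467574302660158501152, 2, 11, 977962421026084269740727986383262752),
  (967241828400459195474601366633109888, 1, 11, 972445920898500723826376314799739936),
  (971175736626365664275505582066173632, 2, 11, 984818244535754528103549039458486304)]

def C22_P : List Cert := [(984818244535754528103549039458486304, 0, 1, 984036102911248115080220955032835104),
  (979424096606648660796046424626271264, 0, 3, 984451932767317725185682096766621792),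
  (978847592322470028294324236992124960, 0, 3, 984593157177346685562970328217032288),
  (960780780963392425243726181891844128, 0, 3, 968937098005209565020735710859217248),
  (984514800114569889978441987568972832, 0, 3, 979290025217126392513577224938563712),
  (961406802839407444431874505306126368, 0, 3, 984451932767317725185682096766621792),
  (984354006765561519463130653440655392, 0, 3, 979290025217126392513577224938563712),
  (979288259557165535724485788012433440, 0, 3, 968937098005209565020735710859217248),
  (960835567426153069222038298482496544, 0, 3, 984593157177346685562970328217032288)]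

theorem C22_5_ok : allList (certOK L2 S22l Rc22 Ri22) C22_5 = true := by decide +kernel
theorem C22_7_ok : allList (certOK L2 S22l Rc22 Ri22) C22_7 = true := by decide +kernel
theorem C22_11_ok : allList (certOK L2 S22l Rc22 Ri22) C22_11 = true := by decide +kernel
theorem C22_P_ok : allList (certOK L2 S22l Rc22 Ri22) C22_P = true := by decide +kernel

/-- commuting with the code `s`, inside `M22`. -/
def Q22 (s : ℕ) (g : Equiv.Perm GolayPt) : Prop := g (pt 23) = pt 23 ∧ g (pt 0) = pt 0 ∧ QC s g

def lv22a (s : ℕ) : List (ℕ × List ℕ × (ℕ → ℕ → Bool)) :=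
  stdLv (keepV 23 23) (keepV 0 0) keepT (keepI s 2 1) (keepI s 3 2) (keepI s 4 3) (keepI s 5 4)

def lv22b (s : ℕ) : List (ℕ × List ℕ × (ℕ → ℕ → Bool)) :=
  stdLv (keepV 23 23) (keepV 0 0) keepT (keepI s 2 1) (keepI s 3 2) (keepI s 4 3) keepT

theorem chain22a {s : ℕ} (hs : validCode s = true) (h1 : ent s 1 = 2) (h2 : ent s 2 = 3)
    (h3 : ent s 3 = 4) (h4 : ent s 4 = 5) : SChain (Q22 s) [] (lv22a s) :=
  stdChain ((keepV_ok stp0 (by norm_num)).mono fun _ h => h.1)
    ((keepV_ok stp1 (by norm_num)).mono fun _ h => h.2.1) (keepT_ok _ _ _ _)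
    ((keepI_ok stp3 hs hs (by norm_num) (by simp [L3]) h1).mono fun _ h => h.2.2)
    ((keepI_ok stp4 hs hs (by norm_num) (by simp [L4]) h2).mono fun _ h => h.2.2)
    ((keepI_ok stp5 hs hs (by norm_num) (by simp [L5]) h3).mono fun _ h => h.2.2)
    ((keepI_ok stp6 hs hs (by norm_num) (by simp [L6]) h4).mono fun _ h => h.2.2)

theorem chain22b {s : ℕ} (hs : validCode s = true) (h1 : ent s 1 = 2) (h2 : ent s 2 = 3)
    (h3 : ent s 3 = 4) : SChain (Q22 s) [] (lv22b s) :=
  stdChain ((keepV_ok stp0 (by norm_num)).mono fun _ h => h.1)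
    ((keepV_ok stp1 (by norm_num)).mono fun _ h => h.2.1) (keepT_ok _ _ _ _)
    ((keepI_ok stp3 hs hs (by norm_num) (by simp [L3]) h1).mono fun _ h => h.2.2)
    ((keepI_ok stp4 hs hs (by norm_num) (by simp [L4]) h2).mono fun _ h => h.2.2)
    ((keepI_ok stp5 hs hs (by norm_num) (by simp [L5]) h3).mono fun _ h => h.2.2)
    (keepT_ok _ _ _ _)

theorem all22_5 : allP (leafT cS5 (fsts C22_5)) (lv22b cS5) idCode = true := by decide +kernel
theorem all22_7 : allP (leafT cS7 (fsts C22_7)) (lv22a cS7) idCode = true := by decide +kernel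
theorem all22_11 : allP (leafT cS11 (fsts C22_11)) (lv22a cS11) idCode = true := by decide +kernel

theorem cS5_chk : checkFix L2 cS5 = true := by decide +kernel
theorem cS7_chk : checkFix L2 cS7 = true := by decide +kernel
theorem cS11_chk : checkFix L2 cS11 = true := by decide +kernel

abbrev KA22 := KA (fixer L2) S22 (fun ℓ => permOf (Rc22 ℓ))

theorem Q22_of {s : ℕ} {g : Equiv.Perm GolayPt} (hg : g ∈ fixer L2)
    (h : g * permOf s = permOf s * g) : Q22 s g :=
  ⟨fixer_fix hg (by norm_num) (by simp [L2]), fixer_fix hg (by norm_num) (by simp [L2]), h⟩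

theorem KA22_5 {g : Equiv.Perm GolayPt} (hg : g ∈ fixer L2) (h : g * permOf cS5 = permOf cS5 * g) :
    KA22 g :=
  KA_of_search rep22 mem_S22 C22_5_ok (check_of_checkFix cS5_chk)
    (chain22b (valid_of_checkFix cS5_chk) (by decide +kernel) (by decide +kernel)
      (by decide +kernel)) (fun _ h => h.2.2) all22_5 g (fixer_le_M24 _ hg) (Q22_of hg h)

theorem KA22_7 {g : Equiv.Perm GolayPt} (hg : g ∈ fixer L2) (h : g * permOf cS7 = permOf cS7 * g) :
    KA22 g :=
  KA_of_search rep22 mem_S22 C22_7_ok (check_of_checkFix cS7_chk)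
    (chain22a (valid_of_checkFix cS7_chk) (by decide +kernel) (by decide +kernel)
      (by decide +kernel) (by decide +kernel)) (fun _ h => h.2.2) all22_7 g (fixer_le_M24 _ hg)
    (Q22_of hg h)

theorem KA22_11 {g : Equiv.Perm GolayPt} (hg : g ∈ fixer L2)
    (h : g * permOf cS11 = permOf cS11 * g) : KA22 g :=
  KA_of_search rep22 mem_S22 C22_11_ok (check_of_checkFix cS11_chk)
    (chain22a (valid_of_checkFix cS11_chk) (by decide +kernel) (by decide +kernel)
      (by decide +kernel) (by decide +kernel)) (fun _ h => h.2.2) all22_11 g (fixer_le_M24 _ hg)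
    (Q22_of hg h)

/-! ### a Sylow 3-subgroup -/

def P22 : List ℕ := [960780780963392425243726181891844128,
  960835567426153069222038298482496544,
  961406802839407444431874505306126368,
  978847592322470028294324236992124960,
  979288259557165535724485788012433440,
  979424096606648660796046424626271264,
  984354006765561519463130653440655392,
  984514800114569889978441987568972832,
  984818244535754528103549039458486304]

theorem P22_grp : grpCheck P22 = true := by decide +kernel
theorem P22_nodup : P22.Nodup := by decide +kernel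
theorem P22_chk : ∀ c ∈ P22, checkFix L2 c = true := by decide +kernel
theorem P22_cert : ∀ c ∈ P22, c ∈ fsts C22_P := by decide +kernel

/-! ### the classification hypothesis -/

noncomputable abbrev r22 : ℕ → fixer L2 := rOf L2 Rc22

theorem r22_coe : ∀ ℓ ∈ S22, (r22 ℓ : Equiv.Perm GolayPt) = permOf (Rc22 ℓ) :=
  fun ℓ hℓ => rOf_coe (Rc22_chk ℓ ((mem_S22 ℓ).1 hℓ))

theorem S22_odd : ∀ ℓ ∈ S22, Odd ℓ := by decide

theorem prime_dvd_443520 {p : ℕ} (hp : p.Prime) (h : p ∣ 443520) :
    p = 2 ∨ p = 3 ∨ p ∈ [5, 7, 11] := by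
  have e : 443520 = 2 ^ 7 * 3 ^ 2 * 5 * 7 * 11 := by norm_num
  rw [e] at h
  simp only [List.mem_cons, List.not_mem_nil, or_false]
  rcases (Nat.Prime.dvd_mul hp).1 h with h | h
  · rcases (Nat.Prime.dvd_mul hp).1 h with h | h
    · rcases (Nat.Prime.dvd_mul hp).1 h with h | h
      · rcases (Nat.Prime.dvd_mul hp).1 h with h | h
        · exact Or.inl ((Nat.prime_dvd_prime_iff_eq hp (by norm_num)).1 (hp.dvd_of_dvd_pow h))
        · exact Or.inr (Or.inl ((Nat.prime_dvd_prime_iff_eq hp (by norm_num)).1
            (hp.dvd_of_dvd_pow h)))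
      · exact Or.inr (Or.inr (Or.inl ((Nat.prime_dvd_prime_iff_eq hp (by norm_num)).1 h)))
    · exact Or.inr (Or.inr (Or.inr (Or.inl ((Nat.prime_dvd_prime_iff_eq hp (by norm_num)).1 h))))
  · exact Or.inr (Or.inr (Or.inr (Or.inr ((Nat.prime_dvd_prime_iff_eq hp (by norm_num)).1 h))))

theorem cent22 {s p : ℕ} (hs : checkFix L2 s = true) (ho : orderOf (permOf s) = p)
    (hK : ∀ g ∈ fixer L2, g * permOf s = permOf s * g → KA22 g) :
    ∃ h : fixer L2, orderOf h = p ∧ ∀ x, x * h = h * x → KK S22 r22 x := by
  refine ⟨⟨permOf s, permOf_mem_fixer hs⟩, ?_, ?_⟩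
  · rw [← Subgroup.orderOf_coe]; exact ho
  · intro x hx
    exact KK_of_KA r22_coe (hK x x.2 (congrArg Subtype.val hx))

theorem cls22 (g : fixer L2) : KK S22 r22 g := by
  have hcard : Nat.card (fixer L2) = 443520 := card_fixer_L2
  apply cls_of_sylow S22_odd [5, 7, 11] _ (q := 3) (e := 2) (by norm_num)
    ((listGrp P22 P22_grp).subgroupOf (fixer L2))
    (by rw [card_listGrp_subgroupOf P22_grp P22_nodup P22_chk]; rfl)
    (by rw [hcard]; norm_num) _ (by rw [hcard]; exact fun p hp h => prime_dvd_443520 hp h)
  · intro p hp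
    rw [hcard]
    simp only [List.mem_cons, List.not_mem_nil, or_false] at hp
    rcases hp with rfl | rfl | rfl
    · exact ⟨by norm_num, by norm_num, cent22 cS5_chk (rep22.ord 5 (by simp [S22l]))
        (fun g hg h => KA22_5 hg h)⟩
    · exact ⟨by norm_num, by norm_num, cent22 cS7_chk (rep22.ord 7 (by simp [S22l]))
        (fun g hg h => KA22_7 hg h)⟩
    · exact ⟨by norm_num, by norm_num, cent22 cS11_chk (rep22.ord 11 (by simp [S22l]))
        (fun g hg h => KA22_11 hg h)⟩
  · intro x hx
    obtain ⟨c, hc, he⟩ := mem_listGrp.1 (Subgroup.mem_subgroupOf.1 hx)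
    apply KK_of_KA r22_coe
    rw [← he]
    exact KA_of_mem rep22 mem_S22 C22_P_ok (P22_cert c hc)

/-! ### the parities -/

/-- the label: the order if it is `5, 7, 11`, and `0` otherwise. -/
def lab22 (t h : ℕ) : ℕ :=
  Bool.rec (Bool.rec (Bool.rec 0 5 (ordP t h 5)) 7 (ordP t h 7)) 11 (ordP t h 11)

theorem lab22_spec {t h : ℕ} (ht : checkM24 t = true) (hh : checkM24 h = true) :
    lab22 t h ∈ [0, 5, 7, 11] ∧ ∀ ℓ ∈ S22, (lab22 t h = ℓ ↔ orderOf (permOf t * permOf h) = ℓ) := by
  have h5 := ordP_iff ht hh (ℓ := 5) (by norm_num)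
  have h7 := ordP_iff ht hh (ℓ := 7) (by norm_num)
  have h11 := ordP_iff ht hh (ℓ := 11) (by norm_num)
  have hS : ∀ ℓ ∈ S22, ℓ = 5 ∨ ℓ = 7 ∨ ℓ = 11 := by simp [S22]
  unfold lab22
  rcases hb11 : ordP t h 11 with _ | _
  · rcases hb7 : ordP t h 7 with _ | _
    · rcases hb5 : ordP t h 5 with _ | _
      · refine ⟨by simp, fun ℓ hℓ => ?_⟩
        constructor
        · intro e
          rcases hS ℓ hℓ with rfl | rfl | rfl <;> exact absurd e (by norm_num)
        · intro e
          rcases hS ℓ hℓ with rfl | rfl | rfl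
          · rw [h5.2 e] at hb5; exact absurd hb5 (by simp)
          · rw [h7.2 e] at hb7; exact absurd hb7 (by simp)
          · rw [h11.2 e] at hb11; exact absurd hb11 (by simp)
      · refine ⟨by simp, fun ℓ _ => ?_⟩
        rw [h5.1 hb5]
    · refine ⟨by simp, fun ℓ _ => ?_⟩
      rw [h7.1 hb7]
  · refine ⟨by simp, fun ℓ _ => ?_⟩
    rw [h11.1 hb11]

theorem X22_len : X22.length = 1156 := by
  rw [← lenL_eq]; decide +kernel

theorem sum22_5 : sumList (fun c => wt (lab22 c cS5)) X22 = 15324955408658888585245005266616257236315372866393604456 := by decide +kernel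

theorem sum22_7 : sumList (fun c => wt (lab22 c cS7)) X22 = 21454937572122444018948392811750083832069369280174489936 := by decide +kernel

theorem sum22_11 : sumList (fun c => wt (lab22 c cS11)) X22 = 22221185342555388448023720388096513431966626714295992716 := by decide +kernel

theorem cnt22_5 : X22.countP (fun c => lab22 c cS5 == 5) = 2 * 158 ∧
    X22.countP (fun c => lab22 c cS5 == 7) = 2 * 160 ∧
    X22.countP (fun c => lab22 c cS5 == 11) = 2 * 80 := by
  have hs := sum_wt (fun c => lab22 c cS5) [0, 5, 7, 11] (by decide) X22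
    (fun c hc => (lab22_spec (X22_complete.chk c hc) (check_of_checkFix cS5_chk)).1)
  rw [sum22_5] at hs
  simp only [List.map_cons, List.map_nil, List.sum_cons, List.sum_nil, wt_eq] at hs
  have b0 := List.countP_le_length (p := fun c => lab22 c cS5 == 0) (l := X22)
  have b5 := List.countP_le_length (p := fun c => lab22 c cS5 == 5) (l := X22)
  have b7 := List.countP_le_length (p := fun c => lab22 c cS5 == 7) (l := X22)
  have b11 := List.countP_le_length (p := fun c => lab22 c cS5 == 11) (l := X22)
  rw [X22_len] at b0 b5 b7 b11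
  generalize X22.countP (fun c => lab22 c cS5 == 0) = n0 at *
  generalize X22.countP (fun c => lab22 c cS5 == 5) = n5 at *
  generalize X22.countP (fun c => lab22 c cS5 == 7) = n7 at *
  generalize X22.countP (fun c => lab22 c cS5 == 11) = n11 at *
  norm_num at hs
  omega

theorem cnt22_7 : X22.countP (fun c => lab22 c cS7 == 5) = 2 * 112 ∧
    X22.countP (fun c => lab22 c cS7 == 7) = 2 * 186 ∧
    X22.countP (fun c => lab22 c cS7 == 11) = 2 * 112 := by
  have hs := sum_wt (fun c => lab22 c cS7) [0, 5, 7, 11] (by decide) X22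
    (fun c hc => (lab22_spec (X22_complete.chk c hc) (check_of_checkFix cS7_chk)).1)
  rw [sum22_7] at hs
  simp only [List.map_cons, List.map_nil, List.sum_cons, List.sum_nil, wt_eq] at hs
  have b0 := List.countP_le_length (p := fun c => lab22 c cS7 == 0) (l := X22)
  have b5 := List.countP_le_length (p := fun c => lab22 c cS7 == 5) (l := X22)
  have b7 := List.countP_le_length (p := fun c => lab22 c cS7 == 7) (l := X22)
  have b11 := List.countP_le_length (p := fun c => lab22 c cS7 == 11) (l := X22)
  rw [X22_len] at b0 b5 b7 b11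
  generalize X22.countP (fun c => lab22 c cS7 == 0) = n0 at *
  generalize X22.countP (fun c => lab22 c cS7 == 5) = n5 at *
  generalize X22.countP (fun c => lab22 c cS7 == 7) = n7 at *
  generalize X22.countP (fun c => lab22 c cS7 == 11) = n11 at *
  norm_num at hs
  omega

theorem cnt22_11 : X22.countP (fun c => lab22 c cS11 == 5) = 2 * 88 ∧
    X22.countP (fun c => lab22 c cS11 == 7) = 2 * 176 ∧
    X22.countP (fun c => lab22 c cS11 == 11) = 2 * 116 := by
  have hs := sum_wt (fun c => lab22 c cS11) [0, 5, 7, 11] (by decide) X22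
    (fun c hc => (lab22_spec (X22_complete.chk c hc) (check_of_checkFix cS11_chk)).1)
  rw [sum22_11] at hs
  simp only [List.map_cons, List.map_nil, List.sum_cons, List.sum_nil, wt_eq] at hs
  have b0 := List.countP_le_length (p := fun c => lab22 c cS11 == 0) (l := X22)
  have b5 := List.countP_le_length (p := fun c => lab22 c cS11 == 5) (l := X22)
  have b7 := List.countP_le_length (p := fun c => lab22 c cS11 == 7) (l := X22)
  have b11 := List.countP_le_length (p := fun c => lab22 c cS11 == 11) (l := X22)
  rw [X22_len] at b0 b5 b7 b11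
  generalize X22.countP (fun c => lab22 c cS11 == 0) = n0 at *
  generalize X22.countP (fun c => lab22 c cS11 == 5) = n5 at *
  generalize X22.countP (fun c => lab22 c cS11 == 7) = n7 at *
  generalize X22.countP (fun c => lab22 c cS11 == 11) = n11 at *
  norm_num at hs
  omega

theorem par22 [Fintype (fixer L2)] [DecidableEq (fixer L2)] : ∀ ℓ ∈ S22, ∀ ℓ' ∈ S22,
    Even (Finset.univ.filter fun x : fixer L2 => x * x = 1 ∧ orderOf (x * r22 ℓ) = ℓ').card := by
  have key : ∀ (s ℓ : ℕ) (hs : checkFix L2 s = true), (r22 ℓ : Equiv.Perm GolayPt) = permOf s →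
      ∀ ℓ' ∈ S22, ∀ n, X22.countP (fun c => lab22 c s == ℓ') = 2 * n →
      Even (Finset.univ.filter fun x : fixer L2 => x * x = 1 ∧ orderOf (x * r22 ℓ) = ℓ').card := by
    intro s ℓ hs hr ℓ' hℓ' n hn
    exact par_of_count X22_complete hr (fun c => lab22 c s)
      (fun c hc => (lab22_spec (X22_complete.chk c hc) (check_of_checkFix hs)).2 ℓ' hℓ') hn
  have hS : ∀ ℓ ∈ S22, ℓ = 5 ∨ ℓ = 7 ∨ ℓ = 11 := by simp [S22]
  intro ℓ hℓ ℓ' hℓ'
  have hr := r22_coe ℓ hℓ
  rcases hS ℓ hℓ with rfl | rfl | rfl
  · rcases hS ℓ' hℓ' with rfl | rfl | rfl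
    · exact key cS5 5 cS5_chk hr 5 hℓ' _ cnt22_5.1
    · exact key cS5 5 cS5_chk hr 7 hℓ' _ cnt22_5.2.1
    · exact key cS5 5 cS5_chk hr 11 hℓ' _ cnt22_5.2.2
  · rcases hS ℓ' hℓ' with rfl | rfl | rfl
    · exact key cS7 7 cS7_chk hr 5 hℓ' _ cnt22_7.1
    · exact key cS7 7 cS7_chk hr 7 hℓ' _ cnt22_7.2.1
    · exact key cS7 7 cS7_chk hr 11 hℓ' _ cnt22_7.2.2
  · rcases hS ℓ' hℓ' with rfl | rfl | rfl
    · exact key cS11 11 cS11_chk hr 5 hℓ' _ cnt22_11.1
    · exact key cS11 11 cS11_chk hr 7 hℓ' _ cnt22_11.2.1
    · exact key cS11 11 cS11_chk hr 11 hℓ' _ cnt22_11.2.2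

/-! ### the local hypothesis and the theorem -/

theorem loc22 (t : fixer L2) (h1 : t ≠ 1) (h2 : t * t = 1) : LocalOK t := by
  apply localOK_of_locA
  apply locA_of_fixed (fixer_le_M24 L2) (fixer_le_M24 L2 t.2) (congrArg Subtype.val h2)
    (fun e => h1 (Subtype.ext e)) (p := pt 23) (fixer_fix t.2 (by norm_num) (by simp [L2]))
  intro g hg hfix
  have := mem_fixer_of_pts hg [0, 23] (by
    intro b hb
    simp only [List.mem_cons, List.not_mem_nil, or_false] at hb
    rcases hb with rfl | rfl
    · exact ⟨by norm_num, hfix _ (fixer_fix t.2 (by norm_num) (by simp [L2]))⟩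
    · exact ⟨by norm_num, hfix _ (fixer_fix t.2 (by norm_num) (by simp [L2]))⟩)
  exact this

theorem sameBlock_fixer_L2 (M : Ideal AlgInt) (hM : IsPModular 2 M)
    (χ ψ : IrrCharacter (fixer L2)) :
    SameBlock M (χ : fixer L2 → ℂ) (ψ : fixer L2 → ℂ) := by
  classical
  have : Fintype (fixer L2) := Fintype.ofFinite _
  exact sameBlock_all loc22 (S := S22) (r := r22) ⟨S22_odd, cls22, par22⟩ M hM χ ψ

theorem sameBlock_M22 (M : Ideal AlgInt) (hM : IsPModular 2 M) (χ ψ : IrrCharacter Spor.M22) :
    SameBlock M (χ : Spor.M22 → ℂ) (ψ : Spor.M22 → ℂ) := by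
  revert χ ψ
  rw [M22_eq_fixer]
  exact sameBlock_fixer_L2 M hM

end Cfsg.Agent.Lib.Helper7.Blk
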