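import Cfsg.Agent.Lib.Helper7.BlkGen
import Cfsg.Agent.Lib.Helper7.BlkLocB
import Cfsg.Agent.Lib.Helper7.OneBlockC

/-!
# `M24` has a single 2-block
-/

set_option autoImplicit false

namespace Cfsg.Agent.Lib.Helper7.Blk

open Cfsg
open Cfsg.Agent.Lib.Helper27
open Cfsg.Agent.Lib.Helper92 (mulU idCode powU isId sumList sumList_cons SChain allP stdLv stdChain keepV keepI
  keepT keepV_ok keepI_ok keepT_ok stp0 stp1 stp2 stp3 stp4 stp5 stp6 QC listGrp grpCheck
  mem_listGrp KeepOK.mono)
open Cfsg.Agent.Lib.Helper7.OneBlock

/-! ### representatives -/

def S24l : List ℕ := [11, 15, 21, 23]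

theorem mem_S24l (ℓ : ℕ) : ℓ ∈ S24 ↔ ℓ ∈ S24l := by simp [S24, S24l]

def Rc24 (ℓ : ℕ) : ℕ :=
  Bool.rec (Bool.rec (Bool.rec cR23 cR21 (Nat.beq ℓ 21)) cR15 (Nat.beq ℓ 15)) cR11 (Nat.beq ℓ 11)
def Ri24 (ℓ : ℕ) : ℕ :=
  Bool.rec (Bool.rec (Bool.rec 983478296959358443554250846857397270 643858807385033073501505918847361234 (Nat.beq ℓ 21)) 555052304948568481815772129442569740 (Nat.beq ℓ 15)) 688839617527851694901882306199356439 (Nat.beq ℓ 11)

/-- the cube of the representative of order `15`. -/
def cH5 : ℕ := 5731864833083967302742870678277185
/-- the cube of the representative of order `21`. -/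
def cH7 : ℕ := 5989023361288815337814165657128001

theorem Rc24_chk : ∀ ℓ ∈ S24l, checkFix [] (Rc24 ℓ) = true := by decide +kernel

theorem rep24 : RepOK S24l Rc24 Ri24 where
  v := by decide +kernel
  vi := by decide +kernel
  inv := by decide +kernel
  ord := by
    intro ℓ hℓ
    have hv := valid_of_checkFix (Rc24_chk ℓ hℓ)
    simp only [S24l, List.mem_cons, List.not_mem_nil, or_false] at hℓ
    rcases hℓ with rfl | rfl | rfl | rfl
    · exact orderOf_code_prime hv (by norm_num) (by decide +kernel) (by decide +kernel)
    · exact orderOf_code_mul (a := 3) (b := 5) hv (by norm_num) (by norm_num) (by decide +kernel)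
        (by decide +kernel) (by decide +kernel)
    · exact orderOf_code_mul (a := 3) (b := 7) hv (by norm_num) (by norm_num) (by decide +kernel)
        (by decide +kernel) (by decide +kernel)
    · exact orderOf_code_prime hv (by norm_num) (by decide +kernel) (by decide +kernel)

/-! ### certificates -/

def C24_5 : List Cert := [(984818244535754528103549039458486304, 0, 1, 486349729216648254314124816498657600),
  (964862721552653238424309835408443424, 0, 3, 361418023793791036929162559963104320),
  (981515887986994088769278604842469408, 0, 3, 361418023793791036929162559963104320),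
  (27508908669889149840314606684965953, 2, 15, 415896141404084182338354845140357494),
  (5731864833083967302742870678277185, 0, 5, 690644543716245696806551333083952807),
  (12115234112791188573515693473631297, 1, 15, 457475544079973473080798698279157078),
  (150191734784662781100214686656300055, 1, 15, 415896141404084182338354845140357494),
  (146215071880237906697094143400805399, 2, 15, 457475544079973473080798698279157078),
  (144394998073895432883256625631134743, 0, 5, 690644543716245696806551333083952807),
  (49790353385075335345905384472730722, 2, 15, 166933952785538113936415706618080758),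
  (59156369154535530453714524719570018, 1, 15, 623450228849103552737806635385596054),
  (55013882717448130732111456772316258, 0, 5, 690644543716245696806551333083952807),
  (623450228849103552737806635385596054, 0, 2, 361418023793791036929162559963104320),
  (632228835994363107632978618123397270, 0, 3, 361418023793791036929162559963104320),
  (649889883687462042423997031635069078, 0, 3, 361418023793791036929162559963104320),
  (253787854767465027272433561402397298, 2, 15, 981515887986994088769278604842469408),
  (264457809395650687152700138464793202, 1, 15, 70770762347124331104153880281288416),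
  (265419495813361111529249088605573746, 0, 10, 690644543716245696806551333083952807),
  (107066310880838372560583147270472419, 2, 15, 623450228849103552737806635385596054),
  (98027670415363157741174727124222691, 0, 5, 690644543716245696806551333083952807),
  (99438717675625827593258363279934179, 1, 15, 166933952785538113936415706618080758),
  (431916697297481202998196086239287787, 2, 15, 964862721552653238424309835408443424),
  (420064455879393437879330018669255147, 0, 10, 690644543716245696806551333083952807),
  (439402005396861098240751643581897195, 1, 15, 68118053190815149830627811191230176),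
  (386965130632361760431779357216362054, 1, 15, 984818244535754528103549039458486304),
  (376941162838304849716344470745271878, 2, 15, 68118053190815149830627811191230176),
  (391169126846428382051183655226330694, 0, 10, 690644543716245696806551333083952807),
  (777849871749568653883550533727495827, 1, 15, 92635097137868479566360370075108448),
  (767182634917807074776529564726404755, 2, 15, 153425521377560347210184312418786368),
  (769381638690886865337438666392544915, 0, 10, 690644543716245696806551333083952807),
  (926055554125472701136691902053592388, 2, 15, 92635097137868479566360370075108448),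
  (941197160563666196622422588521950532, 1, 15, 151132281123870534007606782369782848),
  (915412628217838189966692127261306180, 0, 10, 690644543716245696806551333083952807),
  (477716117489453055436484619242115791, 1, 15, 109553315440399542334685645342737504),
  (481898764970178485640998685212218063, 2, 15, 134133370177686030194056285259881536),
  (487609900958897321410411815072240335, 0, 10, 690644543716245696806551333083952807),
  (555052304948568481815772129442569740, 2, 15, 984818244535754528103549039458486304),
  (564311545786235377497231089955675660, 0, 10, 690644543716245696806551333083952807),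
  (544524635426215471660274779028102668, 1, 15, 51423685637862806857442521182703328),
  (664802385808424582109447727208609447, 0, 3, 361418023793791036929162559963104320),
  (693537629157992305548265990717322919, 0, 3, 517491875552056973009956193186711601),
  (690644543716245696806551333083952807, 0, 2, 361418023793791036929162559963104320),
  (790109480404231913890892663821506868, 0, 3, 361418023793791036929162559963104320),
  (798478816442477638193508869576661300, 0, 2, 361418023793791036929162559963104320),
  (817836842495041552883661283252574516, 0, 3, 517491875552056973009956193186711601),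
  (518772185636602332437687305876460784, 1, 15, 112373957749605181188374251943199840),
  (523143371936607203226830038406452464, 0, 10, 690644543716245696806551333083952807),
  (529233437892063355743314752162944240, 2, 15, 151132281123870534007606782369782848),
  (886019356361734995443040327289782669, 2, 15, 70770762347124331104153880281288416),
  (880228874719451990903394363114766733, 0, 10, 690644543716245696806551333083952807),
  (875356221526071413037024795564425613, 1, 15, 964862721552653238424309835408443424),
  (302538382871732028934615826583531957, 0, 10, 690644543716245696806551333083952807),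
  (296205606309462004202974505375117749, 1, 15, 153425521377560347210184312418786368),
  (292484571826806913232828827469099445, 2, 15, 109553315440399542334685645342737504),
  (183158146569772734240068085473820010, 2, 15, 51423685637862806857442521182703328),
  (174431297841919210822839590481247594, 1, 15, 981515887986994088769278604842469408),
  (169497134871559411058668792868191594, 0, 10, 690644543716245696806551333083952807),
  (858434000524526587862555424053643465, 0, 10, 690644543716245696806551333083952807),
  (836067841825012009856770912369101001, 2, 15, 112373957749605181188374251943199840),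
  (832598875461261384667693461206059209, 1, 15, 134133370177686030194056285259881536)]

def C24_7 : List Cert := [(984818244535754528103549039458486304, 0, 1, 486349729216648254314124816498657600),
  (983548720921252936276249910206105632, 0, 2, 729897081210638108267960708026696768),
  (24839907579418479562146494101490753, 0, 14, 983548720921252936276249910206105632),
  (5989023361288815337814165657128001, 0, 7, 818380949533065261388094203310286224),
  (592353694222750879528934661771297815, 0, 7, 818380949533065261388094203310286224),
  (594857340040669216947057214073406487, 0, 14, 983548720921252936276249910206105632),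
  (62606067463999071325342930198533218, 0, 14, 983548720921252936276249910206105632),
  (51299770431294829296200428136371298, 0, 7, 818380949533065261388094203310286224),
  (336750511240817914382109735818599574, 0, 14, 185200705678087178425448913907698151),
  (349317821019500926100087111598709910, 1, 21, 983548720921252936276249910206105632),
  (643858807385033073501505918847361234, 2, 21, 984818244535754528103549039458486304),
  (623746692535090578826123216514916562, 0, 14, 185200705678087178425448913907698151),
  (99276796472365567175108743141243043, 0, 14, 983548720921252936276249910206105632),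
  (103060378233643035302007805959714979, 0, 7, 818380949533065261388094203310286224),
  (763322253183068469648552680894912774, 1, 21, 149454991322599923579694290321212576),
  (749497524381868146252905703647893766, 0, 14, 185200705678087178425448913907698151),
  (224824509608142225263128309884027630, 0, 14, 983548720921252936276249910206105632),
  (216033420780485911541397253051679470, 0, 7, 818380949533065261388094203310286224),
  (882919216678823482471140358147584531, 0, 14, 818380949533065261388094203310286224),
  (879143185098999649528604450487579155, 1, 21, 589879231582311891211203036129760320),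
  (920762650357913460284783405983939812, 0, 14, 185200705678087178425448913907698151),
  (927042327755655630645441865946053860, 1, 21, 598670430573635112351748603531465792),
  (321417250967088775759090678130547279, 0, 14, 185200705678087178425448913907698151),
  (316378986022848147033981009067776591, 2, 21, 589879231582311891211203036129760320),
  (694653795622229287909646300789159212, 2, 21, 598670430573635112351748603531465792),
  (670764646459858994960204303282025772, 0, 14, 818380949533065261388094203310286224),
  (193995832645448311269313639267650023, 0, 3, 151051244328541119364645895545783365),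
  (185200705678087178425448913907698151, 0, 2, 984452831863584656304555517315912739),
  (137042165312344540658789801513737669, 0, 14, 983548720921252936276249910206105632),
  (148371417458508398596901442487868869, 0, 7, 818380949533065261388094203310286224),
  (818380949533065261388094203310286224, 0, 2, 975447770815569833621815645696012592),
  (808316298951202536716930348697953680, 0, 3, 151051244328541119364645895545783365),
  (375774201195076567255591101810726221, 1, 21, 130604040269799581522031591083672736),
  (393382511757554358778137141876217165, 0, 14, 818380949533065261388094203310286224),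
  (423319448618834864417235075546366581, 0, 14, 818380949533065261388094203310286224),
  (419543227667808166420988756598604405, 1, 21, 984818244535754528103549039458486304),
  (252213575314038549595548820813615816, 0, 14, 185200705678087178425448913907698151),
  (261008134080068501982571447884944072, 2, 21, 130604040269799581522031591083672736),
  (563470816027880193686648724092636842, 0, 14, 818380949533065261388094203310286224),
  (543347005115686383361514456047177386, 2, 21, 149454991322599923579694290321212576),
  (498766603062353107852709482863438249, 2, 21, 983548720921252936276249910206105632),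
  (507572420879591360498949683133721001, 0, 14, 818380949533065261388094203310286224)]

def C24_11 : List Cert := [(984818244535754528103549039458486304, 0, 1, 486349729216648254314124816498657600),
  (22943948800857913458865161232321601, 1, 11, 984818244535754528103549039458486304),
  (688839617527851694901882306199356439, 1, 11, 706764729365787917970393524301614678),
  (51500466343130021990202000091025506, 1, 11, 748305208315043376330464550302819018),
  (100832146691697244278870233710990467, 1, 11, 479869714463394054954676969058378880),
  (507118958843585621916921708698911019, 1, 11, 914473481247345344810938048998612308),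
  (143661868654918978103185191892005028, 1, 11, 400681827557026228466305917106270304),
  (218945375933695187740205217501160812, 1, 11, 831382763556464679115230303679231538),
  (179995509004925054086516262872329605, 1, 11, 107307160116480348732966550960778752),
  (399371049454206581212631915737154288, 1, 11, 512314996674701633837795403341388960),
  (483748470643506492139046669061742089, 1, 11, 415993850549307333294758665481042577)]

def C24_23 : List Cert := [(984818244535754528103549039458486304, 0, 1, 486349729216648254314124816498657600),
  (956302485175575353788796878166559809, 1, 23, 984818244535754528103549039458486304),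
  (956709441910203461498593497208492130, 1, 23, 970567384681219435340729552166356352),
  (983478296959358443554250846857397270, 2, 23, 984818244535754528103549039458486304),
  (978118506653774105357058076477936242, 1, 23, 973782968399780250007192978068752672),
  (958020233522794296771657265635857539, 1, 23, 975166140090675008210365318152896768),
  (968738873619001514367364102631142795, 2, 23, 983435072843990828779021698901151808),
  (962039135765723329579556122420093158, 1, 23, 980668730378935070469623699575545984),
  (972758716348189767159891410582815214, 2, 23, 962298451038133363011374430748423744),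
  (979458454230170189906356269054908051, 2, 23, 977903326592794432676351619257413824),
  (959359269975321467281073132481517732, 1, 23, 977903326592794432676351619257413824),
  (974098663924585851709164314416465423, 2, 23, 982051901153124072706648311500937312),
  (970078821195397598087999963796060588, 1, 23, 983435072843990828779021698901151808),
  (963379083314314120277717844002940167, 2, 23, 969184212989482915311201746032266656),
  (976778559077378020807759884648599121, 2, 23, 980668730378935070469623699575545984),
  (980798401806566274455654461655243444, 2, 23, 975166140090675008210365318152896768),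
  (960699189079096648266625002402749637, 2, 23, 973782968399780250007192978068752672),
  (975438611500981936258461716743572016, 1, 23, 969184212989482915311201746032266656),
  (971418768771793682611402458539769293, 1, 23, 965063883269089610517257152230401536),
  (982138349382962359004952654256308949, 2, 23, 970567384681219435340729552166356352),
  (964719030889841289394168021884709160, 1, 23, 982051901153124072706648311500937312),
  (967398926042605456335260515987534186, 2, 23, 965063883269089610517257152230401536),
  (966058978466210220336189714025819465, 1, 23, 962298451038133363011374430748423744)]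

def C24_P : List Cert := [(984818244535754528103549039458486304, 0, 1, 486349729216648254314124816498657600),
  (792682344337669613728948294061369376, 0, 3, 970516589341703275024746955868852800),
  (138462605805998747202188615185192992, 0, 3, 970516589341703275024746955868852800),
  (860184778220362629892587839724816545, 0, 3, 984817915229974498898750289957136845),
  (169613376674417332581168123007871137, 0, 3, 694030592089835511457983479949592681),
  (470774556708609687608122981908371617, 0, 3, 167802220877831273121756126234575554),
  (278669278390007909520726568436467717, 0, 3, 984817915229974498898750289957136845),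
  (377318085593587077400572159455340549, 0, 3, 167802220877831273121756126234575554),
  (636912289966620907020989359593936901, 0, 3, 694030592089835511457983479949592681),
  (984290311336510094286814836554172807, 0, 3, 418613726803796547680645704377260083),
  (169086196061233457058011517476907399, 0, 3, 550809598757767865418311164923103369),
  (636385624301425304668465271691958663, 0, 3, 839072036422532634918339042189223493),
  (859657637571731691451196925805693484, 0, 3, 752422916455363114228013259836565555),
  (376790271618870424288349911456033324, 0, 3, 49820213905057009884512316677329650),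
  (137935148287595545322727143935105580, 0, 3, 846617294586763304514513110699442338),
  (984696141094445122728402629107747277, 0, 3, 418613726803796547680645704377260083),
  (377196220056720236380283289602861517, 0, 3, 846617294586763304514513110699442338),
  (470652968244193135626330601408485837, 0, 3, 839274859829786970341309061176566962),
  (860063665316809569479215181384354318, 0, 3, 636922549824579414326864102119639077),
  (792561112598245806800824902222490126, 0, 3, 839072036422532634918339042189223493),
  (636791137112785787293819113247988238, 0, 3, 49820213905057009884512316677329650),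
  (278547373054763642129494587074513328, 0, 3, 752422916455363114228013259836565555),
  (169491352270601247349829334646073776, 0, 3, 42033121708196208613043795610026742),
  (138340225444143685731400191977871792, 0, 3, 550809598757767865418311164923103369),
  (278142335656282894443597689818286321, 0, 3, 636922549824579414326864102119639077),
  (792155322343969755029073152150022385, 0, 3, 839274859829786970341309061176566962),
  (470246663310608104504854545618819313, 0, 3, 42033121708196208613043795610026742)]

theorem C24_5_ok : allList (certOK [] S24l Rc24 Ri24) C24_5 = true := by decide +kernel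
theorem C24_7_ok : allList (certOK [] S24l Rc24 Ri24) C24_7 = true := by decide +kernel
theorem C24_11_ok : allList (certOK [] S24l Rc24 Ri24) C24_11 = true := by decide +kernel
theorem C24_23_ok : allList (certOK [] S24l Rc24 Ri24) C24_23 = true := by decide +kernel
theorem C24_P_ok : allList (certOK [] S24l Rc24 Ri24) C24_P = true := by decide +kernel

def lv24a (s : ℕ) : List (ℕ × List ℕ × (ℕ → ℕ → Bool)) :=
  stdLv keepT (keepI s 0 23) (keepI s 1 0) (keepI s 2 1) (keepI s 3 2) keepT keepT

def lv24b (s : ℕ) : List (ℕ × List ℕ × (ℕ → ℕ → Bool)) :=
  stdLv keepT (keepI s 0 23) (keepI s 1 0) (keepI s 2 1) (keepI s 3 2) (keepI s 4 3) (keepI s 5 4)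

def lv24c (s : ℕ) : List (ℕ × List ℕ × (ℕ → ℕ → Bool)) :=
  stdLv keepT keepT (keepI s 1 0) (keepI s 2 1) (keepI s 3 2) (keepI s 4 3) (keepI s 5 4)

theorem chain24a {s : ℕ} (hs : validCode s = true) (h0 : ent s 23 = 0) (h1 : ent s 0 = 1)
    (h2 : ent s 1 = 2) (h3 : ent s 2 = 3) : SChain (QC s) [] (lv24a s) :=
  stdChain (keepT_ok _ _ _ _)
    (keepI_ok stp1 hs hs (by norm_num) (by simp [L1]) h0)
    (keepI_ok stp2 hs hs (by norm_num) (by simp [L2]) h1)
    (keepI_ok stp3 hs hs (by norm_num) (by simp [L3]) h2)
    (keepI_ok stp4 hs hs (by norm_num) (by simp [L4]) h3)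
    (keepT_ok _ _ _ _) (keepT_ok _ _ _ _)

theorem chain24b {s : ℕ} (hs : validCode s = true) (h0 : ent s 23 = 0) (h1 : ent s 0 = 1)
    (h2 : ent s 1 = 2) (h3 : ent s 2 = 3) (h4 : ent s 3 = 4) (h5 : ent s 4 = 5) :
    SChain (QC s) [] (lv24b s) :=
  stdChain (keepT_ok _ _ _ _)
    (keepI_ok stp1 hs hs (by norm_num) (by simp [L1]) h0)
    (keepI_ok stp2 hs hs (by norm_num) (by simp [L2]) h1)
    (keepI_ok stp3 hs hs (by norm_num) (by simp [L3]) h2)
    (keepI_ok stp4 hs hs (by norm_num) (by simp [L4]) h3)
    (keepI_ok stp5 hs hs (by norm_num) (by simp [L5]) h4)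
    (keepI_ok stp6 hs hs (by norm_num) (by simp [L6]) h5)

theorem chain24c {s : ℕ} (hs : validCode s = true) (h1 : ent s 0 = 1)
    (h2 : ent s 1 = 2) (h3 : ent s 2 = 3) (h4 : ent s 3 = 4) (h5 : ent s 4 = 5) :
    SChain (QC s) [] (lv24c s) :=
  stdChain (keepT_ok _ _ _ _) (keepT_ok _ _ _ _)
    (keepI_ok stp2 hs hs (by norm_num) (by simp [L2]) h1)
    (keepI_ok stp3 hs hs (by norm_num) (by simp [L3]) h2)
    (keepI_ok stp4 hs hs (by norm_num) (by simp [L4]) h3)
    (keepI_ok stp5 hs hs (by norm_num) (by simp [L5]) h4)
    (keepI_ok stp6 hs hs (by norm_num) (by simp [L6]) h5)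

theorem all24_5 : allP (leafT cH5 (fsts C24_5)) (lv24a cH5) idCode = true := by decide +kernel
theorem all24_7 : allP (leafT cH7 (fsts C24_7)) (lv24a cH7) idCode = true := by decide +kernel
theorem all24_11 : allP (leafT cR11 (fsts C24_11)) (lv24b cR11) idCode = true := by decide +kernel
theorem all24_23 : allP (leafT cR23 (fsts C24_23)) (lv24c cR23) idCode = true := by decide +kernel

theorem cH5_chk : checkFix [] cH5 = true := by decide +kernel
theorem cH7_chk : checkFix [] cH7 = true := by decide +kernel
theorem cR11_chk : checkFix [] cR11 = true := by decide +kernel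
theorem cR15_chk : checkFix [] cR15 = true := by decide +kernel
theorem cR21_chk : checkFix [] cR21 = true := by decide +kernel
theorem cR23_chk : checkFix [] cR23 = true := by decide +kernel

abbrev KA24 := KA (fixer []) S24 (fun ℓ => permOf (Rc24 ℓ))

theorem KA24_5 {g : Equiv.Perm GolayPt} (hg : g ∈ fixer []) (h : g * permOf cH5 = permOf cH5 * g) :
    KA24 g :=
  KA_of_search rep24 mem_S24l C24_5_ok (check_of_checkFix cH5_chk)
    (chain24a (valid_of_checkFix cH5_chk) (by decide +kernel) (by decide +kernel)
      (by decide +kernel) (by decide +kernel)) (fun _ h => h) all24_5 g (fixer_le_M24 _ hg) h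

theorem KA24_7 {g : Equiv.Perm GolayPt} (hg : g ∈ fixer []) (h : g * permOf cH7 = permOf cH7 * g) :
    KA24 g :=
  KA_of_search rep24 mem_S24l C24_7_ok (check_of_checkFix cH7_chk)
    (chain24a (valid_of_checkFix cH7_chk) (by decide +kernel) (by decide +kernel)
      (by decide +kernel) (by decide +kernel)) (fun _ h => h) all24_7 g (fixer_le_M24 _ hg) h

theorem KA24_11 {g : Equiv.Perm GolayPt} (hg : g ∈ fixer [])
    (h : g * permOf cR11 = permOf cR11 * g) : KA24 g :=
  KA_of_search rep24 mem_S24l C24_11_ok (check_of_checkFix cR11_chk)
    (chain24b (valid_of_checkFix cR11_chk) (by decide +kernel) (by decide +kernel)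
      (by decide +kernel) (by decide +kernel) (by decide +kernel) (by decide +kernel))
    (fun _ h => h) all24_11 g (fixer_le_M24 _ hg) h

theorem KA24_23 {g : Equiv.Perm GolayPt} (hg : g ∈ fixer [])
    (h : g * permOf cR23 = permOf cR23 * g) : KA24 g :=
  KA_of_search rep24 mem_S24l C24_23_ok (check_of_checkFix cR23_chk)
    (chain24c (valid_of_checkFix cR23_chk) (by decide +kernel) (by decide +kernel)
      (by decide +kernel) (by decide +kernel) (by decide +kernel))
    (fun _ h => h) all24_23 g (fixer_le_M24 _ hg) h

/-! ### a Sylow 3-subgroup -/

def P24 : List ℕ := [137935148287595545322727143935105580,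
  138340225444143685731400191977871792,
  138462605805998747202188615185192992,
  169086196061233457058011517476907399,
  169491352270601247349829334646073776,
  169613376674417332581168123007871137,
  278142335656282894443597689818286321,
  278547373054763642129494587074513328,
  278669278390007909520726568436467717,
  376790271618870424288349911456033324,
  377196220056720236380283289602861517,
  377318085593587077400572159455340549,
  470246663310608104504854545618819313,
  470652968244193135626330601408485837,
  470774556708609687608122981908371617,
  636385624301425304668465271691958663,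
  636791137112785787293819113247988238,
  636912289966620907020989359593936901,
  792155322343969755029073152150022385,
  792561112598245806800824902222490126,
  792682344337669613728948294061369376,
  859657637571731691451196925805693484,
  860063665316809569479215181384354318,
  860184778220362629892587839724816545,
  984290311336510094286814836554172807,
  984696141094445122728402629107747277,
  984818244535754528103549039458486304]

theorem P24_grp : grpCheck P24 = true := by decide +kernel
theorem P24_nodup : P24.Nodup := by decide +kernel
theorem P24_chk : ∀ c ∈ P24, checkFix [] c = true := by decide +kernel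
theorem P24_cert : ∀ c ∈ P24, c ∈ fsts C24_P := by decide +kernel

/-! ### the classification hypothesis -/

noncomputable abbrev r24 : ℕ → fixer [] := rOf [] Rc24

theorem r24_coe : ∀ ℓ ∈ S24, (r24 ℓ : Equiv.Perm GolayPt) = permOf (Rc24 ℓ) :=
  fun ℓ hℓ => rOf_coe (Rc24_chk ℓ ((mem_S24l ℓ).1 hℓ))

theorem S24_odd : ∀ ℓ ∈ S24, Odd ℓ := by decide

theorem prime_dvd_244823040 {p : ℕ} (hp : p.Prime) (h : p ∣ 244823040) :
    p = 2 ∨ p = 3 ∨ p ∈ [5, 7, 11, 23] := by
  have e : 244823040 = 2 ^ 10 * 3 ^ 3 * 5 * 7 * 11 * 23 := by norm_num
  rw [e] at h
  simp only [List.mem_cons, List.not_mem_nil, or_false]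
  rcases (Nat.Prime.dvd_mul hp).1 h with h | h
  · rcases (Nat.Prime.dvd_mul hp).1 h with h | h
    · rcases (Nat.Prime.dvd_mul hp).1 h with h | h
      · rcases (Nat.Prime.dvd_mul hp).1 h with h | h
        · rcases (Nat.Prime.dvd_mul hp).1 h with h | h
          · exact Or.inl ((Nat.prime_dvd_prime_iff_eq hp (by norm_num)).1 (hp.dvd_of_dvd_pow h))
          · exact Or.inr (Or.inl ((Nat.prime_dvd_prime_iff_eq hp (by norm_num)).1
              (hp.dvd_of_dvd_pow h)))
        · exact Or.inr (Or.inr (Or.inl ((Nat.prime_dvd_prime_iff_eq hp (by norm_num)).1 h)))
      · exact Or.inr (Or.inr (Or.inr (Or.inl ((Nat.prime_dvd_prime_iff_eq hp (by norm_num)).1 h))))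
    · exact Or.inr (Or.inr (Or.inr (Or.inr (Or.inl
        ((Nat.prime_dvd_prime_iff_eq hp (by norm_num)).1 h)))))
  · exact Or.inr (Or.inr (Or.inr (Or.inr (Or.inr
      ((Nat.prime_dvd_prime_iff_eq hp (by norm_num)).1 h)))))

theorem cent24 {s p : ℕ} (hs : checkFix [] s = true) (ho : orderOf (permOf s) = p)
    (hK : ∀ g ∈ fixer [], g * permOf s = permOf s * g → KA24 g) :
    ∃ h : fixer [], orderOf h = p ∧ ∀ x, x * h = h * x → KK S24 r24 x := by
  refine ⟨⟨permOf s, permOf_mem_fixer hs⟩, ?_, ?_⟩
  · rw [← Subgroup.orderOf_coe]; exact ho
  · intro x hx
    exact KK_of_KA r24_coe (hK x x.2 (congrArg Subtype.val hx))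

theorem cls24 (g : fixer []) : KK S24 r24 g := by
  have hcard : Nat.card (fixer []) = 244823040 := card_fixer_nil
  apply cls_of_sylow S24_odd [5, 7, 11, 23] _ (q := 3) (e := 3) (by norm_num)
    ((listGrp P24 P24_grp).subgroupOf (fixer []))
    (by rw [card_listGrp_subgroupOf P24_grp P24_nodup P24_chk]; rfl)
    (by rw [hcard]; norm_num) _ (by rw [hcard]; exact fun p hp h => prime_dvd_244823040 hp h)
  · intro p hp
    rw [hcard]
    simp only [List.mem_cons, List.not_mem_nil, or_false] at hp
    rcases hp with rfl | rfl | rfl | rfl
    · exact ⟨by norm_num, by norm_num, cent24 cH5_chk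
        (orderOf_code_prime (valid_of_checkFix cH5_chk) (by norm_num) (by decide +kernel)
          (by decide +kernel)) (fun g hg h => KA24_5 hg h)⟩
    · exact ⟨by norm_num, by norm_num, cent24 cH7_chk
        (orderOf_code_prime (valid_of_checkFix cH7_chk) (by norm_num) (by decide +kernel)
          (by decide +kernel)) (fun g hg h => KA24_7 hg h)⟩
    · exact ⟨by norm_num, by norm_num, cent24 cR11_chk (rep24.ord 11 (by simp [S24l]))
        (fun g hg h => KA24_11 hg h)⟩
    · exact ⟨by norm_num, by norm_num, cent24 cR23_chk (rep24.ord 23 (by simp [S24l]))
        (fun g hg h => KA24_23 hg h)⟩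
  · intro x hx
    obtain ⟨c, hc, he⟩ := mem_listGrp.1 (Subgroup.mem_subgroupOf.1 hx)
    apply KK_of_KA r24_coe
    rw [← he]
    exact KA_of_mem rep24 mem_S24l C24_P_ok (P24_cert c hc)

/-! ### the parities -/

theorem Xl_complete' : CompleteList (fixer []) Xl := by
  rw [fixer_nil]; exact Xl_complete

theorem lab_mem {t h : ℕ} (ht : checkM24 t = true) (hh : checkM24 h = true) :
    lab t h ∈ [0, 11, 15, 21, 23] := by
  rcases lab_spec ht hh with ⟨h1, h2⟩ | ⟨_, h2⟩
  · rw [h2]
    rcases mem_S24.1 h1 with e | e | e | e <;> rw [e] <;> simp
  · rw [h2]; simp

theorem two_terms {a b a' b' K : ℕ} (ha : a < K) (ha' : a' < K) (h : a + K * b = a' + K * b') :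
    a = a' ∧ b = b' := by
  have h1 : a = a' := by
    have := congrArg (· % K) h
    simpa [Nat.add_mul_mod_self_left, Nat.mod_eq_of_lt ha, Nat.mod_eq_of_lt ha'] using this
  subst h1
  exact ⟨rfl, Nat.eq_of_mul_eq_mul_left (lt_of_le_of_lt (Nat.zero_le _) ha) (Nat.add_left_cancel h)⟩

theorem horner5 {n0 n1 n2 n3 n4 m0 m1 m2 m3 m4 K1 K2 K3 K4 : ℕ} (N : ℕ) (h1 : N < K1) (h2 : N < K2)
    (h3 : N < K3) (h4 : N < K4) (a0 : n0 ≤ N) (a1 : n1 ≤ N) (a2 : n2 ≤ N) (a3 : n3 ≤ N)
    (b0 : m0 ≤ N) (b1 : m1 ≤ N) (b2 : m2 ≤ N) (b3 : m3 ≤ N)
    (h : m0 + K1 * (m1 + K2 * (m2 + K3 * (m3 + K4 * m4))) =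
      n0 + K1 * (n1 + K2 * (n2 + K3 * (n3 + K4 * n4)))) :
    n1 = m1 ∧ n2 = m2 ∧ n3 = m3 ∧ n4 = m4 := by
  obtain ⟨_, h⟩ := two_terms (lt_of_le_of_lt b0 h1) (lt_of_le_of_lt a0 h1) h
  obtain ⟨e1, h⟩ := two_terms (lt_of_le_of_lt b1 h2) (lt_of_le_of_lt a1 h2) h
  obtain ⟨e2, h⟩ := two_terms (lt_of_le_of_lt b2 h3) (lt_of_le_of_lt a2 h3) h
  obtain ⟨e3, h⟩ := two_terms (lt_of_le_of_lt b3 h4) (lt_of_le_of_lt a3 h4) h
  exact ⟨e1.symm, e2.symm, e3.symm, h.symm⟩

/-- the weighted sum of the labels in terms of the numbers of occurrences, for any weights. -/
theorem sum_w (w f : ℕ → ℕ) (vs : List ℕ) (hvs : vs.Nodup) (l : List ℕ) (hf : ∀ c ∈ l, f c ∈ vs) :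
    sumList (fun c => w (f c)) l = (vs.map fun v => l.countP (fun c => f c == v) * w v).sum := by
  induction l with
  | nil => simp [sumList]
  | cons a l ih =>
    rw [sumList_cons, ih (fun c hc => hf c (List.mem_cons_of_mem _ hc))]
    have ha := hf a (List.mem_cons_self)
    clear ih hf
    induction vs with
    | nil => exact absurd ha (List.not_mem_nil)
    | cons v vs ihv =>
      rw [List.map_cons, List.map_cons, List.sum_cons, List.sum_cons, List.countP_cons]
      have hnd := List.nodup_cons.1 hvs
      by_cases hav : f a = v
      · have h1 : ∀ u ∈ vs, (a :: l).countP (fun c => f c == u) = l.countP (fun c => f c == u) := by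
          intro u hu
          rw [List.countP_cons]
          have : (f a == u) = false := by
            rw [beq_eq_false_iff_ne]
            rintro rfl
            exact hnd.1 (hav ▸ hu)
          simp [this]
        have h2 : (vs.map fun v => (a :: l).countP (fun c => f c == v) * w v) =
            vs.map fun v => l.countP (fun c => f c == v) * w v :=
          List.map_congr_left fun u hu => by rw [h1 u hu]
        rw [h2]
        simp only [hav, beq_self_eq_true, if_true]
        ring
      · have ha' : f a ∈ vs := by
          rcases List.mem_cons.1 ha with h | h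
          · exact absurd h hav
          · exact h
        have := ihv hnd.2 ha'
        have h3 : (f a == v) = false := by rw [beq_eq_false_iff_ne]; exact hav
        simp only [h3, Bool.false_eq_true, if_false, add_zero]
        rw [← this]
        ring

theorem sum_map5 (g : ℕ → ℕ) (a b c d e : ℕ) :
    ([a, b, c, d, e].map g).sum = g a + (g b + (g c + (g d + (g e + 0)))) := by
  simp only [List.map_cons, List.map_nil, List.sum_cons, List.sum_nil]

/-- reading off the numbers of occurrences of the labels from the weighted sum. -/
theorem count5 (w : ℕ → ℕ) (K1 K2 K3 K4 : ℕ) (w0 : w 0 = 1) (w1 : w 11 = K1) (w2 : w 15 = K1 * K2)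
    (w3 : w 21 = K1 * K2 * K3) (w4 : w 23 = K1 * K2 * K3 * K4)
    (f : ℕ → ℕ) (l : List ℕ) (hf : ∀ c ∈ l, f c ∈ [0, 11, 15, 21, 23]) {N T : ℕ}
    (hl : l.length = N) (h1 : N < K1) (h2 : N < K2) (h3 : N < K3) (h4 : N < K4)
    (hT : sumList (fun c => w (f c)) l = T)
    (m0 m1 m2 m3 m4 : ℕ) (b0 : m0 ≤ N) (b1 : m1 ≤ N) (b2 : m2 ≤ N) (b3 : m3 ≤ N)
    (hm : m0 + K1 * (m1 + K2 * (m2 + K3 * (m3 + K4 * m4))) = T) :
    l.countP (fun c => f c == 11) = m1 ∧ l.countP (fun c => f c == 15) = m2 ∧
      l.countP (fun c => f c == 21) = m3 ∧ l.countP (fun c => f c == 23) = m4 := by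
  have hs := sum_w w f [0, 11, 15, 21, 23] (by decide) l hf
  rw [hT, sum_map5, w0, w1, w2, w3, w4] at hs
  have e : ∀ n0 n1 n2 n3 n4 : ℕ, n0 * 1 + (n1 * K1 + (n2 * (K1 * K2) + (n3 * (K1 * K2 * K3) +
      (n4 * (K1 * K2 * K3 * K4) + 0)))) =
      n0 + K1 * (n1 + K2 * (n2 + K3 * (n3 + K4 * n4))) := by
    intros; ring
  rw [e] at hs
  have hle : ∀ p : ℕ → Bool, l.countP p ≤ N := fun p => hl ▸ List.countP_le_length
  exact horner5 N h1 h2 h3 h4 (hle _) (hle _) (hle _) (hle _) b0 b1 b2 b3 (hm.trans hs)

theorem wt_0 : wt 0 = 1 := by decide +kernel
theorem wt_11 : wt 11 = 2 ^ 176 := by decide +kernel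
theorem wt_15 : wt 15 = 2 ^ 176 * 2 ^ 64 := by decide +kernel
theorem wt_21 : wt 21 = 2 ^ 176 * 2 ^ 64 * 2 ^ 96 := by decide +kernel
theorem wt_23 : wt 23 = 2 ^ 176 * 2 ^ 64 * 2 ^ 96 * 2 ^ 32 := by decide +kernel

theorem sum24_11 : sumList (fun c => wt (lab c cR11)) Xl = 2116318692681900441594885681701444683844405612494661063112089191276001910090121431880154201264882654006158049698384 := by
  rw [Xl_sum, X0_R11, X1_R11, X2_R11, X3_R11, X4_R11, X5_R11, X6_R11, X7_R11]

theorem sum24_15 : sumList (fun c => wt (lab c cR15)) Xl = 2453005757426748239121344767426674519909444403501144475165270799153063063280130991157732601658868359696160751902864 := by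
  rw [Xl_sum, X0_R15, X1_R15, X2_R15, X3_R15, X4_R15, X5_R15, X6_R15, X7_R15]

theorem sum24_21 : sumList (fun c => wt (lab c cR21)) Xl = 2424146866234575973940195151959492972652490926943337956490642169787196189947476650785503205446290935046517448270864 := by
  rw [Xl_sum, X0_R21, X1_R21, X2_R21, X3_R21, X4_R21, X5_R21, X6_R21, X7_R21]

theorem sum24_23 : sumList (fun c => wt (lab c cR23)) Xl = 2558821692083240708622867093617321176906735677606202928253927830730760736925715740578487616143510620162954727809104 := by
  rw [Xl_sum, X0_R23, X1_R23, X2_R23, X3_R23, X4_R23, X5_R23, X6_R23, X7_R23]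

theorem cnt24_11 : Xl.countP (fun c => lab c cR11 == 11) = 2 * 2536 ∧
    Xl.countP (fun c => lab c cR11 == 15) = 2 * 2992 ∧
    Xl.countP (fun c => lab c cR11 == 21) = 2 * 1760 ∧
    Xl.countP (fun c => lab c cR11 == 23) = 2 * 1760 :=
  count5 wt _ _ _ _ wt_0 wt_11 wt_15 wt_21 wt_23 (fun c => lab c cR11) Xl
    (fun c hc => lab_mem (Xl_complete.chk c hc) (check_of_checkFix cR11_chk)) Xl_length
    (by norm_num) (by norm_num) (by norm_num) (by norm_num) sum24_11 25168 _ _ _ _
    (by norm_num) (by norm_num) (by norm_num) (by norm_num) (by norm_num)

theorem cnt24_15 : Xl.countP (fun c => lab c cR15 == 11) = 2 * 2040 ∧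
    Xl.countP (fun c => lab c cR15 == 15) = 2 * 3152 ∧
    Xl.countP (fun c => lab c cR15 == 21) = 2 * 2040 ∧
    Xl.countP (fun c => lab c cR15 == 23) = 2 * 2040 :=
  count5 wt _ _ _ _ wt_0 wt_11 wt_15 wt_21 wt_23 (fun c => lab c cR15) Xl
    (fun c hc => lab_mem (Xl_complete.chk c hc) (check_of_checkFix cR15_chk)) Xl_length
    (by norm_num) (by norm_num) (by norm_num) (by norm_num) sum24_15 24720 _ _ _ _
    (by norm_num) (by norm_num) (by norm_num) (by norm_num) (by norm_num)

theorem cnt24_21 : Xl.countP (fun c => lab c cR21 == 11) = 2 * 1680 ∧
    Xl.countP (fun c => lab c cR21 == 15) = 2 * 2856 ∧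
    Xl.countP (fun c => lab c cR21 == 21) = 2 * 2272 ∧
    Xl.countP (fun c => lab c cR21 == 23) = 2 * 2016 :=
  count5 wt _ _ _ _ wt_0 wt_11 wt_15 wt_21 wt_23 (fun c => lab c cR21) Xl
    (fun c hc => lab_mem (Xl_complete.chk c hc) (check_of_checkFix cR21_chk)) Xl_length
    (by norm_num) (by norm_num) (by norm_num) (by norm_num) sum24_21 25616 _ _ _ _
    (by norm_num) (by norm_num) (by norm_num) (by norm_num) (by norm_num)

theorem cnt24_23 : Xl.countP (fun c => lab c cR23 == 11) = 2 * 1840 ∧
    Xl.countP (fun c => lab c cR23 == 15) = 2 * 3128 ∧
    Xl.countP (fun c => lab c cR23 == 21) = 2 * 2208 ∧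
    Xl.countP (fun c => lab c cR23 == 23) = 2 * 2128 :=
  count5 wt _ _ _ _ wt_0 wt_11 wt_15 wt_21 wt_23 (fun c => lab c cR23) Xl
    (fun c hc => lab_mem (Xl_complete.chk c hc) (check_of_checkFix cR23_chk)) Xl_length
    (by norm_num) (by norm_num) (by norm_num) (by norm_num) sum24_23 24656 _ _ _ _
    (by norm_num) (by norm_num) (by norm_num) (by norm_num) (by norm_num)

theorem par24 [Fintype (fixer [])] [DecidableEq (fixer [])] : ∀ ℓ ∈ S24, ∀ ℓ' ∈ S24,
    Even (Finset.univ.filter fun x : fixer [] => x * x = 1 ∧ orderOf (x * r24 ℓ) = ℓ').card := by
  have key : ∀ (s ℓ : ℕ) (hs : checkFix [] s = true), (r24 ℓ : Equiv.Perm GolayPt) = permOf s →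
      ∀ ℓ' ∈ S24, ∀ n, Xl.countP (fun c => lab c s == ℓ') = 2 * n →
      Even (Finset.univ.filter fun x : fixer [] => x * x = 1 ∧ orderOf (x * r24 ℓ) = ℓ').card := by
    intro s ℓ hs hr ℓ' hℓ' n hn
    exact par_of_count Xl_complete' hr (fun c => lab c s)
      (fun c hc => lab_eq_iff (Xl_complete.chk c hc) (check_of_checkFix hs) hℓ') hn
  intro ℓ hℓ ℓ' hℓ'
  have hr := r24_coe ℓ hℓ
  rcases mem_S24.1 hℓ with rfl | rfl | rfl | rfl
  · rcases mem_S24.1 hℓ' with rfl | rfl | rfl | rfl
    · exact key cR11 11 cR11_chk hr 11 hℓ' _ cnt24_11.1
    · exact key cR11 11 cR11_chk hr 15 hℓ' _ cnt24_11.2.1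
    · exact key cR11 11 cR11_chk hr 21 hℓ' _ cnt24_11.2.2.1
    · exact key cR11 11 cR11_chk hr 23 hℓ' _ cnt24_11.2.2.2
  · rcases mem_S24.1 hℓ' with rfl | rfl | rfl | rfl
    · exact key cR15 15 cR15_chk hr 11 hℓ' _ cnt24_15.1
    · exact key cR15 15 cR15_chk hr 15 hℓ' _ cnt24_15.2.1
    · exact key cR15 15 cR15_chk hr 21 hℓ' _ cnt24_15.2.2.1
    · exact key cR15 15 cR15_chk hr 23 hℓ' _ cnt24_15.2.2.2
  · rcases mem_S24.1 hℓ' with rfl | rfl | rfl | rfl
    · exact key cR21 21 cR21_chk hr 11 hℓ' _ cnt24_21.1
    · exact key cR21 21 cR21_chk hr 15 hℓ' _ cnt24_21.2.1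
    · exact key cR21 21 cR21_chk hr 21 hℓ' _ cnt24_21.2.2.1
    · exact key cR21 21 cR21_chk hr 23 hℓ' _ cnt24_21.2.2.2
  · rcases mem_S24.1 hℓ' with rfl | rfl | rfl | rfl
    · exact key cR23 23 cR23_chk hr 11 hℓ' _ cnt24_23.1
    · exact key cR23 23 cR23_chk hr 15 hℓ' _ cnt24_23.2.1
    · exact key cR23 23 cR23_chk hr 21 hℓ' _ cnt24_23.2.2.1
    · exact key cR23 23 cR23_chk hr 23 hℓ' _ cnt24_23.2.2.2

/-! ### the local hypothesis and the theorem -/

theorem LocA.congr {Γ Γ' : Subgroup (Equiv.Perm GolayPt)} (h : Γ = Γ') {t : Equiv.Perm GolayPt}
    (H : LocA Γ t) : LocA Γ' t := by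
  subst h; exact H

theorem loc24 (t : fixer []) (h1 : t ≠ 1) (h2 : t * t = 1) : LocalOK t := by
  apply localOK_of_locA
  exact LocA.congr fixer_nil.symm (locA_M24 (fixer_le_M24 [] t.2) (congrArg Subtype.val h2)
    (fun e => h1 (Subtype.ext e)))

theorem sameBlock_fixer_nil (M : Ideal AlgInt) (hM : IsPModular 2 M)
    (χ ψ : IrrCharacter (fixer [])) :
    SameBlock M (χ : fixer [] → ℂ) (ψ : fixer [] → ℂ) := by
  classical
  have : Fintype (fixer []) := Fintype.ofFinite _
  exact sameBlock_all loc24 (S := S24) (r := r24) ⟨S24_odd, cls24, par24⟩ M hM χ ψ

theorem sameBlock_M24 (M : Ideal AlgInt) (hM : IsPModular 2 M) (χ ψ : IrrCharacter M24) :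
    SameBlock M (χ : M24 → ℂ) (ψ : M24 → ℂ) := by
  revert χ ψ
  rw [← fixer_nil]
  exact sameBlock_fixer_nil M hM

end Cfsg.Agent.Lib.Helper7.Blk
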