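import Cfsg.Agent.Lib.Helper92.CodeGroup
import Cfsg.Agent.Lib.Helper7.M24Fix

/-!
# Kernel-friendly order tests for products of two coded elements of `M24`
-/

set_option autoImplicit false

namespace Cfsg.Agent.Lib.Helper7.Blk

open Cfsg
open Cfsg.Agent.Lib.Helper27
open Cfsg.Agent.Lib.Helper92 (permOf_pt stdBase eq_of_base pt_injOn mulU idCode)

/-- Boolean negation. -/
def bNot (x : Bool) : Bool := Bool.rec true false x

theorem bNot_eq_true (x : Bool) : bNot x = true ↔ x = false := by cases x <;> simp [bNot]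

/-- image of the index `p` under `permOf t * permOf h`. -/
def stp (t h p : ℕ) : ℕ := ent t (ent h p)

/-- iterates. -/
def itr (t h n p : ℕ) : ℕ := Nat.rec p (fun _ ih => stp t h ih) n

theorem itr_zero (t h p : ℕ) : itr t h 0 p = p := rfl

theorem itr_succ (t h n p : ℕ) : itr t h (n + 1) p = stp t h (itr t h n p) := rfl

theorem itr_succ' (t h n p : ℕ) : itr t h (n + 1) p = itr t h n (stp t h p) := by
  induction n with
  | zero => rfl
  | succ n ih => rw [itr_succ, ih, itr_succ]

section spec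

variable {t h : ℕ} (ht : validCode t = true) (hh : validCode h = true)

include ht hh

theorem stp_lt {p : ℕ} (hp : p < 24) : stp t h p < 24 :=
  ent_lt_of_valid ht _ (ent_lt_of_valid hh p hp)

theorem itr_lt (n : ℕ) {p : ℕ} (hp : p < 24) : itr t h n p < 24 := by
  induction n with
  | zero => exact hp
  | succ n ih => rw [itr_succ]; exact stp_lt ht hh ih

theorem pow_apply (n : ℕ) {p : ℕ} (hp : p < 24) :
    ((permOf t * permOf h) ^ n) (pt p) = pt (itr t h n p) := by
  induction n with
  | zero => simp [itr_zero]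
  | succ n ih =>
    rw [pow_succ', Equiv.Perm.mul_apply, ih, itr_succ, Equiv.Perm.mul_apply,
      permOf_pt hh (itr_lt ht hh n hp), permOf_pt ht (ent_lt_of_valid hh _ (itr_lt ht hh n hp))]
    rfl

theorem pow_apply_eq_iff (n : ℕ) {p : ℕ} (hp : p < 24) :
    ((permOf t * permOf h) ^ n) (pt p) = pt p ↔ itr t h n p = p := by
  rw [pow_apply ht hh n hp]
  exact ⟨fun e => pt_injOn (itr_lt ht hh n hp) hp e, fun e => by rw [e]⟩

end spec

/-- `(permOf t * permOf h) ^ n = 1`, tested on the base. -/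
def powFix (t h n : ℕ) : Bool := allList (fun b => Nat.beq (itr t h n b) b) stdBase

theorem powFix_iff {t h : ℕ} (ht : checkM24 t = true) (hh : checkM24 h = true) (n : ℕ) :
    powFix t h n = true ↔ (permOf t * permOf h) ^ n = 1 := by
  have htv := valid_of_check ht
  have hhv := valid_of_check hh
  have hlt : ∀ b ∈ stdBase, b < 24 := by decide
  unfold powFix
  rw [allList_iff]
  constructor
  · intro H
    apply eq_of_base (M24.pow_mem (M24.mul_mem (permOf_mem_M24 ht) (permOf_mem_M24 hh)) n) M24.one_mem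
    intro b hb
    have := H b hb
    rw [Nat.beq_eq] at this
    rw [(pow_apply_eq_iff htv hhv n (hlt b hb)).2 this]
    rfl
  · intro H b hb
    rw [Nat.beq_eq, ← pow_apply_eq_iff htv hhv n (hlt b hb), H]
    rfl

/-- order `ℓ` (a prime). -/
def ordP (t h ℓ : ℕ) : Bool := band (powFix t h ℓ) (bNot (powFix t h 1))

theorem ordP_iff {t h : ℕ} (ht : checkM24 t = true) (hh : checkM24 h = true) {ℓ : ℕ}
    (hℓ : ℓ.Prime) : ordP t h ℓ = true ↔ orderOf (permOf t * permOf h) = ℓ := by
  have : Fact ℓ.Prime := ⟨hℓ⟩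
  unfold ordP
  rw [band_eq, Bool.and_eq_true, bNot_eq_true, powFix_iff ht hh, orderOf_eq_prime_iff,
    ← Bool.not_eq_true, powFix_iff ht hh, pow_one]

/-- order `a * b` (two distinct primes). -/
def ord2 (t h a b : ℕ) : Bool :=
  band (powFix t h (Nat.mul a b)) (band (bNot (powFix t h a)) (bNot (powFix t h b)))

theorem orderOf_eq_mul_iff {G : Type*} [Group G] (x : G) {a b : ℕ} (ha : a.Prime) (hb : b.Prime) :
    orderOf x = a * b ↔ x ^ (a * b) = 1 ∧ x ^ a ≠ 1 ∧ x ^ b ≠ 1 := by
  constructor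
  · intro h
    refine ⟨by rw [← h, pow_orderOf_eq_one], fun h1 => ?_, fun h1 => ?_⟩
    · have := orderOf_dvd_of_pow_eq_one h1
      rw [h] at this
      have h2 := Nat.le_of_dvd ha.pos this
      have := hb.two_le
      nlinarith [ha.pos]
    · have := orderOf_dvd_of_pow_eq_one h1
      rw [h] at this
      have h2 := Nat.le_of_dvd hb.pos this
      have := ha.two_le
      nlinarith [hb.pos]
  · rintro ⟨h1, h2, h3⟩
    apply orderOf_eq_of_pow_and_pow_div_prime (Nat.mul_pos ha.pos hb.pos) h1
    intro p hp hd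
    rcases (Nat.Prime.dvd_mul hp).1 hd with h | h
    · rw [(Nat.prime_dvd_prime_iff_eq hp ha).1 h, Nat.mul_div_cancel_left _ ha.pos]
      exact h3
    · rw [(Nat.prime_dvd_prime_iff_eq hp hb).1 h, Nat.mul_div_cancel _ hb.pos]
      exact h2

theorem ord2_iff {t h : ℕ} (ht : checkM24 t = true) (hh : checkM24 h = true) {a b : ℕ}
    (ha : a.Prime) (hb : b.Prime) :
    ord2 t h a b = true ↔ orderOf (permOf t * permOf h) = a * b := by
  unfold ord2
  rw [band_eq, band_eq, Bool.and_eq_true, Bool.and_eq_true, bNot_eq_true, bNot_eq_true,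
    powFix_iff ht hh, orderOf_eq_mul_iff _ ha hb, ← Bool.not_eq_true, powFix_iff ht hh,
    ← Bool.not_eq_true, powFix_iff ht hh]
  rfl

/-! ### cycle lengths -/

open Cfsg.Agent.Lib.Helper92 (force force_eq)

/-- search for the return of the orbit of `p`. -/
def cycAux (t h p fuel : ℕ) : ℕ → ℕ → ℕ :=
  Nat.rec (fun _ _ => 0)
    (fun _ ih q n => Bool.rec (force (stp t h q) (fun q' => ih q' (Nat.succ n))) n (Nat.beq q p)) fuel

theorem cycAux_zero (t h p q n : ℕ) : cycAux t h p 0 q n = 0 := rfl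

theorem cycAux_succ (t h p f q n : ℕ) :
    cycAux t h p (f + 1) q n = if q = p then n else cycAux t h p f (stp t h q) (n + 1) := by
  have e : cycAux t h p (f + 1) q n = (Bool.rec (force (stp t h q)
      (fun q' => cycAux t h p f q' (Nat.succ n))) n (Nat.beq q p) : ℕ) := rfl
  rw [e, force_eq]
  by_cases hq : q = p
  · have : Nat.beq q p = true := by rw [Nat.beq_eq]; exact hq
    rw [if_pos hq, this]
  · rw [if_neg hq]
    have : Nat.beq q p = false := by
      rw [← Bool.not_eq_true, Nat.beq_eq]; exact hq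
    rw [this]

theorem cycAux_spec (t h p : ℕ) : ∀ fuel q n,
    (cycAux t h p fuel q n = 0 → n ≠ 0 → ∀ i < fuel, itr t h i q ≠ p) ∧
    (cycAux t h p fuel q n ≠ 0 → ∃ j < fuel, cycAux t h p fuel q n = n + j ∧ itr t h j q = p ∧
      ∀ i < j, itr t h i q ≠ p) := by
  intro fuel
  induction fuel with
  | zero =>
    intro q n
    exact ⟨fun _ _ i hi => absurd hi (Nat.not_lt_zero i), fun h' => absurd (cycAux_zero t h p q n) h'⟩
  | succ f ih =>
    intro q n
    rw [cycAux_succ]
    by_cases hq : q = p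
    · rw [if_pos hq]
      exact ⟨fun h1 h2 => absurd h1 h2, fun _ => ⟨0, Nat.succ_pos f, rfl, hq,
        fun i hi => absurd hi (Nat.not_lt_zero i)⟩⟩
    · rw [if_neg hq]
      obtain ⟨ih1, ih2⟩ := ih (stp t h q) (n + 1)
      constructor
      · intro h1 _ i hi
        rcases i with _ | i
        · exact hq
        · rw [itr_succ']
          exact ih1 h1 (Nat.succ_ne_zero n) i (by omega)
      · intro h1
        obtain ⟨j, hj, e1, e2, e3⟩ := ih2 h1
        refine ⟨j + 1, by omega, by rw [e1]; ring, by rw [itr_succ']; exact e2, ?_⟩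
        intro i hi
        rcases i with _ | i
        · exact hq
        · rw [itr_succ']
          exact e3 i (by omega)

/-- the length of the cycle of `p` (`0` if there is no return within 24 steps). -/
def cycLen (t h p : ℕ) : ℕ := cycAux t h p 24 (stp t h p) 1

theorem cycLen_le (t h p : ℕ) : cycLen t h p ≤ 24 := by
  by_cases h0 : cycLen t h p = 0
  · rw [h0]; exact Nat.zero_le _
  · obtain ⟨j, hj, e1, _, _⟩ := (cycAux_spec t h p 24 (stp t h p) 1).2 h0
    unfold cycLen
    rw [e1]; omega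

theorem cycLen_pos_spec {t h p : ℕ} (h0 : cycLen t h p ≠ 0) :
    itr t h (cycLen t h p) p = p ∧ ∀ i, 0 < i → i < cycLen t h p → itr t h i p ≠ p := by
  obtain ⟨j, hj, e1, e2, e3⟩ := (cycAux_spec t h p 24 (stp t h p) 1).2 h0
  have e1' : cycLen t h p = j + 1 := by unfold cycLen; rw [e1, add_comm]
  rw [e1']
  refine ⟨by rw [itr_succ']; exact e2, ?_⟩
  intro i hi1 hi2
  obtain ⟨i, rfl⟩ := Nat.exists_eq_succ_of_ne_zero hi1.ne'
  rw [Nat.succ_eq_add_one, itr_succ']
  exact e3 i (by omega)

theorem cycLen_zero_spec {t h p : ℕ} (h0 : cycLen t h p = 0) :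
    ∀ i, 0 < i → i ≤ 24 → itr t h i p ≠ p := by
  intro i hi1 hi2
  obtain ⟨i, rfl⟩ := Nat.exists_eq_succ_of_ne_zero hi1.ne'
  rw [Nat.succ_eq_add_one, itr_succ']
  exact (cycAux_spec t h p 24 (stp t h p) 1).1 h0 one_ne_zero i (by omega)

/-! ### orders from cycles -/

theorem dvd_of_cycle {x : Equiv.Perm GolayPt} {p : GolayPt} {m ℓ : ℕ} (h1 : (x ^ m) p = p)
    (h2 : ∀ i, 0 < i → i < m → (x ^ i) p ≠ p) (hm : 0 < m) (hℓ : (x ^ ℓ) p = p) : m ∣ ℓ := by
  have h3 : ∀ k, ((x ^ m) ^ k) p = p := by
    intro k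
    induction k with
    | zero => simp
    | succ k ih => rw [pow_succ, Equiv.Perm.mul_apply, h1, ih]
  have h4 : (x ^ (ℓ % m)) p = p := by
    have : x ^ ℓ = x ^ (ℓ % m) * (x ^ m) ^ (ℓ / m) := by
      rw [← pow_mul, ← pow_add, Nat.mod_add_div]
    rw [this, Equiv.Perm.mul_apply, h3] at hℓ
    exact hℓ
  by_contra hnd
  exact h2 (ℓ % m) (Nat.pos_of_ne_zero fun h => hnd (Nat.dvd_of_mod_eq_zero h)) (Nat.mod_lt _ hm) h4

theorem orderOf_eq_of_cycle {x : Equiv.Perm GolayPt} (hx : x ∈ M24) {p : GolayPt} {m : ℕ}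
    (hm : 8 < m) (h1 : (x ^ m) p = p) (h2 : ∀ i, 0 < i → i < m → (x ^ i) p ≠ p) :
    orderOf x = m := by
  have h3 : x ^ m = 1 := by
    by_contra hne
    have h4 := card_fixedPts_le (M24.pow_mem hx m) hne
    have h5 : (Finset.range m).card ≤ (fixedPts (x ^ m)).card := by
      apply Finset.card_le_card_of_injOn (fun i => (x ^ i) p)
      · intro i _
        simp only [Finset.mem_coe]
        rw [mem_fixedPts, ← Equiv.Perm.mul_apply, ← pow_add, add_comm, pow_add,
          Equiv.Perm.mul_apply, h1]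
      · have key : ∀ i j, i < j → j < m → (x ^ i) p ≠ (x ^ j) p := by
          intro i j hij hj e
          apply h2 (j - i) (by omega) (by omega)
          have : x ^ j = x ^ i * x ^ (j - i) := by rw [← pow_add]; congr 1; omega
          rw [this, Equiv.Perm.mul_apply] at e
          exact ((x ^ i).injective e).symm
        intro i hi j hj e
        simp only [Finset.coe_range, Set.mem_Iio] at hi hj
        rcases lt_trichotomy i j with h | h | h
        · exact absurd e (key i j h hj)
        · exact h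
        · exact absurd e.symm (key j i h hi)
    rw [Finset.card_range] at h5
    omega
  have h6 := orderOf_dvd_of_pow_eq_one h3
  have h7 : (x ^ orderOf x) p = p := by rw [pow_orderOf_eq_one]; rfl
  exact Nat.dvd_antisymm h6 (dvd_of_cycle h1 h2 (by omega) h7)

/-! ### the label: the order if it is `11, 15, 21, 23`, and `0` otherwise -/

/-- the orders of the elements of `M24` with a centralizer of odd order. -/
def S24 : Finset ℕ := {11, 15, 21, 23}

theorem mem_S24 {n : ℕ} : n ∈ S24 ↔ n = 11 ∨ n = 15 ∨ n = 21 ∨ n = 23 := by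
  simp [S24]

/-- decision from one cycle length. -/
def dec (m k : ℕ) : ℕ :=
  Bool.rec (Bool.rec 0 k (Nat.beq (Nat.land (Nat.shiftRight 170 m) 1) 1)) m
    (Nat.beq (Nat.land (Nat.shiftRight 10520576 m) 1) 1)

theorem dec_spec (k : ℕ) : ∀ m, m ≤ 24 → (m ∈ S24 ∧ dec m k = m) ∨
    ((m = 1 ∨ m = 3 ∨ m = 5 ∨ m = 7) ∧ dec m k = k) ∨
    ((m ≠ 1 ∧ m ≠ 3 ∧ m ≠ 5 ∧ m ≠ 7 ∧ m ≠ 11 ∧ m ≠ 15 ∧ m ≠ 21 ∧ m ≠ 23) ∧ dec m k = 0) := by
  intro m hm
  interval_cases m <;>
    first
    | exact Or.inl ⟨by decide, rfl⟩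
    | exact Or.inr (Or.inl ⟨by decide, rfl⟩)
    | exact Or.inr (Or.inr ⟨by decide, rfl⟩)

/-- the exact test. -/
def slow (t h : ℕ) : ℕ :=
  Bool.rec (Bool.rec (Bool.rec (Bool.rec 0 11 (ordP t h 11)) 15 (ord2 t h 3 5)) 21 (ord2 t h 3 7)) 23
    (ordP t h 23)

/-- the specification of a label. -/
def LabOK (x : Equiv.Perm GolayPt) (v : ℕ) : Prop :=
  (orderOf x ∈ S24 ∧ v = orderOf x) ∨ (orderOf x ∉ S24 ∧ v = 0)

theorem slow_spec {t h : ℕ} (ht : checkM24 t = true) (hh : checkM24 h = true) :
    LabOK (permOf t * permOf h) (slow t h) := by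
  have h23 := ordP_iff ht hh (ℓ := 23) (by norm_num)
  have h11 := ordP_iff ht hh (ℓ := 11) (by norm_num)
  have h21 := ord2_iff ht hh (a := 3) (b := 7) (by norm_num) (by norm_num)
  have h15 := ord2_iff ht hh (a := 3) (b := 5) (by norm_num) (by norm_num)
  unfold slow LabOK
  rcases hb23 : ordP t h 23 with _ | _
  · rcases hb21 : ord2 t h 3 7 with _ | _
    · rcases hb15 : ord2 t h 3 5 with _ | _
      · rcases hb11 : ordP t h 11 with _ | _
        · right
          refine ⟨?_, rfl⟩
          rw [mem_S24]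
          rintro (e | e | e | e)
          · rw [h11.2 e] at hb11; exact absurd hb11 (by simp)
          · rw [h15.2 e] at hb15; exact absurd hb15 (by simp)
          · rw [h21.2 e] at hb21; exact absurd hb21 (by simp)
          · rw [h23.2 e] at hb23; exact absurd hb23 (by simp)
        · left
          rw [h11.1 hb11]; exact ⟨by decide, rfl⟩
      · left
        rw [h15.1 hb15]; exact ⟨by decide, rfl⟩
    · left
      rw [h21.1 hb21]; exact ⟨by decide, rfl⟩
  · left
    rw [h23.1 hb23]; exact ⟨by decide, rfl⟩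

/-- scan the cycles through the points of a list. -/
def scan (t h : ℕ) (l : List ℕ) : ℕ :=
  List.rec (slow t h) (fun b _ ih => force (cycLen t h b) (fun m => dec m ih)) l

theorem scan_cons (t h b : ℕ) (l : List ℕ) :
    scan t h (b :: l) = dec (cycLen t h b) (scan t h l) := by
  show force (cycLen t h b) (fun m => dec m (scan t h l)) = _
  rw [force_eq]

theorem scan_spec {t h : ℕ} (ht : checkM24 t = true) (hh : checkM24 h = true) (l : List ℕ)
    (hl : ∀ b ∈ l, b < 24) : LabOK (permOf t * permOf h) (scan t h l) := by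
  have htv := valid_of_check ht
  have hhv := valid_of_check hh
  have hx : permOf t * permOf h ∈ M24 := M24.mul_mem (permOf_mem_M24 ht) (permOf_mem_M24 hh)
  induction l with
  | nil => exact slow_spec ht hh
  | cons b l ih =>
    have hb : b < 24 := hl b (List.mem_cons_self)
    rw [scan_cons]
    rcases dec_spec (scan t h l) (cycLen t h b) (cycLen_le t h b) with ⟨h1, h2⟩ | ⟨_, h2⟩ | ⟨h1, h2⟩
    · rw [h2]
      have h0 : cycLen t h b ≠ 0 := by
        intro e; rw [e] at h1; exact absurd h1 (by decide)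
      obtain ⟨e1, e2⟩ := cycLen_pos_spec h0
      have h8 : 8 < cycLen t h b := by
        rcases mem_S24.1 h1 with e | e | e | e <;> rw [e] <;> norm_num
      have := orderOf_eq_of_cycle hx (p := pt b) h8 ((pow_apply_eq_iff htv hhv _ hb).2 e1)
        (fun i hi1 hi2 e => e2 i hi1 hi2 ((pow_apply_eq_iff htv hhv _ hb).1 e))
      left
      rw [this]
      exact ⟨h1, rfl⟩
    · rw [h2]
      exact ih (fun b hb => hl b (List.mem_cons_of_mem _ hb))
    · rw [h2]
      right
      refine ⟨fun hS => ?_, rfl⟩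
      have hfix : ((permOf t * permOf h) ^ orderOf (permOf t * permOf h)) (pt b) = pt b := by
        rw [pow_orderOf_eq_one]; rfl
      by_cases h0 : cycLen t h b = 0
      · refine cycLen_zero_spec h0 (orderOf (permOf t * permOf h)) ?_ ?_
          ((pow_apply_eq_iff htv hhv _ hb).1 hfix)
        · rcases mem_S24.1 hS with e | e | e | e <;> rw [e] <;> norm_num
        · rcases mem_S24.1 hS with e | e | e | e <;> rw [e] <;> norm_num
      · obtain ⟨e1, e2⟩ := cycLen_pos_spec h0
        have hd := dvd_of_cycle (p := pt b) ((pow_apply_eq_iff htv hhv _ hb).2 e1)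
          (fun i hi1 hi2 e => e2 i hi1 hi2 ((pow_apply_eq_iff htv hhv _ hb).1 e))
          (Nat.pos_of_ne_zero h0) hfix
        have hle := cycLen_le t h b
        obtain ⟨n1, n3, n5, n7, n11, n15, n21, n23⟩ := h1
        generalize cycLen t h b = m at *
        rcases mem_S24.1 hS with e | e | e | e <;> rw [e] at hd <;> revert hd <;>
          interval_cases m <;> (intro _; contradiction)

/-- the label of `permOf t * permOf h`. -/
def lab (t h : ℕ) : ℕ := scan t h stdBase

theorem lab_spec {t h : ℕ} (ht : checkM24 t = true) (hh : checkM24 h = true) :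
    LabOK (permOf t * permOf h) (lab t h) :=
  scan_spec ht hh stdBase (by decide)

theorem lab_eq_iff {t h : ℕ} (ht : checkM24 t = true) (hh : checkM24 h = true) {ℓ : ℕ}
    (hℓ : ℓ ∈ S24) : lab t h = ℓ ↔ orderOf (permOf t * permOf h) = ℓ := by
  rcases lab_spec ht hh with ⟨_, h2⟩ | ⟨h1, h2⟩
  · rw [h2]
  · rw [h2]
    constructor
    · intro e; rw [← e] at hℓ; exact absurd hℓ (by decide)
    · intro e; rw [e] at h1; exact absurd hℓ h1

end Cfsg.Agent.Lib.Helper7.Blk
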