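import Mathlib

/-!
# Definitions for S1666 (rank 3 recognition of the Higman-Sims group)
-/

set_option autoImplicit false

namespace Cfsg.Agent.Lib.Helper7.HSR

/-- The permutations of the vertex set that preserve a graph, as a subgroup of `Equiv.Perm V`. -/
def autSub {V : Type*} (Γ : SimpleGraph V) : Subgroup (Equiv.Perm V) where
  carrier := {σ | ∀ x y, Γ.Adj (σ x) (σ y) ↔ Γ.Adj x y}
  one_mem' := fun _ _ => Iff.rfl
  mul_mem' := by
    intro σ τ hσ hτ x y
    rw [Equiv.Perm.mul_apply, Equiv.Perm.mul_apply, hσ, hτ]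
  inv_mem' := by
    intro σ hσ x y
    have := hσ (σ⁻¹ x) (σ⁻¹ y)
    have e : ∀ v, σ (σ⁻¹ v) = v := fun v => Equiv.apply_symm_apply σ v
    rw [e, e] at this
    exact this.symm

theorem mem_autSub {V : Type*} {Γ : SimpleGraph V} {σ : Equiv.Perm V} :
    σ ∈ autSub Γ ↔ ∀ x y, Γ.Adj (σ x) (σ y) ↔ Γ.Adj x y := Iff.rfl

end Cfsg.Agent.Lib.Helper7.HSR
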