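import Cfsg.Agent.Lib.Helper7.HSRDefs
import Cfsg.Agent.Lib.Helper27.SRG100
import Cfsg.Agent.S1586

/-!
# S1666: the abstract pieces (orbital graph of the rank 3 action, order of the automorphism group,
two subgroups of index 2)
-/

set_option autoImplicit false

namespace Cfsg.Agent.Lib.Helper7.HSR

theorem card_of_stab {Ω : Type*} [Fintype Ω] [DecidableEq Ω] (hΩ : Fintype.card Ω = 100)
    (G : Subgroup (Equiv.Perm Ω)) [MulAction.IsPretransitive G Ω] (a : Ω)
    (hs : Nat.card (MulAction.stabilizer G a) = 443520) : Nat.card G = 44352000 := by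
  have h1 : (MulAction.stabilizer G a).index = 100 := by
    rw [MulAction.index_stabilizer, MulAction.orbit_eq_univ, Set.ncard_univ, Nat.card_eq_fintype_card, hΩ]
  have h2 := (MulAction.stabilizer G a).card_mul_index
  rw [h1, hs] at h2
  omega


theorem eq_of_index_two {X : Type*} [Group X] (P Q : Subgroup X) (hP : P.index = 2)
    (hQ : Q.index = 2) (h : ∀ K : Subgroup Q, K.index ≠ 2) : P = Q := by
  have : P.Normal := Subgroup.normal_of_index_eq_two hP
  have h1 : P.relIndex Q ∣ 2 := hP ▸ Subgroup.relIndex_dvd_index_of_normal P Q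
  have h2 : P.relIndex Q ≠ 2 := h (P.subgroupOf Q)
  have h3 : P.relIndex Q = 1 := by
    rcases (Nat.dvd_prime Nat.prime_two).1 h1 with h | h
    · exact h
    · exact absurd h h2
  have h4 : Q ≤ P := Subgroup.relIndex_eq_one.1 h3
  have h5 := Subgroup.relIndex_mul_index h4
  rw [hP, hQ] at h5
  have h6 : Q.relIndex P = 1 := by omega
  exact le_antisymm (Subgroup.relIndex_eq_one.1 h6) h4

theorem iso_of_index_two {V W : Type*} [Finite V] [Finite W] {Γ : SimpleGraph V}
    {Γ' : SimpleGraph W} (φ : Γ ≃g Γ') (n : ℕ) (hn : 0 < n) (hA : Nat.card (autSub Γ') = 2 * n)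
    (G : Subgroup (Equiv.Perm V)) (H : Subgroup (Equiv.Perm W))
    (hG : G ≤ autSub Γ) (hH : H ≤ autSub Γ') (cG : Nat.card G = n) (cH : Nat.card H = n)
    (hH2 : ∀ K : Subgroup H, K.index ≠ 2) : Nonempty (G ≃* H) := by
  let c : Equiv.Perm V ≃* Equiv.Perm W := φ.toEquiv.permCongrHom
  let G' : Subgroup (Equiv.Perm W) := G.map c.toMonoidHom
  let e0 : G ≃* G' := c.subgroupMap G
  have hG' : G' ≤ autSub Γ' := by
    rintro _ ⟨σ, hσ, rfl⟩ x y
    have h1 := hG hσ (φ.symm x) (φ.symm y)
    show Γ'.Adj (φ (σ (φ.symm x))) (φ (σ (φ.symm y))) ↔ Γ'.Adj x y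
    rw [φ.map_adj_iff, h1, φ.symm.map_adj_iff]
  have cG' : Nat.card G' = n := by rw [← Nat.card_congr e0.toEquiv, cG]
  have idx : ∀ L : Subgroup (Equiv.Perm W), L ≤ autSub Γ' → Nat.card L = n →
      (L.subgroupOf (autSub Γ')).index = 2 := by
    intro L hL cL
    have h1 := (L.subgroupOf (autSub Γ')).card_mul_index
    rw [Nat.card_congr (Subgroup.subgroupOfEquivOfLe hL).toEquiv, cL, hA] at h1
    have : n * (L.subgroupOf (autSub Γ')).index = n * 2 := by rw [h1]; ring
    exact Nat.eq_of_mul_eq_mul_left hn this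
  have key : G'.subgroupOf (autSub Γ') = H.subgroupOf (autSub Γ') := by
    apply eq_of_index_two _ _ (idx G' hG' cG') (idx H hH cH)
    intro K hK
    apply hH2 (K.map (Subgroup.subgroupOfEquivOfLe hH).toMonoidHom)
    rw [← hK]
    exact Subgroup.index_map_equiv K (Subgroup.subgroupOfEquivOfLe hH)
  have key2 : G' = H := by
    have := congrArg (Subgroup.map (autSub Γ').subtype) key
    rwa [Subgroup.subgroupOf_map_subtype, Subgroup.subgroupOf_map_subtype, inf_eq_left.2 hG',
      inf_eq_left.2 hH] at this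
  exact ⟨e0.trans (MulEquiv.subgroupCongr key2)⟩


open Cfsg Cfsg.Agent.Lib.Helper27

/-- `autSub Γ` is the automorphism group. -/
def autSubEquiv {V : Type*} (Γ : SimpleGraph V) : autSub Γ ≃ (Γ ≃g Γ) where
  toFun σ := ⟨σ.1, fun {x y} => σ.2 x y⟩
  invFun τ := ⟨τ.toEquiv, fun _ _ => τ.map_adj_iff⟩
  left_inv _ := rfl
  right_inv _ := rfl

/-- transport of automorphisms. -/
def autCongr {V W : Type*} {Γ : SimpleGraph V} {Γ' : SimpleGraph W} (φ : Γ ≃g Γ') :
    (Γ ≃g Γ) ≃ (Γ' ≃g Γ') where
  toFun τ := (φ.symm.trans τ).trans φ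
  invFun τ := (φ.trans τ).trans φ.symm
  left_inv τ := by ext x; simp
  right_inv τ := by ext x; simp

theorem card_autSub {V : Type*} [Fintype V] [DecidableEq V] (Γ : SimpleGraph V) [DecidableRel Γ.Adj]
    (h : Γ.IsSRGWith 100 22 0 6) : Nat.card (autSub Γ) = 88704000 := by
  have hne : Nonempty V := by
    rw [← Fintype.card_pos_iff, h.card]; norm_num
  obtain ⟨v⟩ := hne
  let φ : Γ ≃g pointBlockGraph (blocks Γ v) :=
    ⟨Equiv.ofBijective (toPB Γ v) (toPB_bijective h v), fun {a b} => toPB_adj h v a b⟩
  rw [Nat.card_congr (autSubEquiv Γ), Nat.card_congr (autCongr φ)]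
  exact Cfsg.Agent.S1586.result (card_nbrT h v) (blocks_steiner h v)


open MulAction

section
variable {Ω : Type*} (G : Subgroup (Equiv.Perm Ω))

/-- the orbital of the pair `(p, q)`. -/
def orb (p q x y : Ω) : Prop := ∃ g : G, g • p = x ∧ g • q = y

variable {G}

theorem orb_smul {p q x y : Ω} (h : G) : orb G p q (h • x) (h • y) ↔ orb G p q x y := by
  constructor
  · rintro ⟨g, h1, h2⟩
    exact ⟨h⁻¹ * g, by rw [mul_smul, h1, inv_smul_smul], by rw [mul_smul, h2, inv_smul_smul]⟩
  · rintro ⟨g, rfl, rfl⟩
    exact ⟨h * g, mul_smul _ _ _, mul_smul _ _ _⟩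

theorem orb_base {a q y : Ω} : orb G a q a y ↔ y ∈ orbit (stabilizer G a) q := by
  constructor
  · rintro ⟨g, h1, h2⟩
    exact ⟨⟨g, h1⟩, h2⟩
  · rintro ⟨⟨g, h1⟩, h2⟩
    exact ⟨g, h1, h2⟩

theorem card_filter_smul [Fintype Ω] (P Q : Ω → Prop) [DecidablePred P] [DecidablePred Q] (g : G)
    (h : ∀ y, Q (g • y) ↔ P y) : (Finset.univ.filter Q).card = (Finset.univ.filter P).card := by
  symm
  apply Finset.card_equiv (MulAction.toPerm g)
  intro y
  simp only [Finset.mem_filter, Finset.mem_univ, true_and, MulAction.toPerm_apply]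
  exact (h y).symm

end

theorem exists_srg {Ω : Type*} [Fintype Ω] [DecidableEq Ω] (hΩ : Fintype.card Ω = 100)
    (G : Subgroup (Equiv.Perm Ω)) [MulAction.IsPretransitive G Ω] (a b c : Ω)
    (hb : (MulAction.orbit (MulAction.stabilizer G a) b).ncard = 22)
    (hc : (MulAction.orbit (MulAction.stabilizer G a) c).ncard = 77) :
    ∃ (Γ : SimpleGraph Ω) (_ : DecidableRel Γ.Adj) (l m : ℕ),
      Γ.IsSRGWith 100 22 l m ∧ G ≤ autSub Γ := by
  classical
  set S := stabilizer G a with hS
  -- the orbit of `a`
  have horba : ∀ q : Ω, a ∈ orbit S q → (orbit S q).ncard = 1 := by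
    intro q hq
    have h1 : orbit S q = orbit S a := (MulAction.orbit_eq_iff.2 hq).symm
    have h2 : orbit S a = {a} := by
      ext x
      constructor
      · rintro ⟨s, rfl⟩
        exact s.2
      · rintro rfl
        exact mem_orbit_self _
    rw [h1, h2, Set.ncard_singleton]
  have hab : a ∉ orbit S b := fun h => by rw [horba b h] at hb; omega
  have hac : a ∉ orbit S c := fun h => by rw [horba c h] at hc; omega
  have hbc : Disjoint (orbit S b) (orbit S c) := by
    rw [Set.disjoint_left]
    intro x hx1 hx2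
    have : orbit S b = orbit S c := by
      rw [← MulAction.orbit_eq_iff.2 hx1, ← MulAction.orbit_eq_iff.2 hx2]
    rw [this, hc] at hb
    omega
  have hF : ∀ x, x = a ∨ x ∈ orbit S b ∨ x ∈ orbit S c := by
    have h1 : (orbit S b ∪ orbit S c).ncard = 99 := by
      rw [Set.ncard_union_eq hbc, hb, hc]
    have h2 : (insert a (orbit S b ∪ orbit S c)).ncard = 100 := by
      rw [Set.ncard_insert_of_notMem (by simp [hab, hac]), h1]
    have h3 : insert a (orbit S b ∪ orbit S c) = Set.univ := by
      apply Set.eq_of_subset_of_ncard_le (Set.subset_univ _)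
      rw [h2, Set.ncard_univ, Nat.card_eq_fintype_card, hΩ]
    intro x
    have : x ∈ insert a (orbit S b ∪ orbit S c) := by rw [h3]; trivial
    simpa using this
  -- adjacency
  have hirr : ∀ x, ¬ orb G a b x x := by
    rintro x ⟨g, h1, h2⟩
    have : a = b := by
      have := h1.trans h2.symm
      exact smul_left_cancel g this
    apply hab
    rw [this]
    exact mem_orbit_self _
  have hout_a : (Finset.univ.filter (fun y => orb G a b a y)).card = 22 := by
    rw [← hb, ← Set.ncard_coe_finset]
    congr 1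
    ext y
    simp only [Finset.coe_filter, Finset.mem_univ, true_and, Set.mem_ofPred_eq]
    exact orb_base
  have hout : ∀ x, (Finset.univ.filter (fun y => orb G a b x y)).card = 22 := by
    intro x
    obtain ⟨g, rfl⟩ := MulAction.exists_smul_eq G a x
    rw [card_filter_smul (fun y => orb G a b a y) _ g (fun y => orb_smul g), hout_a]
  have hin : ∀ x, (Finset.univ.filter (fun y => orb G a b y x)).card =
      (Finset.univ.filter (fun y => orb G a b y a)).card := by
    intro x
    obtain ⟨g, rfl⟩ := MulAction.exists_smul_eq G a x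
    exact card_filter_smul (fun y => orb G a b y a) _ g (fun y => orb_smul g)
  have hin_a : (Finset.univ.filter (fun y => orb G a b y a)).card = 22 := by
    have h1 := Finset.sum_card_bipartiteAbove_eq_sum_card_bipartiteBelow
      (s := (Finset.univ : Finset Ω)) (t := (Finset.univ : Finset Ω)) (orb G a b)
    simp only [Finset.bipartiteAbove, Finset.bipartiteBelow, hout] at h1
    rw [Finset.sum_congr rfl (fun x _ => hin x)] at h1
    simp only [Finset.sum_const, Finset.card_univ, hΩ, smul_eq_mul] at h1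
    omega
  have hsub : Finset.univ.filter (fun y => orb G a b y a) ⊆
      Finset.univ.filter (fun y => orb G a b a y) := by
    intro x hx
    simp only [Finset.mem_filter, Finset.mem_univ, true_and] at hx ⊢
    rcases hF x with rfl | h | h
    · exact absurd hx (hirr _)
    · exact orb_base.2 h
    · exfalso
      have h1 : (orbit S c).ncard ≤ (Finset.univ.filter (fun y => orb G a b y a)).card := by
        rw [← Set.ncard_coe_finset]
        apply Set.ncard_le_ncard _ (Set.toFinite _)
        intro y hy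
        have hy' : y ∈ orbit S x := by
          rw [MulAction.orbit_eq_iff.2 h]; exact hy
        obtain ⟨s, rfl⟩ := hy'
        simp only [Finset.coe_filter, Finset.mem_univ, true_and, Set.mem_ofPred_eq]
        have := (orb_smul (p := a) (q := b) (x := x) (y := a) s.1).2 hx
        rwa [show (s.1 • a) = a from s.2] at this
      rw [hc, hin_a] at h1
      omega
  have heq := Finset.eq_of_subset_of_card_le hsub (by rw [hout_a, hin_a])
  have hsym_a : ∀ x, orb G a b x a ↔ orb G a b a x := by
    intro x
    have := Finset.ext_iff.1 heq x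
    simpa using this
  have hsym : ∀ x y, orb G a b x y → orb G a b y x := by
    intro x y h
    obtain ⟨g, rfl⟩ := MulAction.exists_smul_eq G a y
    have h1 : orb G a b (g • (g⁻¹ • x)) (g • a) := by rwa [smul_inv_smul]
    have h2 := (hsym_a _).1 ((orb_smul g).1 h1)
    have h3 := (orb_smul g).2 h2
    rwa [smul_inv_smul] at h3
  let Γ : SimpleGraph Ω :=
    { Adj := orb G a b
      symm := ⟨fun x y h => hsym x y h⟩
      loopless := ⟨fun x h => hirr x h⟩ }
  have hcn : ∀ v w, Fintype.card (Γ.commonNeighbors v w) =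
      (Finset.univ.filter (fun u => orb G a b v u ∧ orb G a b w u)).card := by
    intro v w
    apply Fintype.card_of_subtype
    intro x
    simp only [Finset.mem_filter, Finset.mem_univ, true_and, SimpleGraph.mem_commonNeighbors]
    exact Iff.rfl
  have hcn_smul : ∀ (g : G) (v w : Ω),
      (Finset.univ.filter (fun u => orb G a b (g • v) u ∧ orb G a b (g • w) u)).card =
      (Finset.univ.filter (fun u => orb G a b v u ∧ orb G a b w u)).card := by
    intro g v w
    exact card_filter_smul (fun u => orb G a b v u ∧ orb G a b w u) _ g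
      (fun y => by rw [orb_smul, orb_smul])
  refine ⟨Γ, Classical.decRel _, (Finset.univ.filter (fun u => orb G a b a u ∧ orb G a b b u)).card,
    (Finset.univ.filter (fun u => orb G a b a u ∧ orb G a b c u)).card, ⟨hΩ, ?_, ?_, ?_⟩, ?_⟩
  · intro v
    rw [← SimpleGraph.card_neighborFinset_eq_degree, SimpleGraph.neighborFinset_eq_filter]
    exact hout v
  · rintro v w ⟨g, rfl, rfl⟩
    rw [hcn, hcn_smul]
  · intro v w hne hvw
    obtain ⟨g, rfl⟩ := MulAction.exists_smul_eq G a v
    have hw : g⁻¹ • w ∈ orbit S c := by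
      rcases hF (g⁻¹ • w) with h | h | h
      · exact absurd (by rw [← h, smul_inv_smul]) hne
      · exfalso
        apply hvw
        have := (orb_smul g).2 (orb_base.2 h)
        rwa [smul_inv_smul] at this
      · exact h
    obtain ⟨s, hs⟩ := hw
    have e1 : (g * s.1) • a = g • a := by rw [mul_smul, show s.1 • a = a from s.2]
    have e2 : (g * s.1) • c = w := by
      rw [mul_smul, show s.1 • c = g⁻¹ • w from hs, smul_inv_smul]
    rw [hcn, ← e1, ← e2, hcn_smul]
  · intro g hg x y
    exact orb_smul (⟨g, hg⟩ : G)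

end Cfsg.Agent.Lib.Helper7.HSR
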