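import Cfsg.Agent.Lib.Helper7.HSRDefs

/-!
# S1666, piece P2: a strongly regular graph with `n = 100`, `k = 22` has `λ = 0`, `μ = 6`
(the trace of an idempotent real matrix is a natural number)
-/

set_option autoImplicit false

namespace Cfsg.Agent.Lib.Helper7.HSR

theorem trace_idem_nat {V : Type*} [Fintype V] [DecidableEq V] (E : Matrix V V ℝ) (hE : E * E = E) :
    ∃ n : ℕ, E.trace = n := by
  have h1 : IsIdempotentElem (Matrix.toLin' E) := by
    unfold IsIdempotentElem
    rw [Module.End.mul_eq_comp, ← Matrix.toLin'_mul, hE]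
  have h2 := LinearMap.IsProj.trace (LinearMap.IsIdempotentElem.isProj_range _ h1)
  refine ⟨Module.finrank ℝ ↥(Matrix.toLin' E).range, ?_⟩
  rw [← h2, Matrix.trace_toLin'_eq]

section
variable {V : Type*} [Fintype V] [DecidableEq V] (Γ : SimpleGraph V) [DecidableRel Γ.Adj]

/-- the all ones matrix. -/
def allOne (V : Type*) : Matrix V V ℝ := Matrix.of fun _ _ => (1 : ℝ)

theorem mat_facts {l m : ℕ} (h : Γ.IsSRGWith 100 22 l m) :
    allOne V * allOne V = (100 : ℝ) • allOne V ∧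
    Γ.adjMatrix ℝ * allOne V = (22 : ℝ) • allOne V ∧
    allOne V * Γ.adjMatrix ℝ = (22 : ℝ) • allOne V ∧
    Γ.adjMatrix ℝ * Γ.adjMatrix ℝ = (22 : ℝ) • (1 : Matrix V V ℝ) + (l : ℝ) • Γ.adjMatrix ℝ +
      (m : ℝ) • (allOne V - 1 - Γ.adjMatrix ℝ) := by
  set A : Matrix V V ℝ := Γ.adjMatrix ℝ with hA
  set J : Matrix V V ℝ := allOne V with hJ
  have hcard : (Fintype.card V : ℝ) = 100 := by rw [h.card]; norm_num
  have hJJ : J * J = (100 : ℝ) • J := by
    ext i j
    simp [hJ, allOne, Matrix.mul_apply, hcard]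
  have hAJ : A * J = (22 : ℝ) • J := by
    ext i j
    have := SimpleGraph.adjMatrix_mulVec_const_apply_of_regular (G := Γ) (a := (1:ℝ)) h.regular (v := i)
    simp only [Matrix.mulVec, dotProduct, Function.const_apply, mul_one] at this
    simp only [hJ, allOne, hA, Matrix.mul_apply, Matrix.of_apply, mul_one, Matrix.smul_apply,
      smul_eq_mul]
    rw [this]; norm_num
  have hJA : J * A = (22 : ℝ) • J := by
    have := congrArg Matrix.transpose hAJ
    rw [Matrix.transpose_mul, Matrix.transpose_smul] at this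
    have hJt : J.transpose = J := by ext i j; simp [hJ, allOne]
    have hAt : A.transpose = A := by rw [hA, SimpleGraph.transpose_adjMatrix]
    rwa [hJt, hAt] at this
  have hc : Γᶜ.adjMatrix ℝ = J - 1 - A := by
    ext i j
    simp only [hJ, allOne, hA, SimpleGraph.adjMatrix_apply, SimpleGraph.compl_adj, Matrix.sub_apply,
      Matrix.of_apply, Matrix.one_apply]
    by_cases hij : i = j
    · subst hij; simp
    · by_cases ha : Γ.Adj i j <;> simp [hij, ha]
  have hAA : A * A = (22 : ℝ) • (1 : Matrix V V ℝ) + (l : ℝ) • A + (m : ℝ) • (J - 1 - A) := by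
    have := h.matrix_eq (α := ℝ)
    rw [hc, pow_two, ← hA] at this
    rw [this]
    simp only [← Nat.cast_smul_eq_nsmul ℝ]
    norm_num
  exact ⟨hJJ, hAJ, hJA, hAA⟩

theorem key {l m : ℕ} (h : Γ.IsSRGWith 100 22 l m) (α β γ : ℝ)
    (h1 : α ^ 2 * (22 - m) + β ^ 2 = β) (h2 : α ^ 2 * (l - m) + 2 * α * β = α)
    (h3 : α ^ 2 * m + 100 * γ ^ 2 + 44 * α * γ + 2 * β * γ = γ) :
    ∃ n : ℕ, 100 * β + 100 * γ = n := by
  obtain ⟨hJJ, hAJ, hJA, hAA⟩ := mat_facts Γ h
  set A : Matrix V V ℝ := Γ.adjMatrix ℝ with hA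
  set J : Matrix V V ℝ := allOne V with hJ
  have hcard : (Fintype.card V : ℝ) = 100 := by rw [h.card]; norm_num
  have htA : A.trace = 0 := SimpleGraph.trace_adjMatrix ℝ Γ
  have htJ : J.trace = 100 := by simp [hJ, allOne, Matrix.trace, hcard]
  have ht1 : (1 : Matrix V V ℝ).trace = 100 := by rw [Matrix.trace_one, hcard]
  obtain ⟨n, hn⟩ := trace_idem_nat (α • A + β • (1 : Matrix V V ℝ) + γ • J) (by
    simp only [add_mul, mul_add, smul_mul_assoc, mul_smul_comm, mul_one, one_mul, hAA, hAJ, hJA, hJJ]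
    linear_combination (norm := module) h1 • (1 : Matrix V V ℝ) + h2 • A + h3 • J)
  refine ⟨n, ?_⟩
  rw [← hn]
  simp only [Matrix.trace_add, Matrix.trace_smul, htA, htJ, ht1, smul_eq_mul]
  ring

theorem param {l m : ℕ} (h : Γ.IsSRGWith 100 22 l m) : 2 * l + 7 * m = 42 := by
  obtain ⟨hJJ, hAJ, hJA, hAA⟩ := mat_facts Γ h
  set A : Matrix V V ℝ := Γ.adjMatrix ℝ with hA
  set J : Matrix V V ℝ := allOne V with hJ
  have e1 : A * A * J = (484 : ℝ) • J := by
    rw [mul_assoc, hAJ, mul_smul_comm, hAJ, smul_smul]; norm_num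
  have e2 : A * A * J = ((22 : ℝ) + 22 * l + 77 * m) • J := by
    rw [hAA]
    simp only [add_mul, sub_mul, smul_mul_assoc, one_mul, hAJ, hJJ]
    module
  have hne : Nonempty V := by
    rw [← Fintype.card_pos_iff, h.card]; norm_num
  obtain ⟨v⟩ := hne
  have e3 := congrFun (congrFun (e1.symm.trans e2) v) v
  simp only [hJ, allOne, Matrix.smul_apply, Matrix.of_apply, smul_eq_mul, mul_one] at e3
  have e4 : (2 * l + 7 * m : ℝ) = 42 := by linarith
  exact_mod_cast e4

theorem no_srg_21_0 : ¬ Γ.IsSRGWith 100 22 21 0 := by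
  intro h
  obtain ⟨n, hn⟩ := key Γ h (1 / 23) (1 / 23) 0 (by norm_num) (by norm_num) (by norm_num)
  have e : (23 * n : ℝ) = 100 := by linarith
  have e' : 23 * n = 100 := by exact_mod_cast e
  omega

theorem no_srg_7_4 : ¬ Γ.IsSRGWith 100 22 7 4 := by
  intro h
  obtain ⟨n, hn⟩ := key Γ h (1 / 9) (1 / 3) (-1 / 36) (by norm_num) (by norm_num) (by norm_num)
  have e : (9 * n : ℝ) = 275 := by linarith
  have e' : 9 * n = 275 := by exact_mod_cast e
  omega

theorem no_srg_14_2 : ¬ Γ.IsSRGWith 100 22 14 2 := by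
  intro h
  have hw : (Real.sqrt 14) ^ 2 = 14 := Real.sq_sqrt (by norm_num)
  set w := Real.sqrt 14 with hwdef
  obtain ⟨n, hn⟩ := key Γ h (w / 56) (1 / 2 - 3 * w / 28) (-(4 * w + 7) / 1400)
    (by push_cast; linear_combination (1 / 56 : ℝ) * hw)
    (by push_cast; ring)
    (by push_cast; linear_combination (-1 / 5600 : ℝ) * hw)
  have e1 : 22 * w = 99 - 2 * n := by linarith
  have e2 : ((99 : ℝ) - 2 * n) ^ 2 = 6776 := by rw [← e1]; linear_combination (484 : ℝ) * hw
  have e3 : ((99 : ℤ) - 2 * n) ^ 2 = 6776 := by exact_mod_cast e2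
  have e4 : 4 * ((n : ℤ) ^ 2 - 99 * n) = -3025 := by linarith
  omega

theorem srg_params {l m : ℕ} (h : Γ.IsSRGWith 100 22 l m) : l = 0 ∧ m = 6 := by
  have hp := param Γ h
  have hm : m = 0 ∨ m = 2 ∨ m = 4 ∨ m = 6 := by omega
  rcases hm with rfl | rfl | rfl | rfl
  · have : l = 21 := by omega
    subst this
    exact absurd h (no_srg_21_0 Γ)
  · have : l = 14 := by omega
    subst this
    exact absurd h (no_srg_14_2 Γ)
  · have : l = 7 := by omega
    subst this
    exact absurd h (no_srg_7_4 Γ)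
  · exact ⟨by omega, rfl⟩

end

end Cfsg.Agent.Lib.Helper7.HSR
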