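import Cfsg.Agent.Lib.Helper7.SharpSimple
import Cfsg.Prelude.Def_Sporadic_a

set_option autoImplicit false
set_option linter.style.haveILetI false

namespace Cfsg.Agent.Lib.Helper7

open Cfsg Subgroup MulAction
open scoped Pointwise

/-- the action of the stabiliser of a set `d` on the points of `d` -/
@[reducible] def dodAction (d : Finset GolayPt) : MulAction (stabilizer M24 d) {p : GolayPt // p ∈ d} where
  smul g x := ⟨(g : M24) • x.1, by
    have h : (g : M24) • d = d := g.2
    have h2 : (g : M24) • x.1 ∈ (g : M24) • d := Finset.smul_mem_smul_finset x.2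
    rwa [h] at h2⟩
  one_smul x := Subtype.ext (one_smul _ _)
  mul_smul g h x := Subtype.ext (mul_smul (g : M24) (h : M24) x.1)

section
variable (d : Finset GolayPt) (hd : d ∈ dodecads)
  (h384 : ∀ (x y : Fin 5 ↪ GolayPt), (∀ i, x i ∈ d) → (∀ i, y i ∈ d) →
    ∃! g : stabilizer M24 d, ∀ i, ((g : M24) : Equiv.Perm GolayPt) (x i) = y i)

include hd in
theorem card_dod : Nat.card {p : GolayPt // p ∈ d} = 12 := by
  rw [Nat.card_eq_fintype_card, Fintype.card_coe]
  exact hd.2

include h384 in
theorem dod_pretransitive :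
    letI := dodAction d
    IsMultiplyPretransitive (stabilizer M24 d) {p : GolayPt // p ∈ d} 5 := by
  letI := dodAction d
  constructor
  intro x y
  obtain ⟨g, hg, _⟩ := h384 (x.trans (Function.Embedding.subtype _)) (y.trans (Function.Embedding.subtype _))
    (fun i => (x i).2) (fun i => (y i).2)
  refine ⟨g, ?_⟩
  apply DFunLike.ext
  intro i
  apply Subtype.ext
  exact hg i

include h384 in
theorem dod_sharp :
    letI := dodAction d
    ∀ x : Fin 5 ↪ {p : GolayPt // p ∈ d}, stabilizer (stabilizer M24 d) x = ⊥ := by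
  letI := dodAction d
  intro x
  rw [eq_bot_iff]
  intro g hg
  rw [mem_bot]
  obtain ⟨g0, _, huniq⟩ := h384 (x.trans (Function.Embedding.subtype _)) (x.trans (Function.Embedding.subtype _))
    (fun i => (x i).2) (fun i => (x i).2)
  have h1 : g = g0 := by
    apply huniq
    intro i
    have := congrArg (fun f : Fin 5 ↪ {p : GolayPt // p ∈ d} => (f i).1) (mem_stabilizer_iff.1 hg)
    exact this
  have h2 : (1 : stabilizer M24 d) = g0 := by
    apply huniq
    intro i
    rfl
  rw [h1, ← h2]

include hd h384 in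
theorem simple_M12_aux : IsSimpleGroup (stabilizer M24 d) ∧ Nat.card (stabilizer M24 d) = 95040 := by
  letI := dodAction d
  haveI := dod_pretransitive d h384
  exact sharp5_deg12 (card_dod d hd) (dod_sharp d h384)

/-- the stabiliser of a point of `d` in the stabiliser of `d` -/
def stabDodEquiv (p : GolayPt) (hp : p ∈ d) :
    letI := dodAction d
    stabilizer (stabilizer M24 d) (⟨p, hp⟩ : {p : GolayPt // p ∈ d}) ≃*
      ↥(stabilizer M24 d ⊓ stabilizer M24 p) :=
  letI := dodAction d
  { toFun := fun k => ⟨k.1.1, ⟨k.1.2, congrArg Subtype.val k.2⟩⟩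
    invFun := fun k => ⟨⟨k.1, k.2.1⟩, Subtype.ext k.2.2⟩
    left_inv := fun _ => rfl
    right_inv := fun _ => rfl
    map_mul' := fun _ _ => rfl }

include hd h384 in
theorem simple_M11_aux (p : GolayPt) (hp : p ∈ d) :
    IsSimpleGroup ↥(stabilizer M24 d ⊓ stabilizer M24 p) ∧
      Nat.card ↥(stabilizer M24 d ⊓ stabilizer M24 p) = 7920 := by
  letI := dodAction d
  haveI := dod_pretransitive d h384
  haveI hfin : Finite {p : GolayPt // p ∈ d} := inferInstance
  have h2t : IsMultiplyPretransitive (stabilizer M24 d) {p : GolayPt // p ∈ d} 2 :=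
    isMultiplyPretransitive_of_le (n := 5) (by norm_num) (by rw [card_dod d hd]; norm_num)
  have h1t : IsPretransitive (stabilizer M24 d) {p : GolayPt // p ∈ d} :=
    isPretransitive_of_is_two_pretransitive
  set p' : {p : GolayPt // p ∈ d} := ⟨p, hp⟩
  have h4 : IsMultiplyPretransitive (stabilizer (stabilizer M24 d) p')
      (SubMulAction.ofStabilizer (stabilizer M24 d) p') 4 :=
    SubMulAction.ofStabilizer.isMultiplyPretransitive.1 inferInstance
  have hs := sharp4_deg11 (G := stabilizer (stabilizer M24 d) p')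
    (X := SubMulAction.ofStabilizer (stabilizer M24 d) p')
    (by rw [SubMulAction.nat_card_ofStabilizer_eq, card_dod d hd])
    (sharp_ofStabilizer (dod_sharp d h384) p')
  haveI := hs.1
  refine ⟨(stabDodEquiv d p hp).symm.isSimpleGroup, ?_⟩
  rw [← hs.2]
  exact Nat.card_congr (stabDodEquiv d p hp).symm.toEquiv

end

end Cfsg.Agent.Lib.Helper7
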