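import Cfsg.Agent.Lib.Helper7.Stem8

/-!
# The Schur multiplier of `M12` has order at most two
-/

set_option autoImplicit false
set_option linter.style.haveILetI false

namespace Cfsg.Agent.Lib.Helper7

open Cfsg Cfsg.Agent.Lib.Helper27 Subgroup
open scoped Pointwise commutatorElement

universe u v

/-- certificate that a coded permutation is a commutator of two elements of `fixer L` -/
theorem permOf_mem_commutator {L : List ℕ} {c a b a' b' : ℕ} (ha : checkFix L a = true)
    (hb : checkFix L b = true) (hv : allList validCode [c, a, b, a', b'] = true)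
    (haa : wordEqB [a, a'] [] = true) (hbb : wordEqB [b, b'] [] = true)
    (hc : wordEqB [c] [a, b, a', b'] = true) : permOf c ∈ ⁅fixer L, fixer L⁆ := by
  have hv' := hv
  rw [allList_iff] at hv'
  have vc := hv' c (by simp)
  have va := hv' a (by simp)
  have vb := hv' b (by simp)
  have va' := hv' a' (by simp)
  have vb' := hv' b' (by simp)
  have e1 : permOf a * permOf a' = 1 := by
    simpa using word_eq (w1 := [a, a']) (w2 := [])
      (by rw [allList_iff]; intro x hx; apply hv'; simp at hx ⊢; tauto) (by rw [allList_iff]; simp) haa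
  have e2 : permOf b * permOf b' = 1 := by
    simpa using word_eq (w1 := [b, b']) (w2 := [])
      (by rw [allList_iff]; intro x hx; apply hv'; simp at hx ⊢; tauto) (by rw [allList_iff]; simp) hbb
  have e3 : permOf c = permOf a * (permOf b * (permOf a' * permOf b')) := by
    simpa using word_eq (w1 := [c]) (w2 := [a, b, a', b'])
      (by rw [allList_iff]; intro x hx; apply hv'; simp at hx ⊢; tauto)
      (by rw [allList_iff]; intro x hx; apply hv'; simp at hx ⊢; tauto) hc
  have e1' : permOf a' = (permOf a)⁻¹ := (inv_eq_of_mul_eq_one_right e1).symm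
  have e2' : permOf b' = (permOf b)⁻¹ := (inv_eq_of_mul_eq_one_right e2).symm
  have e4 : permOf c = ⁅permOf a, permOf b⁆ := by
    rw [e3, e1', e2', commutatorElement_def]; group
  rw [e4]
  exact Subgroup.commutator_mem_commutator (permOf_mem_fixer ha) (permOf_mem_fixer hb)

theorem commutator_eq_top_of_self {P : Type v} [Group P] (D : Subgroup P) (h : D ≤ ⁅D, D⁆) :
    commutator D = ⊤ := by
  rw [eq_top_iff]
  rintro ⟨x, hx⟩ _
  have h1 := h hx
  rw [← map_subtype_commutator] at h1
  obtain ⟨y, hy, hyx⟩ := h1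
  have : y = ⟨x, hx⟩ := Subtype.ext hyx
  rw [← this]
  exact hy

theorem commutator_mono' {P : Type v} [Group P] {A B : Subgroup P} (h : A ≤ B) :
    ⁅A, A⁆ ≤ ⁅B, B⁆ := Subgroup.commutator_mono h h

def k1c : ℕ := 735143200592876042984123318866036992
def k1a : ℕ := 923646649205803240011885191366254784
def k1b : ℕ := 235544114366210419389519085980681312
def k1a' : ℕ := 819516429395008255625773498532927616
def k1b' : ℕ := 311146904212481047394249639530108992
def k2c : ℕ := 927661210990061817562631926912132128
def k2a : ℕ := 720652377714425869219673820019048480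
def k2b : ℕ := 648045425277649902928402440926824480
def k2a' : ℕ := 715813755372144609314002771130196000
def k2b' : ℕ := 232783362388564428185213343297439776
def k3c : ℕ := 735487641475210312359759341757206560
def k3a : ℕ := 608197620903637906583700597402542112
def k3b : ℕ := 936749640237651056388410250241329184
def k3a' : ℕ := 226299138968566733998334524837377056
def k3b' : ℕ := 321462845610874996929659601638820896
def k4c : ℕ := 984769902586367543974814854303385632
def k4a : ℕ := 968592107822464625347207413275954208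
def k4b : ℕ := 970531819526550031117983620406741024
def k4a' : ℕ := 978043748500345254443924323539425312
def k4b' : ℕ := 970531819526550031117983620406741024
def k5c : ℕ := 487655643029606470073469406179395616
def k5a : ℕ := 430538726441450910235242812605341728
def k5b : ℕ := 735586561504953295002855977750269984
def k5a' : ℕ := 466880323101969894984886370990037024
def k5b' : ℕ := 486338753864131570254606920598427680
def k6c : ℕ := 719923664328491199848526586197411872
def k6a : ℕ := 897428461058281338735267456929505312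
def k6b : ℕ := 897384242885608813255818609277644832
def k6a' : ℕ := 601963788839925190863486479945114656
def k6b' : ℕ := 226807660984094208394233558229698592
def k7c : ℕ := 232652365823391711183829569059784736
def k7a : ℕ := 434496813259532450667896152608847232
def k7b : ℕ := 429972760062492631272682768437449216
def k7a' : ℕ := 886875677059500825496163184119224576
def k7b' : ℕ := 232786887921777364437210283754235008
def cT12 : ℕ := 485707480960449247535967571696289793
def cS12 : ℕ := 944399194160754855699880035276293184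

theorem k1_mem : permOf k1c ∈ ⁅fixer D1, fixer D1⁆ :=
  permOf_mem_commutator (a := k1a) (b := k1b) (a' := k1a') (b' := k1b') (by decide +kernel)
    (by decide +kernel) (by decide +kernel) (by decide +kernel) (by decide +kernel)
    (by decide +kernel)
theorem k2_mem : permOf k2c ∈ ⁅fixer D2, fixer D2⁆ :=
  permOf_mem_commutator (a := k2a) (b := k2b) (a' := k2a') (b' := k2b') (by decide +kernel)
    (by decide +kernel) (by decide +kernel) (by decide +kernel) (by decide +kernel)
    (by decide +kernel)
theorem k3_mem : permOf k3c ∈ ⁅fixer D2, fixer D2⁆ :=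
  permOf_mem_commutator (a := k3a) (b := k3b) (a' := k3a') (b' := k3b') (by decide +kernel)
    (by decide +kernel) (by decide +kernel) (by decide +kernel) (by decide +kernel)
    (by decide +kernel)
theorem k4_mem : permOf k4c ∈ ⁅fixer D2, fixer D2⁆ :=
  permOf_mem_commutator (a := k4a) (b := k4b) (a' := k4a') (b' := k4b') (by decide +kernel)
    (by decide +kernel) (by decide +kernel) (by decide +kernel) (by decide +kernel)
    (by decide +kernel)
theorem k5_mem : permOf k5c ∈ ⁅fixer D2, fixer D2⁆ :=
  permOf_mem_commutator (a := k5a) (b := k5b) (a' := k5a') (b' := k5b') (by decide +kernel)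
    (by decide +kernel) (by decide +kernel) (by decide +kernel) (by decide +kernel)
    (by decide +kernel)
theorem k6_mem : permOf k6c ∈ ⁅fixer D2, fixer D2⁆ :=
  permOf_mem_commutator (a := k6a) (b := k6b) (a' := k6a') (b' := k6b') (by decide +kernel)
    (by decide +kernel) (by decide +kernel) (by decide +kernel) (by decide +kernel)
    (by decide +kernel)
theorem k7_mem : permOf k7c ∈ ⁅fixer D1, fixer D1⁆ :=
  permOf_mem_commutator (a := k7a) (b := k7b) (a' := k7a') (b' := k7b') (by decide +kernel)
    (by decide +kernel) (by decide +kernel) (by decide +kernel) (by decide +kernel)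
    (by decide +kernel)

/-- a subgroup containing the six strong generators contains `M10` -/
theorem fixer_D2_le (H : Subgroup (Equiv.Perm GolayPt)) (h2 : permOf k2c ∈ H)
    (h3 : permOf k3c ∈ H) (h4 : permOf k4c ∈ H) (h5 : permOf k5c ∈ H) (h6 : permOf k6c ∈ H)
    (h7 : permOf k7c ∈ H) : fixer D2 ≤ H := by
  have l5 : fixer D5 ≤ H := by rw [fixer_D5]; exact bot_le
  have l4 : fixer D4 ≤ H := by
    refine fixer_le_of_gens H D4 [k6c, k7c] (b := 4) (by norm_num) 4 340816 dinv4
      (by decide +kernel) ?_ (by decide +kernel) (by decide +kernel) l5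
    intro c hc
    simp only [List.mem_cons, List.not_mem_nil, or_false] at hc
    rcases hc with rfl | rfl
    · exact h6
    · exact h7
  have l3 : fixer D3 ≤ H := by
    refine fixer_le_of_gens H D3 [k4c, k5c] (b := 3) (by norm_num) 6 340824 dinv3
      (by decide +kernel) ?_ (by decide +kernel) (by decide +kernel) l4
    intro c hc
    simp only [List.mem_cons, List.not_mem_nil, or_false] at hc
    rcases hc with rfl | rfl
    · exact h4
    · exact h5
  refine fixer_le_of_gens H D2 [k2c, k3c] (b := 2) (by norm_num) 6 340828 dinv2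
    (by decide +kernel) ?_ (by decide +kernel) (by decide +kernel) l3
  intro c hc
  simp only [List.mem_cons, List.not_mem_nil, or_false] at hc
  rcases hc with rfl | rfl
  · exact h2
  · exact h3

theorem perfect_fixer_D1 : commutator (fixer D1) = ⊤ := by
  apply commutator_eq_top_of_self
  have hle : ⁅fixer D2, fixer D2⁆ ≤ ⁅fixer D1, fixer D1⁆ :=
    commutator_mono' (fixer_cons_le D1 (2 ^ 1))
  have l2 : fixer D2 ≤ ⁅fixer D1, fixer D1⁆ :=
    fixer_D2_le _ (hle k2_mem) (hle k3_mem) (hle k4_mem) (hle k5_mem) (hle k6_mem) k7_mem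
  refine fixer_le_of_gens _ D1 [k1c] (b := 1) (by norm_num) 11 340830 dinv1
    (by decide +kernel) ?_ (by decide +kernel) (by decide +kernel) l2
  intro c hc
  simp only [List.mem_cons, List.not_mem_nil, or_false] at hc
  subst hc
  exact k1_mem

theorem conj_mem_commutator_self {P : Type v} [Group P] (D : Subgroup P) {x : P} (hx : x ∈ D) :
    ∀ n ∈ ⁅D, D⁆, x * n * x⁻¹ ∈ ⁅D, D⁆ := by
  have : ⁅D, D⁆ ≤ (⁅D, D⁆).comap (MulAut.conj x).toMonoidHom := by
    rw [Subgroup.commutator_le]
    intro a ha b hb
    rw [mem_comap]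
    show x * ⁅a, b⁆ * x⁻¹ ∈ ⁅D, D⁆
    have e1 : x * ⁅a, b⁆ * x⁻¹ = ⁅x * a * x⁻¹, x * b * x⁻¹⁆ := by
      simp only [commutatorElement_def]; group
    rw [e1]
    exact Subgroup.commutator_mem_commutator (D.mul_mem (D.mul_mem hx ha) (D.inv_mem hx))
      (D.mul_mem (D.mul_mem hx hb) (D.inv_mem hx))
  exact fun n hn => this hn

theorem k7_mem_D2 : permOf k7c ∈ fixer D2 := permOf_mem_fixer (by decide +kernel)

theorem k7_sq : permOf k7c * permOf k7c ∈ ⁅fixer D2, fixer D2⁆ := by
  have : permOf k7c * permOf k7c = permOf k6c * permOf k6c := by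
    simpa using word_eq (w1 := [k7c, k7c]) (w2 := [k6c, k6c]) (by decide +kernel)
      (by decide +kernel) (by decide +kernel)
  rw [this]
  exact Subgroup.mul_mem _ k6_mem k6_mem

/-- the derived subgroup of `M10` has index at most two -/
theorem fixer_D2_cases : ∀ d ∈ fixer D2,
    d ∈ ⁅fixer D2, fixer D2⁆ ∨ (permOf k7c)⁻¹ * d ∈ ⁅fixer D2, fixer D2⁆ := by
  have h := fixer_D2_le (dbl ⁅fixer D2, fixer D2⁆ (permOf k7c) k7_sq
    (conj_mem_commutator_self _ k7_mem_D2)) (le_dbl _ _ _ _ k2_mem) (le_dbl _ _ _ _ k3_mem)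
    (le_dbl _ _ _ _ k4_mem) (le_dbl _ _ _ _ k5_mem) (le_dbl _ _ _ _ k6_mem)
    (self_mem_dbl _ _ _ _)
  exact fun d hd => h hd

theorem multiplier_fixer_D0_le {Γ : Type} [Group Γ] [Finite Γ] (σ : Γ →* fixer D0)
    (hσ : Cfsg.IsStemExtension σ) : ∃ κ : Γ, κ * κ = 1 ∧ ∀ z ∈ σ.ker, z = 1 ∨ z = κ := by
  set τ : Γ →* Equiv.Perm GolayPt := (fixer D0).subtype.comp σ with hτ
  have hker : τ.ker = σ.ker := by
    ext x
    rw [MonoidHom.mem_ker, MonoidHom.mem_ker, hτ, MonoidHom.comp_apply]
    exact ⟨fun h => Subtype.ext h, fun h => by rw [h]; rfl⟩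
  have hτM : ∀ x, τ x ∈ fixer D0 := fun x => (σ x).2
  have hτs : ∀ g ∈ fixer D0, ∃ x, τ x = g := by
    intro g hg
    obtain ⟨x, hx⟩ := hσ.1 ⟨g, hg⟩
    exact ⟨x, by rw [hτ, MonoidHom.comp_apply, hx]; rfl⟩
  rw [← hker]
  have vS : validCode cS12 = true := by decide +kernel
  have vT : validCode cT12 = true := by decide +kernel
  have hTM : permOf cT12 ∈ fixer D0 := permOf_mem_fixer (by decide +kernel)
  have hSH : permOf cS12 ∈ fixer D1 := permOf_mem_fixer (by decide +kernel)
  have t0 : permOf cT12 (pt 0) = pt 1 := apply_code vT (by norm_num) (by decide +kernel)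
  have t1 : permOf cT12 (pt 1) = pt 0 := apply_code vT (by norm_num) (by decide +kernel)
  have s1 : permOf cS12 (pt 1) = pt 2 := apply_code vS (by norm_num) (by decide +kernel)
  have htt : permOf cT12 * permOf cT12 = 1 := by
    simpa using word_eq (w1 := [cT12, cT12]) (w2 := []) (by decide +kernel) (by decide +kernel)
      (by decide +kernel)
  have et : (permOf cT12)⁻¹ = permOf cT12 := inv_eq_of_mul_eq_one_right htt
  have memD1 : ∀ g ∈ fixer D0, g (pt 0) = pt 0 → g ∈ fixer D1 := by
    intro g hg h
    have e : fixer D1 = fixer (2 ^ 0 :: D0) := rfl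
    rw [e, mem_fixer_cons]
    exact ⟨hg, (smul_unmask_two_pow (by norm_num) g).2 h⟩
  have memD2 : ∀ g ∈ fixer D0, g (pt 0) = pt 0 → g (pt 1) = pt 1 → g ∈ fixer D2 := by
    intro g hg h h'
    have e : fixer D2 = fixer (2 ^ 1 :: D1) := rfl
    rw [e, mem_fixer_cons]
    exact ⟨memD1 g hg h, (smul_unmask_two_pow (by norm_num) g).2 h'⟩
  have hD10 : fixer D1 ≤ fixer D0 := fixer_cons_le D0 (2 ^ 0)
  have hD21 : fixer D2 ≤ fixer D1 := fixer_cons_le D1 (2 ^ 1)
  apply ker_le_two_of_two_transitive τ (hker ▸ hσ.2.1) (hker ▸ hσ.2.2) (fixer D1) (fixer D2)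
    (permOf cS12) (permOf cT12)
  · -- t ∉ H
    intro h
    have := fixer_fix h (i := 0) (by norm_num) (by simp [D1])
    rw [t0] at this
    revert this
    decide +kernel
  · -- hgen
    intro x
    by_cases h : τ x (pt 0) = pt 0
    · exact Or.inl (memD1 _ (hτM x) h)
    · right
      have hq : τ x (pt 0) ∈ unmask 340830 := by
        have h1 : τ x (pt 0) ∈ unmask 340831 := dinv0.apply_mem (by decide +kernel) (hτM x)
        have : ∀ q : GolayPt, q ∈ unmask 340831 → q ≠ pt 0 → q ∈ unmask 340830 := by
          decide +kernel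
        exact this _ h1 h
      obtain ⟨a, ha, haq⟩ := dtrans1 _ hq
      refine ⟨a, ha, (a * permOf cT12)⁻¹ * τ x, ?_, by group⟩
      apply memD1 _ ((fixer D0).mul_mem ((fixer D0).inv_mem ((fixer D0).mul_mem (hD10 ha) hTM))
        (hτM x))
      rw [Equiv.Perm.mul_apply, Equiv.Perm.inv_eq_iff_eq, Equiv.Perm.mul_apply, t0, haq]
  · -- hHD
    intro h hh
    have h0 := fixer_fix hh (i := 0) (by norm_num) (by simp [D1])
    by_cases h1 : h (pt 1) = pt 1
    · exact Or.inl (memD2 _ (hD10 hh) h0 h1)
    · right
      have hq : h (pt 1) ∈ unmask 340828 := by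
        have h2 : h (pt 1) ∈ unmask 340830 := dinv1.apply_mem (by decide +kernel) hh
        have : ∀ q : GolayPt, q ∈ unmask 340830 → q ≠ pt 1 → q ∈ unmask 340828 := by
          decide +kernel
        exact this _ h2 h1
      obtain ⟨a, ha, haq⟩ := dtrans2 _ hq
      have a0 := fixer_fix ha (i := 0) (by norm_num) (by simp [D2])
      have s0 := fixer_fix hSH (i := 0) (by norm_num) (by simp [D1])
      refine ⟨a, ha, (a * permOf cS12)⁻¹ * h, ?_, by group⟩
      apply memD2 _ ((fixer D0).mul_mem ((fixer D0).inv_mem ((fixer D0).mul_mem (hD10 (hD21 ha))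
        (hD10 hSH))) (hD10 hh))
      · rw [Equiv.Perm.mul_apply, Equiv.Perm.inv_eq_iff_eq, Equiv.Perm.mul_apply, h0, s0, a0]
      · rw [Equiv.Perm.mul_apply, Equiv.Perm.inv_eq_iff_eq, Equiv.Perm.mul_apply, s1, haq]
  · exact hD21
  · exact fun h hh => hτs h (hD10 hh)
  · exact hτs _ hTM
  · exact multiplier_fixer_D1
  · exact perfect_fixer_D1
  · exact k7_mem_D2
  · exact fixer_D2_cases
  · exact hSH
  · simpa using word_eq (w1 := [cS12, cS12]) (w2 := []) (by decide +kernel) (by decide +kernel)
      (by decide +kernel)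
  · exact htt
  · simpa [pow_succ, mul_assoc] using word_eq (w1 := [cT12, cS12, cT12, cS12, cT12, cS12]) (w2 := [])
      (by decide +kernel) (by decide +kernel) (by decide +kernel)
  · intro d hd
    have d0 := fixer_fix hd (i := 0) (by norm_num) (by simp [D2])
    have d1 := fixer_fix hd (i := 1) (by norm_num) (by simp [D2])
    rw [et]
    apply memD2 _ ((fixer D0).mul_mem ((fixer D0).mul_mem hTM (hD10 (hD21 hd))) hTM)
    · rw [Equiv.Perm.mul_apply, Equiv.Perm.mul_apply, t0, d1, t1]
    · rw [Equiv.Perm.mul_apply, Equiv.Perm.mul_apply, t1, d0, t0]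

end Cfsg.Agent.Lib.Helper7
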