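import Cfsg.Agent.Lib.Helper7.MultM12a
import Cfsg.Agent.Lib.Helper35.Stem

/-!
# The Schur multiplier of `M12` is cyclic of order two

The double cover is realised as the group of signed permutations of the twelve points of the
dodecad preserving the rows (up to sign) of a Hadamard matrix of order twelve.
-/

set_option autoImplicit false
set_option linter.style.haveILetI false

namespace Cfsg.Agent.Lib.Helper7

open Cfsg Cfsg.Agent.Lib.Helper27 Subgroup
open scoped Pointwise commutatorElement

def cBlk : ℕ := 769002856187368995862704841667217440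
def cFlip : ℕ := 470278375199658062065627471303653804
def cId : ℕ := 984818244535754528103549039458486304
def scTab : List (ℕ × ℕ) := [(4095, 984818244535754528103549039458486304),
  (8837010, 486357730796435561923523917333903404),
  (9905805, 486342518975192798730347982079756704),
  (14291550, 470765167900401240418980692762921004),
  (14954940, 470294062855038025253654634193586604),
  (13468455, 470780365301590579296566795099932704),
  (11183445, 485870492452267045884958427914406304),
  (9009000, 486357270732914257119201823803161004),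
  (14893515, 470294077231570161568291982705539104),
  (12338235, 485855266254450973244372624429135904),
  (13689585, 470765643733135897568419635771455904),
  (11637990, 485855756463760226501620576910018604),
  (16773120, 470278375199658062065627471303653804),
  (7940205, 968738888938977028245652593428236704),
  (6871410, 968754100760219791438828528682383404),
  (2485665, 984331451835011349750195817999219104),
  (1822275, 984802556880374564915521876568553504),
  (3308760, 984316254433822010872609715662207404),
  (5593770, 969226127283145544284218082847733804),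
  (7768215, 968739349002498333049974686958979104),
  (1883700, 984802542503842428600884528056601004),
  (4438980, 969241353480961616924803886333004204),
  (3087630, 984330976002276692600756874990684204),
  (5139225, 969240863271652363667555933852121504)]
def lft : ℕ := 479283844963287294795673862291994625
def lfk1 : ℕ := 353711840404827277830594435426770124
def lfk2 : ℕ := 732969776392640079283443864371416096
def lfk3 : ℕ := 299029488720741718908994876783804448
def lfk4 : ℕ := 775127128837814781905614931725826476
def lfk5 : ℕ := 649493086614402638108139173116688812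
def lfk6 : ℕ := 263939444885727852914283167150606764
def lfk7 : ℕ := 357144812119456269567107869072394284
def cma : ℕ := 443542508729836193651688379470909008
def cmb : ℕ := 886238901430532288637700683916182598
def cmA : ℕ := 556398672881822367147412720877768438
def cmB : ℕ := 648396097024048943961721710011200581

/-- the rows of the Hadamard matrix and their negatives, as sets of signed points -/
def F12 : List ℕ := scTab.map Prod.fst

/-- the point of the dodecad below a signed point -/
def blk (x : GolayPt) : GolayPt := pt (ent cBlk (idx x))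

def FS : Finset (Finset GolayPt) := (F12.map unmask).toFinset

def stabF : Subgroup (Equiv.Perm GolayPt) := MulAction.stabilizer (Equiv.Perm GolayPt) FS

def presB (c : ℕ) : Bool := allList (fun m => memList (permMask c m) F12) F12

theorem memList_complete {x : ℕ} {l : List ℕ} (h : x ∈ l) : memList x l = true := by
  induction l with
  | nil => simp at h
  | cons a l ih =>
    show Bool.rec (memList x l) true (Nat.beq x a) = true
    rcases List.mem_cons.1 h with rfl | h
    · rw [show Nat.beq x x = true from by rw [Nat.beq_eq]]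
    · rw [ih h]
      cases Nat.beq x a <;> rfl

theorem mem_FS {A : Finset GolayPt} : A ∈ FS ↔ ∃ m ∈ F12, unmask m = A := by
  simp [FS]

theorem F12_lt : ∀ m ∈ F12, m < 2 ^ 24 := by decide +kernel

theorem permOf_mem_stabF {c : ℕ} (hv : validCode c = true) (h : presB c = true) :
    permOf c ∈ stabF := by
  rw [stabF, MulAction.mem_stabilizer_iff]
  apply Finset.eq_of_subset_of_card_le
  · intro A hA
    obtain ⟨B, hB, rfl⟩ := Finset.mem_smul_finset.1 hA
    obtain ⟨m, hm, rfl⟩ := mem_FS.1 hB
    rw [smul_unmask_permOf hv (F12_lt m hm)]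
    exact mem_FS.2 ⟨_, memList_sound ((allList_iff _ _).1 h m hm), rfl⟩
  · rw [Finset.card_smul_finset]

theorem smul_mem_FS {π : Equiv.Perm GolayPt} (h : π ∈ stabF) {A : Finset GolayPt} (hA : A ∈ FS) :
    π • A ∈ FS := by
  have := Finset.smul_mem_smul_finset (a := π) hA
  rwa [MulAction.mem_stabilizer_iff.1 h] at this

theorem presB_of_mem {c : ℕ} (hv : validCode c = true) (h : permOf c ∈ stabF) :
    presB c = true := by
  rw [presB, allList_iff]
  intro m hm
  have h1 := smul_mem_FS h (mem_FS.2 ⟨m, hm, rfl⟩)
  rw [smul_unmask_permOf hv (F12_lt m hm)] at h1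
  obtain ⟨m', hm', e⟩ := mem_FS.1 h1
  have := unmask_injOn (F12_lt m' hm') (permMask_lt hv (F12_lt m hm)) e
  rw [← this]
  exact memList_complete hm'

/-- pairs (permutation of the points, permutation of the signed points) which are compatible -/
def Cov : Subgroup (Equiv.Perm GolayPt × Equiv.Perm GolayPt) where
  carrier := {p | ∀ x, p.1 (blk x) = blk (p.2 x)}
  one_mem' := fun _ => rfl
  mul_mem' := by
    intro p q hp hq x
    show p.1 (q.1 (blk x)) = blk (p.2 (q.2 x))
    rw [hq x, hp]
  inv_mem' := by
    intro p hp x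
    show p.1⁻¹ (blk x) = blk (p.2⁻¹ x)
    rw [Equiv.Perm.inv_eq_iff_eq, hp]
    simp

/-- the double cover of `M12` -/
def G2 : Subgroup (Equiv.Perm GolayPt × Equiv.Perm GolayPt) := ((fixer D0).prod stabF) ⊓ Cov

theorem blk_lt : ∀ i < 24, ent cBlk i < 24 := by decide +kernel

theorem mem_G2_of_check {c c' : ℕ} (h1 : checkFix D0 c = true) (hv : validCode c' = true)
    (h2 : presB c' = true)
    (h3 : allBelow (fun i => Nat.beq (ent c (ent cBlk i)) (ent cBlk (ent c' i))) 24 = true) :
    (permOf c, permOf c') ∈ G2 := by
  refine ⟨Subgroup.mem_prod.2 ⟨permOf_mem_fixer h1, permOf_mem_stabF hv h2⟩, ?_⟩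
  intro x
  show permOf c (blk x) = blk (permOf c' x)
  rw [permOf_apply (valid_of_checkFix h1), permOf_apply hv]
  unfold blk
  rw [idx_pt (blk_lt _ (idx_lt x)), idx_pt (ent_lt_of_valid hv _ (idx_lt x))]
  rw [allBelow_iff] at h3
  rw [Nat.eq_of_beq_eq_true (h3 _ (idx_lt x))]

def sig : G2 →* fixer D0 :=
  ((MonoidHom.fst _ _).comp G2.subtype).codRestrict (fixer D0)
    (fun x => (Subgroup.mem_prod.1 x.2.1).1)

theorem vFlip : validCode cFlip = true := by decide +kernel

theorem blk_fibre : ∀ x y : GolayPt, blk x = blk y → y = x ∨ y = permOf cFlip x := by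
  intro x y
  rw [permOf_apply vFlip]
  revert x y
  decide +kernel

theorem flip_ne : ∀ x : GolayPt, permOf cFlip x ≠ x := by
  intro x
  rw [permOf_apply vFlip]
  revert x
  decide +kernel

theorem blk_flip : ∀ x : GolayPt, blk (permOf cFlip x) = blk x := by
  intro x
  rw [permOf_apply vFlip]
  revert x
  decide +kernel

theorem comm_flip {p : Equiv.Perm GolayPt × Equiv.Perm GolayPt} (hp : p ∈ Cov) :
    p.2 * permOf cFlip = permOf cFlip * p.2 := by
  ext1 x
  show p.2 (permOf cFlip x) = permOf cFlip (p.2 x)
  have h1 : blk (p.2 x) = blk (p.2 (permOf cFlip x)) := by rw [← hp, ← hp, blk_flip]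
  rcases blk_fibre _ _ h1 with h | h
  · exact absurd (p.2.injective h) (flip_ne x)
  · exact h

theorem scTab_key : ∀ e ∈ scTab, ∀ x y : GolayPt, (y = x ∨ y = pt (ent cFlip (idx x))) →
    (x ∈ unmask 4095 ↔ y ∈ unmask e.1) → y = pt (ent e.2 (idx x)) := by
  decide +kernel

theorem scTab_pres : ∀ e ∈ scTab, validCode e.2 = true ∧
    (presB e.2 = true → e.2 = cId ∨ e.2 = cFlip) := by
  decide +kernel

theorem permOf_cId : permOf cId = 1 := by
  simpa using word_eq (w1 := [cId]) (w2 := []) (by decide +kernel) (by decide +kernel)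
    (by decide +kernel)

theorem ker_cases {π : Equiv.Perm GolayPt} (h : ((1 : Equiv.Perm GolayPt), π) ∈ G2) :
    π = 1 ∨ π = permOf cFlip := by
  have hcov : ∀ x, blk x = blk (π x) := h.2
  have hst : π ∈ stabF := (Subgroup.mem_prod.1 h.1).2
  have h0 : π • unmask 4095 ∈ FS := smul_mem_FS hst (mem_FS.2 ⟨4095, by decide +kernel, rfl⟩)
  obtain ⟨m, hm, e⟩ := mem_FS.1 h0
  obtain ⟨⟨m', c⟩, hmc, rfl⟩ := List.mem_map.1 hm
  obtain ⟨hv, hpres⟩ := scTab_pres _ hmc
  have hπ : π = permOf c := by
    ext1 x
    rw [permOf_apply hv]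
    apply scTab_key _ hmc x (π x)
    · have := blk_fibre _ _ (hcov x)
      rwa [permOf_apply vFlip] at this
    · show x ∈ unmask 4095 ↔ π x ∈ unmask m'
      rw [e]
      exact (Finset.smul_mem_smul_finset_iff π).symm
  rw [hπ] at hst
  rcases hpres (presB_of_mem hv hst) with h1 | h1
  · left
    rw [hπ]
    show permOf c = 1
    have : c = cId := h1
    rw [this, permOf_cId]
  · right
    rw [hπ]
    have : c = cFlip := h1
    rw [this]

theorem lft_mem : (permOf cT12, permOf lft) ∈ G2 :=
  mem_G2_of_check (by decide +kernel) (by decide +kernel) (by decide +kernel) (by decide +kernel)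
theorem lfk1_mem : (permOf k1c, permOf lfk1) ∈ G2 :=
  mem_G2_of_check (by decide +kernel) (by decide +kernel) (by decide +kernel) (by decide +kernel)
theorem lfk2_mem : (permOf k2c, permOf lfk2) ∈ G2 :=
  mem_G2_of_check (by decide +kernel) (by decide +kernel) (by decide +kernel) (by decide +kernel)
theorem lfk3_mem : (permOf k3c, permOf lfk3) ∈ G2 :=
  mem_G2_of_check (by decide +kernel) (by decide +kernel) (by decide +kernel) (by decide +kernel)
theorem lfk4_mem : (permOf k4c, permOf lfk4) ∈ G2 :=
  mem_G2_of_check (by decide +kernel) (by decide +kernel) (by decide +kernel) (by decide +kernel)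
theorem lfk5_mem : (permOf k5c, permOf lfk5) ∈ G2 :=
  mem_G2_of_check (by decide +kernel) (by decide +kernel) (by decide +kernel) (by decide +kernel)
theorem lfk6_mem : (permOf k6c, permOf lfk6) ∈ G2 :=
  mem_G2_of_check (by decide +kernel) (by decide +kernel) (by decide +kernel) (by decide +kernel)
theorem lfk7_mem : (permOf k7c, permOf lfk7) ∈ G2 :=
  mem_G2_of_check (by decide +kernel) (by decide +kernel) (by decide +kernel) (by decide +kernel)
theorem cmA_mem : (permOf cma, permOf cmA) ∈ G2 :=
  mem_G2_of_check (by decide +kernel) (by decide +kernel) (by decide +kernel) (by decide +kernel)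
theorem cmB_mem : (permOf cmb, permOf cmB) ∈ G2 :=
  mem_G2_of_check (by decide +kernel) (by decide +kernel) (by decide +kernel) (by decide +kernel)

theorem fixer_D0_le_map : fixer D0 ≤ G2.map (MonoidHom.fst _ _) := by
  have l2 : fixer D2 ≤ G2.map (MonoidHom.fst _ _) :=
    fixer_D2_le _ ⟨_, lfk2_mem, rfl⟩ ⟨_, lfk3_mem, rfl⟩ ⟨_, lfk4_mem, rfl⟩ ⟨_, lfk5_mem, rfl⟩
      ⟨_, lfk6_mem, rfl⟩ ⟨_, lfk7_mem, rfl⟩
  have l1 : fixer D1 ≤ G2.map (MonoidHom.fst _ _) := by
    refine fixer_le_of_gens _ D1 [k1c] (b := 1) (by norm_num) 11 340830 dinv1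
      (by decide +kernel) ?_ (by decide +kernel) (by decide +kernel) l2
    intro c hc
    simp only [List.mem_cons, List.not_mem_nil, or_false] at hc
    subst hc
    exact ⟨_, lfk1_mem, rfl⟩
  refine fixer_le_of_gens _ D0 [cT12, k1c] (b := 0) (by norm_num) 12 340831 dinv0
    (by decide +kernel) ?_ (by decide +kernel) (by decide +kernel) l1
  intro c hc
  simp only [List.mem_cons, List.not_mem_nil, or_false] at hc
  rcases hc with rfl | rfl
  · exact ⟨_, lft_mem, rfl⟩
  · exact ⟨_, lfk1_mem, rfl⟩

theorem sig_surjective : Function.Surjective sig := by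
  rintro ⟨g, hg⟩
  obtain ⟨p, hp, hpg⟩ := fixer_D0_le_map hg
  exact ⟨⟨p, hp⟩, Subtype.ext hpg⟩

theorem flip_mem : ((1 : Equiv.Perm GolayPt), permOf cFlip) ∈ G2 := by
  have h := G2.mul_mem (G2.mul_mem cmA_mem cmB_mem) (G2.inv_mem (G2.mul_mem cmB_mem cmA_mem))
  have e1 : permOf cma * permOf cmb = permOf cmb * permOf cma := by
    simpa using word_eq (w1 := [cma, cmb]) (w2 := [cmb, cma]) (by decide +kernel)
      (by decide +kernel) (by decide +kernel)
  have e2 : permOf cmA * permOf cmB = permOf cFlip * (permOf cmB * permOf cmA) := by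
    simpa using word_eq (w1 := [cmA, cmB]) (w2 := [cFlip, cmB, cmA]) (by decide +kernel)
      (by decide +kernel) (by decide +kernel)
  have e3 : (permOf cma, permOf cmA) * (permOf cmb, permOf cmB) *
      ((permOf cmb, permOf cmB) * (permOf cma, permOf cmA))⁻¹ = (1, permOf cFlip) := by
    apply Prod.ext
    · show permOf cma * permOf cmb * (permOf cmb * permOf cma)⁻¹ = 1
      rw [e1, mul_inv_cancel]
    · show permOf cmA * permOf cmB * (permOf cmB * permOf cmA)⁻¹ = permOf cFlip
      rw [e2, mul_inv_cancel_right]
  rwa [e3] at h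

/-- the central involution -/
noncomputable def zz : G2 := ⟨(1, permOf cFlip), flip_mem⟩

theorem zz_eq_commutator : zz = ⁅(⟨_, cmA_mem⟩ : G2), (⟨_, cmB_mem⟩ : G2)⁆ := by
  have e1 : permOf cma * permOf cmb = permOf cmb * permOf cma := by
    simpa using word_eq (w1 := [cma, cmb]) (w2 := [cmb, cma]) (by decide +kernel)
      (by decide +kernel) (by decide +kernel)
  have e2 : permOf cmA * permOf cmB = permOf cFlip * (permOf cmB * permOf cmA) := by
    simpa using word_eq (w1 := [cmA, cmB]) (w2 := [cFlip, cmB, cmA]) (by decide +kernel)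
      (by decide +kernel) (by decide +kernel)
  apply Subtype.ext
  rw [commutatorElement_def]
  apply Prod.ext
  · show (1 : Equiv.Perm GolayPt) = permOf cma * permOf cmb * (permOf cma)⁻¹ * (permOf cmb)⁻¹
    rw [e1]; group
  · show permOf cFlip = permOf cmA * permOf cmB * (permOf cmA)⁻¹ * (permOf cmB)⁻¹
    rw [e2]; group

theorem mem_ker_sig {x : G2} (hx : x ∈ sig.ker) : x = 1 ∨ x = zz := by
  obtain ⟨⟨g, π⟩, hp⟩ := x
  have h1 : g = 1 := congrArg Subtype.val (MonoidHom.mem_ker.1 hx)
  subst h1
  rcases ker_cases hp with rfl | rfl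
  · left; rfl
  · right; rfl

theorem zz_mem_ker : zz ∈ sig.ker := by
  rw [MonoidHom.mem_ker]
  exact Subtype.ext rfl

theorem zz_ne_one : zz ≠ 1 := by
  intro h
  have h1 : permOf cFlip = 1 := congrArg (fun x : G2 => x.1.2) h
  have h2 := flip_ne (pt 0)
  rw [h1] at h2
  exact h2 rfl

theorem zz_mul_self : zz * zz = 1 := by
  apply Subtype.ext
  apply Prod.ext
  · show (1 : Equiv.Perm GolayPt) * 1 = 1
    rw [one_mul]
  · show permOf cFlip * permOf cFlip = 1
    simpa using word_eq (w1 := [cFlip, cFlip]) (w2 := []) (by decide +kernel) (by decide +kernel)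
      (by decide +kernel)

theorem stem_sig : Cfsg.IsStemExtension sig := by
  refine ⟨sig_surjective, ?_, ?_⟩
  · intro x hx
    rcases mem_ker_sig hx with rfl | rfl
    · exact Subgroup.one_mem _
    · rw [Subgroup.mem_center_iff]
      intro y
      apply Subtype.ext
      apply Prod.ext
      · show y.1.1 * 1 = 1 * y.1.1
        rw [mul_one, one_mul]
      · exact comm_flip y.2.2
  · intro x hx
    rcases mem_ker_sig hx with rfl | rfl
    · exact Subgroup.one_mem _
    · rw [zz_eq_commutator, commutator_def]
      exact Subgroup.commutator_mem_commutator (Subgroup.mem_top _) (Subgroup.mem_top _)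

theorem multiplier_fixer_D0 : Cfsg.HasCyclicSchurMultiplier (fixer D0) 2 := by
  apply Cfsg.Agent.Lib.Helper35.hasCyclicSchurMultiplier_of
  · refine ⟨G2, inferInstance, inferInstance, sig, stem_sig, ?_⟩
    obtain ⟨h1, h2⟩ := cyclic_of_two (K := sig.ker) ⟨zz, zz_mem_ker⟩ (Subtype.ext zz_mul_self)
      (by
        rintro ⟨z, hz⟩
        rcases mem_ker_sig hz with rfl | rfl
        · left; rfl
        · right; rfl)
    refine ⟨h1, ?_⟩
    rcases (Nat.dvd_prime Nat.prime_two).1 h2 with h | h
    · exfalso
      rw [Nat.card_eq_one_iff_unique] at h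
      haveI := h.1
      have : (⟨zz, zz_mem_ker⟩ : sig.ker) = 1 := Subsingleton.elim _ _
      exact zz_ne_one (congrArg Subtype.val this)
    · exact h
  · intro Γ _ _ σ hσ
    obtain ⟨κ, hκ, hall⟩ := multiplier_fixer_D0_le σ hσ
    by_cases hk : κ ∈ σ.ker
    · apply cyclic_of_two (K := σ.ker) ⟨κ, hk⟩ (Subtype.ext hκ)
      rintro ⟨z, hz⟩
      rcases hall z hz with rfl | rfl
      · left; rfl
      · right; rfl
    · apply cyclic_of_two (K := σ.ker) 1 (one_mul 1)
      rintro ⟨z, hz⟩
      rcases hall z hz with rfl | rfl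
      · left; rfl
      · exact absurd hz hk

theorem multiplier_M12 : Cfsg.HasCyclicSchurMultiplier Spor.M12 2 := by
  rw [M12_eq_fixer]; exact multiplier_fixer_D0

end Cfsg.Agent.Lib.Helper7
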