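import Cfsg.Agent.Lib.Helper7.Stem7
import Cfsg.Agent.Lib.Helper7.MultM23
import Cfsg.Agent.Lib.Helper7.MathieuSimple
import Cfsg.Agent.Lib.Helper35.SubgroupMult

/-!
# The Schur multiplier of `M24` is trivial
-/

set_option autoImplicit false
set_option linter.style.haveILetI false

namespace Cfsg.Agent.Lib.Helper7

open Cfsg Cfsg.Agent.Lib.Helper27 Subgroup
open scoped Pointwise commutatorElement

universe u v

/-- a perfect subgroup with trivial multiplier has a complement to the kernel in its preimage -/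
theorem exists_complement_of_trivial {Γ : Type u} {P : Type v} [Group Γ] [Group P] (τ : Γ →* P)
    (hc : τ.ker ≤ center Γ) (H : Subgroup P) (hHr : ∀ h ∈ H, ∃ x, τ x = h)
    (hmult : Cfsg.HasCyclicSchurMultiplier H 1) (hperf : commutator H = ⊤) :
    ∃ H1 : Subgroup Γ, (∀ X ∈ H1, τ X = 1 → X = 1) ∧ (∀ h ∈ H, ∃ X ∈ H1, τ X = h) ∧
      (∀ X ∈ H1, τ X ∈ H) := by
  set ξ := τ.subgroupComap H with hξ
  have hsurj : Function.Surjective ξ := by
    rintro ⟨h, hh⟩
    obtain ⟨x, rfl⟩ := hHr h hh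
    exact ⟨⟨x, hh⟩, rfl⟩
  have hcen := Cfsg.Agent.Lib.Helper35.subgroupComap_ker_le_center τ hc H
  have h1 := Cfsg.Agent.Lib.Helper66.ker_inf_commutator_eq_bot_of_trivial hmult ξ hsurj hcen
  obtain ⟨sec, hsec⟩ := Cfsg.Agent.Lib.Helper66.exists_section_of_perfect hperf ξ hsurj h1
  have hsec' : ∀ h : H, τ ((sec h : H.comap τ) : Γ) = h := by
    intro h
    have := congrArg (fun f => ((f h : H) : P)) hsec
    exact this
  refine ⟨sec.range.map (H.comap τ).subtype, ?_, ?_, ?_⟩
  · rintro _ ⟨_, ⟨h, rfl⟩, rfl⟩ hX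
    have h2 : (h : P) = 1 := by rw [← hsec' h]; exact hX
    have h3 : h = 1 := Subtype.ext h2
    rw [h3, map_one, map_one]
  · intro h hh
    exact ⟨_, ⟨_, ⟨⟨h, hh⟩, rfl⟩, rfl⟩, hsec' ⟨h, hh⟩⟩
  · rintro _ ⟨_, ⟨h, rfl⟩, rfl⟩
    have : τ ((sec h : H.comap τ) : Γ) = h := hsec' h
    show τ ((sec h : H.comap τ) : Γ) ∈ H
    rw [this]; exact h.2

theorem commutator_eq_top_of_simple {G : Type u} [Group G] [IsSimpleGroup G] {a b : G}
    (hab : a * b ≠ b * a) : commutator G = ⊤ := by
  rcases (inferInstance : (commutator G).Normal).eq_bot_or_eq_top with h | h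
  · exfalso
    apply hab
    rw [← commutatorElement_eq_one_iff_mul_comm, ← mem_bot, ← h]
    exact Subgroup.commutator_mem_commutator (mem_top a) (mem_top b)
  · exact h

theorem commutator_self_of_perfect {P : Type v} [Group P] (D : Subgroup P)
    (h : commutator D = ⊤) : ⁅D, D⁆ = D := by
  rw [← map_subtype_commutator, h, ← MonoidHom.range_eq_map, D.range_subtype]

/-- a doubly transitive group whose point stabiliser is perfect with trivial multiplier and whose
two point stabiliser is perfect has trivial multiplier -/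
theorem ker_eq_bot_of_two_transitive {Γ : Type u} {P : Type v} [Group Γ] [Group P] (τ : Γ →* P)
    (hc : τ.ker ≤ center Γ) (hk : τ.ker ≤ commutator Γ) (H D : Subgroup P) (s t : P) (ht : t ∉ H)
    (hgen : ∀ x : Γ, τ x ∈ H ∨ ∃ a ∈ H, ∃ b ∈ H, τ x = a * t * b)
    (hHD : ∀ h ∈ H, h ∈ D ∨ ∃ a ∈ D, ∃ b ∈ D, h = a * s * b) (hDH : D ≤ H)
    (hHr : ∀ h ∈ H, ∃ x, τ x = h) (htr : ∃ x, τ x = t)
    (hmult : Cfsg.HasCyclicSchurMultiplier H 1) (hperfH : commutator H = ⊤) (hperfD : ⁅D, D⁆ = D)
    (hs : s ∈ H) (hss : s * s = 1) (htt : t * t = 1) (hts : (t * s) ^ 3 = 1)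
    (htD : ∀ d ∈ D, t * d * t⁻¹ ∈ D) : τ.ker = ⊥ := by
  obtain ⟨H1, hinj, hsurj, hmem⟩ := exists_complement_of_trivial τ hc H hHr hmult hperfH
  obtain ⟨S, hS, hσS⟩ := hsurj s hs
  obtain ⟨T0, hT0⟩ := htr
  have hSS : S * S = 1 := hinj _ (H1.mul_mem hS hS) (by rw [map_mul, hσS, hss])
  obtain ⟨T, hσT, hTT, hTST⟩ := exists_lift_S3 τ hc hSS (T0 := T0) (by rw [map_mul, hT0, htt])
    (by rw [map_pow, map_mul, hT0, hσS, hts])
  rw [hT0] at hσT
  have eT : T⁻¹ = T := inv_eq_of_mul_eq_one_right hTT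
  have hconj := conj_mem_of_perfect τ hc D hperfD H1 hinj (fun d hd => hsurj d (hDH hd)) (T := T)
    (by rw [hσT]; exact htD)
  have hle := ker_le_of_double_coset τ hc hk H D s t ht hgen hHD H1 hsurj hmem hDH S T hS hσS hσT
    (by rw [hTT]; exact H1.one_mem) ⟨S, hS, S, hS, hTST⟩
    (fun X hX hXD => ⟨hconj X hX hXD, by
      have := hconj X hX hXD
      rw [eT] at this ⊢
      exact this⟩)
  rw [eq_bot_iff]
  intro z hz
  exact hinj z (hle hz) hz

def cS24 : ℕ := 984290609731970329108943467854628865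
def cT24 : ℕ := 23675423068553433309540073939765303

theorem perfect_fixer_L1 : commutator (fixer L1) = ⊤ := by
  haveI := simple_fixer_L1
  apply commutator_eq_top_of_simple (a := gS) (b := gT)
  exact ne_of_words [cS, cT] [cT, cS] (by decide +kernel) (by decide +kernel) (by decide +kernel)
    (by simp) (by simp)

theorem perfect_fixer_L2 : commutator (fixer L2) = ⊤ := by
  haveI := simple_fixer_L2
  apply commutator_eq_top_of_simple
    (a := ⟨permOf cOm, permOf_mem_fixer (L := L2) (c := cOm) (by decide +kernel)⟩)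
    (b := ⟨permOf cX0, permOf_mem_fixer (L := L2) (c := cX0) (by decide +kernel)⟩)
  intro h
  have h' := congrArg Subtype.val h
  exact word_ne (w1 := [cOm, cX0]) (w2 := [cX0, cOm]) (by decide +kernel) (by decide +kernel)
    (by decide +kernel) (by simpa using h')

theorem apply_code {c : ℕ} (h : validCode c = true) {i j : ℕ} (hi : i < 24)
    (hij : Nat.beq (ent c i) j = true) : permOf c (pt i) = pt j := by
  rw [permOf_apply h, idx_pt hi, Nat.eq_of_beq_eq_true hij]

theorem multiplier_M24 : Cfsg.HasCyclicSchurMultiplier M24 1 := by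
  rw [Cfsg.Agent.Lib.Helper66.hasCyclicSchurMultiplier_one_iff]
  intro Γ _ _ σ hσ
  set τ : Γ →* Equiv.Perm GolayPt := M24.subtype.comp σ with hτ
  have hker : τ.ker = σ.ker := by
    ext x
    rw [MonoidHom.mem_ker, MonoidHom.mem_ker, hτ, MonoidHom.comp_apply]
    exact ⟨fun h => Subtype.ext h, fun h => by rw [h]; rfl⟩
  have hτM : ∀ x, τ x ∈ M24 := fun x => (σ x).2
  have hτs : ∀ g ∈ M24, ∃ x, τ x = g := by
    intro g hg
    obtain ⟨x, hx⟩ := hσ.1 ⟨g, hg⟩
    exact ⟨x, by rw [hτ, MonoidHom.comp_apply, hx]; rfl⟩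
  rw [← hker]
  have vS : validCode cS24 = true := by decide +kernel
  have vT : validCode cT24 = true := by decide +kernel
  have hTM : permOf cT24 ∈ M24 := permOf_mem_M24 (by decide +kernel)
  have hSH : permOf cS24 ∈ fixer L1 := permOf_mem_fixer (by decide +kernel)
  have t23 : permOf cT24 (pt 23) = pt 0 := apply_code vT (by norm_num) (by decide +kernel)
  have t0 : permOf cT24 (pt 0) = pt 23 := apply_code vT (by norm_num) (by decide +kernel)
  have s0 : permOf cS24 (pt 0) = pt 1 := apply_code vS (by norm_num) (by decide +kernel)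
  have htt : permOf cT24 * permOf cT24 = 1 := by
    simpa using word_eq (w1 := [cT24, cT24]) (w2 := []) (by decide +kernel) (by decide +kernel)
      (by decide +kernel)
  have et : (permOf cT24)⁻¹ = permOf cT24 := inv_eq_of_mul_eq_one_right htt
  have memL1 : ∀ g ∈ M24, g (pt 23) = pt 23 → g ∈ fixer L1 := by
    intro g hg h
    refine mem_fixer_of_pts hg [23] ?_
    intro b hb
    simp only [List.mem_singleton] at hb
    subst hb
    exact ⟨by norm_num, h⟩
  have memL2 : ∀ g ∈ M24, g (pt 23) = pt 23 → g (pt 0) = pt 0 → g ∈ fixer L2 := by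
    intro g hg h h'
    refine mem_fixer_of_pts hg [0, 23] ?_
    intro b hb
    simp only [List.mem_cons, List.not_mem_nil, or_false] at hb
    rcases hb with rfl | rfl
    · exact ⟨by norm_num, h'⟩
    · exact ⟨by norm_num, h⟩
  apply ker_eq_bot_of_two_transitive τ (hker ▸ hσ.2.1) (hker ▸ hσ.2.2) (fixer L1) (fixer L2)
    (permOf cS24) (permOf cT24)
  · -- t ∉ H
    intro h
    have := fixer_fix h (i := 23) (by norm_num) (by simp [L1])
    rw [t23] at this
    revert this
    decide +kernel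
  · -- hgen
    intro x
    by_cases h : τ x (pt 23) = pt 23
    · exact Or.inl (memL1 _ (hτM x) h)
    · right
      have hq : τ x (pt 23) ∈ unmask 8388607 := by
        have : ∀ q : GolayPt, q ≠ pt 23 → q ∈ unmask 8388607 := by decide +kernel
        exact this _ h
      obtain ⟨a, ha, haq⟩ := trans1 _ hq
      refine ⟨a, ha, (a * permOf cT24)⁻¹ * τ x, ?_, by group⟩
      apply memL1 _ (M24.mul_mem (M24.inv_mem (M24.mul_mem ha.1 hTM)) (hτM x))
      rw [Equiv.Perm.mul_apply, Equiv.Perm.inv_eq_iff_eq, Equiv.Perm.mul_apply, t23, haq]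
  · -- hHD
    intro h hh
    have h23 := fixer_fix hh (i := 23) (by norm_num) (by simp [L1])
    by_cases h0 : h (pt 0) = pt 0
    · exact Or.inl (memL2 _ hh.1 h23 h0)
    · right
      have hq : h (pt 0) ∈ unmask 8388606 := by
        have : ∀ q : GolayPt, q ≠ pt 23 → q ≠ pt 0 → q ∈ unmask 8388606 := by decide +kernel
        apply this _ _ h0
        intro hc
        rw [← h23] at hc
        have := h.injective hc
        revert this
        decide +kernel
      obtain ⟨a, ha, haq⟩ := trans2 _ hq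
      have a23 := fixer_fix ha (i := 23) (by norm_num) (by simp [L2])
      have s23 := fixer_fix hSH (i := 23) (by norm_num) (by simp [L1])
      refine ⟨a, ha, (a * permOf cS24)⁻¹ * h, ?_, by group⟩
      apply memL2 _ (M24.mul_mem (M24.inv_mem (M24.mul_mem ha.1 hSH.1)) hh.1)
      · rw [Equiv.Perm.mul_apply, Equiv.Perm.inv_eq_iff_eq, Equiv.Perm.mul_apply, h23, s23, a23]
      · rw [Equiv.Perm.mul_apply, Equiv.Perm.inv_eq_iff_eq, Equiv.Perm.mul_apply, s0, haq]
  · exact fixer_cons_le L1 (2 ^ 0)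
  · exact fun h hh => hτs h hh.1
  · exact hτs _ hTM
  · exact multiplier_fixer_L1
  · exact perfect_fixer_L1
  · exact commutator_self_of_perfect _ perfect_fixer_L2
  · exact hSH
  · simpa using word_eq (w1 := [cS24, cS24]) (w2 := []) (by decide +kernel) (by decide +kernel)
      (by decide +kernel)
  · exact htt
  · simpa [pow_succ, mul_assoc] using word_eq (w1 := [cT24, cS24, cT24, cS24, cT24, cS24]) (w2 := [])
      (by decide +kernel) (by decide +kernel) (by decide +kernel)
  · intro d hd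
    have d23 := fixer_fix hd (i := 23) (by norm_num) (by simp [L2])
    have d0 := fixer_fix hd (i := 0) (by norm_num) (by simp [L2])
    rw [et]
    apply memL2 _ (M24.mul_mem (M24.mul_mem hTM hd.1) hTM)
    · rw [Equiv.Perm.mul_apply, Equiv.Perm.mul_apply, t23, d0, t0]
    · rw [Equiv.Perm.mul_apply, Equiv.Perm.mul_apply, t0, d23, t23]

end Cfsg.Agent.Lib.Helper7
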