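import Cfsg.Agent.Lib.Helper7.Stem2

/-!
# Bounding Schur multipliers: doubling a subgroup, commutators of generated subgroups,
semidihedral Sylow subgroups
-/

set_option autoImplicit false
set_option linter.style.haveILetI false

namespace Cfsg.Agent.Lib.Helper7

open Subgroup
open scoped commutatorElement

universe u v

section dbl

variable {Γ : Type u} [Group Γ]

theorem conj_inv_mem_of_sq {N : Subgroup Γ} {x : Γ} (hx2 : x * x ∈ N)
    (hn : ∀ n ∈ N, x * n * x⁻¹ ∈ N) {n : Γ} (h : n ∈ N) : x⁻¹ * n * x ∈ N := by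
  have : x⁻¹ * n * x = (x * x)⁻¹ * (x * n * x⁻¹) * (x * x) := by group
  rw [this]
  exact N.mul_mem (N.mul_mem (N.inv_mem hx2) (hn n h)) hx2

/-- the subgroup `N ∪ xN` -/
def dbl (N : Subgroup Γ) (x : Γ) (hx2 : x * x ∈ N) (hn : ∀ n ∈ N, x * n * x⁻¹ ∈ N) :
    Subgroup Γ where
  carrier := {y | y ∈ N ∨ x⁻¹ * y ∈ N}
  one_mem' := Or.inl N.one_mem
  mul_mem' := by
    rintro a b (ha | ha) (hb | hb)
    · exact Or.inl (N.mul_mem ha hb)
    · right
      have : x⁻¹ * (a * b) = (x⁻¹ * a * x) * (x⁻¹ * b) := by group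
      rw [this]
      exact N.mul_mem (conj_inv_mem_of_sq hx2 hn ha) hb
    · right
      rw [← mul_assoc]
      exact N.mul_mem ha hb
    · left
      have : a * b = (x * (x⁻¹ * a) * x⁻¹) * (x * x) * (x⁻¹ * b) := by group
      rw [this]
      exact N.mul_mem (N.mul_mem (hn _ ha) hx2) hb
  inv_mem' := by
    rintro a (ha | ha)
    · exact Or.inl (N.inv_mem ha)
    · right
      have : x⁻¹ * a⁻¹ = (x⁻¹ * (x⁻¹ * a)⁻¹ * x) * (x * x)⁻¹ := by group
      rw [this]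
      exact N.mul_mem (conj_inv_mem_of_sq hx2 hn (N.inv_mem ha)) (N.inv_mem hx2)

theorem mem_dbl {N : Subgroup Γ} {x : Γ} {hx2 : x * x ∈ N} {hn : ∀ n ∈ N, x * n * x⁻¹ ∈ N} {y : Γ} :
    y ∈ dbl N x hx2 hn ↔ y ∈ N ∨ x⁻¹ * y ∈ N := Iff.rfl

theorem le_dbl (N : Subgroup Γ) (x : Γ) (hx2 : x * x ∈ N) (hn : ∀ n ∈ N, x * n * x⁻¹ ∈ N) :
    N ≤ dbl N x hx2 hn := fun _ h => Or.inl h

theorem self_mem_dbl (N : Subgroup Γ) (x : Γ) (hx2 : x * x ∈ N) (hn : ∀ n ∈ N, x * n * x⁻¹ ∈ N) :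
    x ∈ dbl N x hx2 hn := Or.inr (by rw [inv_mul_cancel]; exact N.one_mem)

theorem card_dbl [Finite Γ] (N : Subgroup Γ) (x : Γ) (hx2 : x * x ∈ N)
    (hn : ∀ n ∈ N, x * n * x⁻¹ ∈ N)
    (hx : x ∉ N) : Nat.card (dbl N x hx2 hn) = 2 * Nat.card N := by
  let f : N ⊕ N → dbl N x hx2 hn :=
    Sum.elim (fun n : N => ⟨(n : Γ), Or.inl n.2⟩)
      (fun n : N => ⟨x * (n : Γ), Or.inr (by rw [inv_mul_cancel_left]; exact n.2)⟩)
  have hf : Function.Bijective f := by
    constructor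
    · rintro (a | a) (b | b) h
      · have := congrArg Subtype.val h
        exact congrArg Sum.inl (Subtype.ext this)
      · exfalso
        have h1 : (a : Γ) = x * b := congrArg Subtype.val h
        apply hx
        have : x = a * (b : Γ)⁻¹ := by rw [h1]; group
        rw [this]
        exact N.mul_mem a.2 (N.inv_mem b.2)
      · exfalso
        have h1 : x * a = (b : Γ) := congrArg Subtype.val h
        apply hx
        have : x = b * (a : Γ)⁻¹ := by rw [← h1]; group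
        rw [this]
        exact N.mul_mem b.2 (N.inv_mem a.2)
      · have h1 : x * a = x * (b : Γ) := congrArg Subtype.val h
        exact congrArg Sum.inr (Subtype.ext (mul_left_cancel h1))
    · rintro ⟨y, hy | hy⟩
      · exact ⟨Sum.inl ⟨y, hy⟩, rfl⟩
      · exact ⟨Sum.inr ⟨x⁻¹ * y, hy⟩, Subtype.ext (by simp [f])⟩
  rw [← Nat.card_congr (Equiv.ofBijective f hf), Nat.card_sum, two_mul]

/-- conjugation preserves `dbl` when it does so on `N` and on `x` -/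
theorem conj_mem_dbl {N : Subgroup Γ} {x : Γ} {hx2 : x * x ∈ N} {hn : ∀ n ∈ N, x * n * x⁻¹ ∈ N}
    {d : Γ} (h1 : ∀ n ∈ N, d * n * d⁻¹ ∈ dbl N x hx2 hn) (h2 : d * x * d⁻¹ ∈ dbl N x hx2 hn) :
    ∀ y ∈ dbl N x hx2 hn, d * y * d⁻¹ ∈ dbl N x hx2 hn := by
  rintro y (hy | hy)
  · exact h1 y hy
  · have : d * y * d⁻¹ = (d * x * d⁻¹) * (d * (x⁻¹ * y) * d⁻¹) := by group
    rw [this]
    exact (dbl N x hx2 hn).mul_mem h2 (h1 _ hy)

variable {G : Type v} [Group G]

theorem dbl_inj (σ : Γ →* G) {N : Subgroup Γ} {x : Γ} {hx2 : x * x ∈ N}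
    {hn : ∀ n ∈ N, x * n * x⁻¹ ∈ N} (hN : ∀ n ∈ N, σ n = 1 → n = 1) (hx : ∀ n ∈ N, σ n ≠ σ x) :
    ∀ y ∈ dbl N x hx2 hn, σ y = 1 → y = 1 := by
  rintro y (hy | hy) h
  · exact hN y hy h
  · exfalso
    apply hx _ (N.inv_mem hy)
    rw [map_inv, map_mul, h, mul_one, map_inv, inv_inv]

theorem notMem_of_map_ne (σ : Γ →* G) {N : Subgroup Γ} {x : Γ} (hx : ∀ n ∈ N, σ n ≠ σ x) : x ∉ N :=
  fun h => hx x h rfl

end dbl

section comm

variable {Γ : Type u} [Group Γ]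

/-- commutators of a generated subgroup -/
theorem commutator_mem_of_closure {S : Set Γ} {N : Subgroup Γ}
    (hconj : ∀ s ∈ S, ∀ n ∈ N, s * n * s⁻¹ ∈ N ∧ s⁻¹ * n * s ∈ N)
    (hcomm : ∀ s ∈ S, ∀ t ∈ S, ⁅s, t⁆ ∈ N) {x y : Γ} (hx : x ∈ closure S) (hy : y ∈ closure S) :
    ⁅x, y⁆ ∈ N := by
  have h1 : ∀ x ∈ closure S, ∀ n ∈ N, x * n * x⁻¹ ∈ N ∧ x⁻¹ * n * x ∈ N := by
    intro x hx
    induction hx using closure_induction with
    | mem x hx => exact hconj x hx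
    | one => intro n hn; simpa using hn
    | mul a b _ _ iha ihb =>
      intro n hn
      constructor
      · have : a * b * n * (a * b)⁻¹ = a * (b * n * b⁻¹) * a⁻¹ := by group
        rw [this]; exact (iha _ (ihb n hn).1).1
      · have : (a * b)⁻¹ * n * (a * b) = b⁻¹ * (a⁻¹ * n * a) * b := by group
        rw [this]; exact (ihb _ (iha n hn).2).2
    | inv a _ iha =>
      intro n hn
      rw [inv_inv]
      exact ⟨(iha n hn).2, (iha n hn).1⟩
  have h2 : ∀ t ∈ S, ∀ x ∈ closure S, ⁅x, t⁆ ∈ N := by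
    intro t ht x hx
    induction hx using closure_induction with
    | mem x hx => exact hcomm x hx t ht
    | one => rw [commutatorElement_one_left]; exact N.one_mem
    | mul a b ha _ iha ihb =>
      have : ⁅a * b, t⁆ = a * ⁅b, t⁆ * a⁻¹ * ⁅a, t⁆ := by
        simp only [commutatorElement_def]; group
      rw [this]; exact N.mul_mem (h1 a ha _ ihb).1 iha
    | inv a ha iha =>
      have : ⁅a⁻¹, t⁆ = a⁻¹ * ⁅a, t⁆⁻¹ * a := by
        simp only [commutatorElement_def]; group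
      rw [this]; exact (h1 a ha _ (N.inv_mem iha)).2
  induction hy using closure_induction with
  | mem y hy => exact h2 y hy x hx
  | one => rw [commutatorElement_one_right]; exact N.one_mem
  | mul a b ha _ iha ihb =>
    have : ⁅x, a * b⁆ = ⁅x, a⁆ * (a * ⁅x, b⁆ * a⁻¹) := by
      simp only [commutatorElement_def]; group
    rw [this]; exact N.mul_mem iha (h1 a ha _ ihb).1
  | inv a ha iha =>
    have : ⁅x, a⁻¹⁆ = a⁻¹ * ⁅x, a⁆⁻¹ * a := by
      simp only [commutatorElement_def]; group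
    rw [this]; exact (h1 a ha _ (N.inv_mem iha)).2

variable {G : Type v} [Group G]

/-- commutators of lifts of elements of a generated subgroup -/
theorem commutator_mem_of_lifts (σ : Γ →* G) (hc : σ.ker ≤ center Γ) {S : Set Γ} {N : Subgroup Γ}
    (hconj : ∀ s ∈ S, ∀ n ∈ N, s * n * s⁻¹ ∈ N ∧ s⁻¹ * n * s ∈ N)
    (hcomm : ∀ s ∈ S, ∀ t ∈ S, ⁅s, t⁆ ∈ N) {x y : Γ}
    (hx : σ x ∈ closure (σ '' S)) (hy : σ y ∈ closure (σ '' S)) : ⁅x, y⁆ ∈ N := by
  rw [← MonoidHom.map_closure] at hx hy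
  obtain ⟨x', hx', hxx⟩ := hx
  obtain ⟨y', hy', hyy⟩ := hy
  rw [Cfsg.Agent.Lib.Helper66.commutatorElement_eq_of_central σ hc hxx.symm hyy.symm]
  exact commutator_mem_of_closure hconj hcomm hx' hy'

end comm

end Cfsg.Agent.Lib.Helper7
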