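import Cfsg.Agent.Lib.Helper7.Stem3

/-!
# Bounding Schur multipliers: semidihedral Sylow 2-subgroups
-/

set_option autoImplicit false
set_option linter.style.haveILetI false

namespace Cfsg.Agent.Lib.Helper7

open Subgroup
open scoped commutatorElement

universe u v

theorem conj_mem_zpowers {Γ : Type u} [Group Γ] {s c : Γ} (h : s * c * s⁻¹ ∈ zpowers c) :
    ∀ n ∈ zpowers c, s * n * s⁻¹ ∈ zpowers c := by
  rintro _ ⟨j, rfl⟩
  show s * c ^ j * s⁻¹ ∈ zpowers c
  rw [← conj_zpow]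
  exact (zpowers c).zpow_mem h j

theorem ker_eq_bot_of_semidihedral {Γ : Type u} {G : Type v} [Group Γ] [Group G] [Finite Γ]
    {σ : Γ →* G} (hσ : Cfsg.IsStemExtension σ) (hexp : ∀ x ∈ σ.ker, x ^ 2 = 1)
    {a b : G} (ha : orderOf a = 8) (hb : b * b = 1) (hba : b * a * b⁻¹ = a ^ 3)
    (hG : ¬ 32 ∣ Nat.card G) : σ.ker = ⊥ := by
  haveI : Finite G := Finite.of_surjective σ hσ.1
  have hnb : b ∉ zpowers a := by
    rintro ⟨k, rfl⟩
    have h1 : a ^ k * a * (a ^ k)⁻¹ = a := by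
      rw [← zpow_add_one, add_comm, zpow_add, zpow_one, mul_inv_cancel_right]
    change a ^ k * a * (a ^ k)⁻¹ = a ^ 3 at hba
    rw [h1] at hba
    have h2 : a ^ 2 = 1 := by
      have : a * 1 = a * a ^ 2 := by rw [mul_one, ← pow_succ']; exact hba
      exact (mul_left_cancel this).symm
    have := orderOf_dvd_of_pow_eq_one h2
    rw [ha] at this
    norm_num at this
  obtain ⟨A, rfl⟩ := hσ.1 a
  obtain ⟨B, rfl⟩ := hσ.1 b
  have hc : σ.ker ≤ center Γ := hσ.2.1
  set ζ := (A ^ 3)⁻¹ * (B * A * B⁻¹) with hζ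
  have hζk : ζ ∈ σ.ker := by
    rw [MonoidHom.mem_ker, hζ]
    simp only [map_mul, map_inv, map_pow]
    rw [hba, inv_mul_cancel]
  have hζc : ∀ g : Γ, Commute ζ g := fun g => (mem_center_iff.1 (hc hζk) g).symm
  have hBA : B * A * B⁻¹ = A ^ 3 * ζ := by rw [hζ, mul_inv_cancel_left]
  have hBζ : B * ζ * B⁻¹ = ζ := by rw [← (hζc B).eq, mul_inv_cancel_right]
  set c := A ^ 2 * ζ with hcdef
  have hcomm1 : ⁅B, A⁆ = c := by
    rw [commutatorElement_def, hBA, hcdef, mul_assoc, (hζc A⁻¹).eq, ← mul_assoc]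
    congr 1
    group
  have hAc : A * c * A⁻¹ = c := by
    rw [hcdef, ← mul_assoc, mul_assoc, (hζc A⁻¹).eq, ← mul_assoc]
    congr 1
    group
  have hAζ3 : ∀ n k : ℕ, (A ^ n * ζ) ^ k = A ^ (n * k) * ζ ^ k := by
    intro n k
    rw [((hζc (A ^ n)).symm).mul_pow, ← pow_mul]
  have hBc : B * c * B⁻¹ = c ^ 3 := by
    have : B * c * B⁻¹ = (B * A * B⁻¹) ^ 2 * (B * ζ * B⁻¹) := by
      rw [hcdef, conj_pow]; group
    rw [this, hBA, hBζ, hAζ3, hcdef, hAζ3, mul_assoc, ← pow_succ]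
  have hc4 : c ^ 4 = 1 := by
    have hBB : B * B ∈ σ.ker := by rw [MonoidHom.mem_ker, map_mul, hb]
    have h1 : (B * B) * A * (B * B)⁻¹ = A := by
      rw [← mem_center_iff.1 (hc hBB) A, mul_inv_cancel_right]
    have h2 : (B * B) * A * (B * B)⁻¹ = B * (B * A * B⁻¹) * B⁻¹ := by group
    have h3 : B * (A ^ 3 * ζ) * B⁻¹ = (B * A * B⁻¹) ^ 3 * (B * ζ * B⁻¹) := by
      rw [conj_pow]; group
    rw [h2, hBA, h3, hBA, hBζ, hAζ3, mul_assoc, ← pow_succ] at h1
    rw [hcdef, hAζ3]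
    have h4 : A ^ (3 * 3) = A * A ^ (2 * 4) := by rw [← pow_succ']
    rw [h4, mul_assoc] at h1
    exact mul_eq_left.1 h1
  have hBc' : B⁻¹ * c * B = c ^ 3 := by
    have h1 : B * c ^ 3 * B⁻¹ = c := by
      rw [← conj_pow, hBc, ← pow_mul]
      calc c ^ (3 * 3) = (c ^ 4) ^ 2 * c := by rw [← pow_mul, ← pow_succ]
        _ = c := by rw [hc4, one_pow, one_mul]
    calc B⁻¹ * c * B = B⁻¹ * (B * c ^ 3 * B⁻¹) * B := by rw [h1]
      _ = c ^ 3 := by group
  have hAc' : A⁻¹ * c * A = c := by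
    nth_rewrite 1 [← hAc]; group
  have hσc : σ c = σ A ^ 2 := by
    rw [hcdef, map_mul, map_pow, MonoidHom.mem_ker.1 hζk, mul_one]
  apply ker_eq_bot_of_index_coprime hσ hexp ((closure (σ '' {A, B})).comap σ) (zpowers c)
  · intro x hx y hy
    apply commutator_mem_of_lifts σ hc (S := {A, B}) _ _ hx hy
    · intro s hs n hn
      rcases hs with rfl | rfl
      · refine ⟨conj_mem_zpowers (by rw [hAc]; exact mem_zpowers c) n hn, ?_⟩
        have := conj_mem_zpowers (s := s⁻¹) (c := c) (by rw [inv_inv, hAc']; exact mem_zpowers c) n hn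
        rwa [inv_inv] at this
      · refine ⟨conj_mem_zpowers (by rw [hBc]; exact (zpowers c).pow_mem (mem_zpowers c) 3) n hn, ?_⟩
        have := conj_mem_zpowers (s := s⁻¹) (c := c)
          (by rw [inv_inv, hBc']; exact (zpowers c).pow_mem (mem_zpowers c) 3) n hn
        rwa [inv_inv] at this
    · intro s hs t ht
      rcases hs with rfl | rfl <;> rcases ht with rfl | rfl
      · rw [commutatorElement_self]; exact one_mem _
      · rw [← commutatorElement_inv, hcomm1]; exact inv_mem (mem_zpowers c)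
      · rw [hcomm1]; exact mem_zpowers c
      · rw [commutatorElement_self]; exact one_mem _
  · rintro _ ⟨j, rfl⟩ hj
    change σ (c ^ j) = 1 at hj
    show c ^ j = 1
    rw [map_zpow, hσc, ← zpow_natCast, ← zpow_mul, ← orderOf_dvd_iff_zpow_eq_one, ha] at hj
    have h4 : (4 : ℤ) ∣ j := by
      push_cast at hj
      omega
    obtain ⟨k, rfl⟩ := h4
    rw [zpow_mul, zpow_ofNat, hc4, one_zpow]
  · rw [index_comap_of_surjective _ hσ.1, Set.image_pair]
    have hn : ∀ n ∈ zpowers (σ A), σ B * n * (σ B)⁻¹ ∈ zpowers (σ A) :=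
      conj_mem_zpowers (by rw [hba]; exact (zpowers _).pow_mem (mem_zpowers _) 3)
    have hx2 : σ B * σ B ∈ zpowers (σ A) := by rw [hb]; exact one_mem _
    have hcard := card_dbl (zpowers (σ A)) (σ B) hx2 hn hnb
    rw [Nat.card_zpowers, ha] at hcard
    have hle : dbl (zpowers (σ A)) (σ B) hx2 hn ≤ closure ({σ A, σ B} : Set G) := by
      have hA : zpowers (σ A) ≤ closure ({σ A, σ B} : Set G) := by
        rw [zpowers_le]; exact subset_closure (by simp)
      have hB : σ B ∈ closure ({σ A, σ B} : Set G) := subset_closure (by simp)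
      rintro y (hy | hy)
      · exact hA hy
      · have : y = σ B * ((σ B)⁻¹ * y) := by group
        rw [this]; exact mul_mem hB (hA hy)
    have h16 := Subgroup.card_dvd_of_le hle
    rw [hcard] at h16
    have hmul := (closure ({σ A, σ B} : Set G)).card_mul_index
    rw [Nat.Prime.coprime_iff_not_dvd (by norm_num)]
    intro h2
    apply hG
    rw [← hmul]
    exact Nat.mul_dvd_mul h16 h2

end Cfsg.Agent.Lib.Helper7
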