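import Cfsg.Agent.Lib.Helper7.Stem3

/-!
# Bounding Schur multipliers: a Sylow 2-subgroup `E : D8`

`E` elementary abelian all of whose involutions are conjugate, with an element `ω` of order 3 acting
fixed point freely on `E`, and a dihedral group of order 8 normalising `E` and `⟨ω⟩`.
-/

set_option autoImplicit false
set_option linter.style.haveILetI false

namespace Cfsg.Agent.Lib.Helper7

open Subgroup
open scoped commutatorElement

universe u v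

variable {Γ : Type u} {G : Type v} [Group Γ] [Group G]

/-- squares of lifts are constant on a conjugacy class of involutions -/
theorem sq_lift_const (σ : Γ →* G) (hc : σ.ker ≤ center Γ) (h2 : ∀ ζ ∈ σ.ker, ζ * ζ = 1)
    {X0 X K : Γ} (hX0 : σ (X0 * X0) = 1) (h : σ X = σ K * σ X0 * (σ K)⁻¹) : X * X = X0 * X0 := by
  set ζ := (K * X0 * K⁻¹)⁻¹ * X with hζ
  have hζk : ζ ∈ σ.ker := by
    rw [MonoidHom.mem_ker, hζ]
    simp only [map_mul, map_inv]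
    rw [h]; group
  have hX : X = K * X0 * K⁻¹ * ζ := by rw [hζ, mul_inv_cancel_left]
  have hζc : ∀ g : Γ, Commute ζ g := fun g => (mem_center_iff.1 (hc hζk) g).symm
  have hq : ∀ g : Γ, Commute (X0 * X0) g := fun g => (mem_center_iff.1 (hc hX0) g).symm
  calc X * X = K * X0 * K⁻¹ * ζ * (K * X0 * K⁻¹ * ζ) := by rw [← hX]
    _ = K * X0 * K⁻¹ * (ζ * (K * X0 * K⁻¹)) * ζ := by group
    _ = K * X0 * K⁻¹ * ((K * X0 * K⁻¹) * ζ) * ζ := by rw [(hζc _).eq]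
    _ = K * (X0 * X0) * K⁻¹ * (ζ * ζ) := by group
    _ = X0 * X0 := by rw [h2 ζ hζk, mul_one, ← (hq K).eq, mul_inv_cancel_right]

/-- if a class of involutions contains all the involutions of an elementary abelian group of order 8
then its elements lift to involutions -/
theorem sq_lift_eq_one (σ : Γ →* G) (hc : σ.ker ≤ center Γ) (h2 : ∀ ζ ∈ σ.ker, ζ * ζ = 1)
    {q X Y V : Γ} (hq : q ∈ σ.ker) (hX : X * X = q) (hY : Y * Y = q) (hV : V * V = q)
    (hXY : (X * Y) * (X * Y) = q) (hXV : (X * V) * (X * V) = q) (hYV : (Y * V) * (Y * V) = q)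
    (hXYV : (X * (Y * V)) * (X * (Y * V)) = q) : q = 1 := by
  have hqc : ∀ g : Γ, Commute q g := fun g => (mem_center_iff.1 (hc hq) g).symm
  have hqq := h2 q hq
  have key : ∀ A B : Γ, A * A = q → B * B = q → (A * B) * (A * B) = q → B * A = q * (A * B) := by
    intro A B hA hB hAB
    have h1 : A * ((A * B) * (A * B)) * B = (A * A) * (B * A) * (B * B) := by group
    rw [hAB, hA, hB] at h1
    have h3 : q * (A * B) = q * (B * A) * q := by
      rw [← h1, ← (hqc A).eq, mul_assoc]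
    rw [h3, mul_assoc, ← (hqc (B * A)).eq, ← mul_assoc, hqq, one_mul]
  have k1 := key X Y hX hY hXY
  have k2 := key X V hX hV hXV
  have k3 := key X (Y * V) hX hYV hXYV
  have h4 : Y * V * X = X * (Y * V) := by
    calc Y * V * X = Y * (V * X) := mul_assoc _ _ _
      _ = Y * (q * (X * V)) := by rw [k2]
      _ = q * (Y * X) * V := by rw [← mul_assoc, ← (hqc Y).eq]; group
      _ = q * (q * (X * Y)) * V := by rw [k1]
      _ = (q * q) * (X * (Y * V)) := by group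
      _ = X * (Y * V) := by rw [hqq, one_mul]
  rw [h4] at k3
  exact (mul_eq_right.1 k3.symm)

/-- hypotheses on the elementary abelian group `E` and the lift `w` of the element of order 3 -/
structure EHyp (σ : Γ →* G) (E : Subgroup G) (w : Γ) : Prop where
  hc : σ.ker ≤ center Γ
  h2 : ∀ ζ ∈ σ.ker, ζ * ζ = 1
  hE : ∀ X, σ X ∈ E → X * X = 1
  hw : ∀ e ∈ E, σ w * e * (σ w)⁻¹ ∈ E ∧ (σ w)⁻¹ * e * σ w ∈ E
  hT : ∀ e ∈ E, e * (σ w * e * (σ w)⁻¹) * ((σ w)⁻¹ * e * σ w) = 1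

/-- the "trace" map -/
def Tm (w X : Γ) : Γ := X * (w * X * w⁻¹) * (w⁻¹ * X * w)

namespace EHyp

variable {σ : Γ →* G} {E : Subgroup G} {w : Γ}

theorem comm (h : EHyp σ E w) {X Y : Γ} (hX : σ X ∈ E) (hY : σ Y ∈ E) : Commute X Y := by
  have h1 := h.hE X hX
  have h2 := h.hE Y hY
  have h3 := h.hE (X * Y) (by rw [map_mul]; exact E.mul_mem hX hY)
  show X * Y = Y * X
  calc X * Y = (Y * Y) * (X * Y) * (X * X) := by rw [h1, h2, one_mul, mul_one]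
    _ = Y * (Y * X) * (Y * X) * X := by group
    _ = Y * ((X * Y) * (X * Y))⁻¹ * X := by
      have e1 : X⁻¹ = X := inv_eq_of_mul_eq_one_right h1
      have e2 : Y⁻¹ = Y := inv_eq_of_mul_eq_one_right h2
      rw [mul_inv_rev, mul_inv_rev, e1, e2]; group
    _ = Y * X := by rw [h3, inv_one, mul_one]

theorem mem1 (h : EHyp σ E w) {X : Γ} (hX : σ X ∈ E) : σ (w * X * w⁻¹) ∈ E := by
  simp only [map_mul, map_inv]; exact (h.hw _ hX).1

theorem mem2 (h : EHyp σ E w) {X : Γ} (hX : σ X ∈ E) : σ (w⁻¹ * X * w) ∈ E := by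
  simp only [map_mul, map_inv]; exact (h.hw _ hX).2

theorem Tm_mul (h : EHyp σ E w) {X Y : Γ} (hX : σ X ∈ E) (hY : σ Y ∈ E) :
    Tm w (X * Y) = Tm w X * Tm w Y := by
  unfold Tm
  have e1 : w * (X * Y) * w⁻¹ = (w * X * w⁻¹) * (w * Y * w⁻¹) := by group
  have e2 : w⁻¹ * (X * Y) * w = (w⁻¹ * X * w) * (w⁻¹ * Y * w) := by group
  rw [e1, e2, (h.comm hY (h.mem1 hX)).mul_mul_mul_comm]
  have c : Commute (Y * (w * Y * w⁻¹)) (w⁻¹ * X * w) :=
    (h.comm hY (h.mem2 hX)).mul_left (h.comm (h.mem1 hY) (h.mem2 hX))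
  rw [c.mul_mul_mul_comm]

theorem Tm_ker (h : EHyp σ E w) {ζ : Γ} (hζ : ζ ∈ σ.ker) : Tm w ζ = ζ := by
  unfold Tm
  have hc := mem_center_iff.1 (h.hc hζ)
  rw [hc w, mul_inv_cancel_right, hc w⁻¹, inv_mul_cancel_right, h.h2 ζ hζ, one_mul]

theorem Tm_mem_ker (h : EHyp σ E w) {X : Γ} (hX : σ X ∈ E) : Tm w X ∈ σ.ker := by
  rw [MonoidHom.mem_ker]
  unfold Tm
  simp only [map_mul, map_inv]
  exact h.hT _ hX

/-- the canonical complement to the kernel in the preimage of `E` -/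
def E0 (h : EHyp σ E w) : Subgroup Γ where
  carrier := {X | σ X ∈ E ∧ Tm w X = 1}
  one_mem' := ⟨by rw [map_one]; exact E.one_mem, by simp [Tm]⟩
  mul_mem' := by
    rintro X Y ⟨hX, hX'⟩ ⟨hY, hY'⟩
    exact ⟨by rw [map_mul]; exact E.mul_mem hX hY, by rw [h.Tm_mul hX hY, hX', hY', one_mul]⟩
  inv_mem' := by
    rintro X ⟨hX, hX'⟩
    have e1 : X⁻¹ = X := inv_eq_of_mul_eq_one_right (h.hE X hX)
    rw [e1]
    exact ⟨hX, hX'⟩

theorem mem_E0 (h : EHyp σ E w) {X : Γ} : X ∈ h.E0 ↔ σ X ∈ E ∧ Tm w X = 1 := Iff.rfl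

theorem E0_inj (h : EHyp σ E w) : ∀ X ∈ h.E0, σ X = 1 → X = 1 := by
  rintro X ⟨_, hX⟩ h1
  rw [h.Tm_ker h1] at hX
  exact hX

theorem E0_surj (h : EHyp σ E w) {X : Γ} (hX : σ X ∈ E) : ∃ Y ∈ h.E0, σ Y = σ X := by
  have hk := h.Tm_mem_ker hX
  have hk' : σ (Tm w X) ∈ E := by rw [MonoidHom.mem_ker.1 hk]; exact E.one_mem
  refine ⟨X * Tm w X, ⟨by rw [map_mul]; exact E.mul_mem hX hk', ?_⟩, ?_⟩
  · rw [h.Tm_mul hX hk', h.Tm_ker hk, h.h2 _ hk]
  · rw [map_mul, MonoidHom.mem_ker.1 hk, mul_one]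

theorem map_E0 (h : EHyp σ E w) (hs : Function.Surjective σ) : h.E0.map σ = E := by
  apply le_antisymm
  · rintro _ ⟨X, hX, rfl⟩
    exact hX.1
  · intro e he
    obtain ⟨X, rfl⟩ := hs e
    obtain ⟨Y, hY, hYX⟩ := h.E0_surj he
    exact ⟨Y, hY, hYX⟩

/-- invariance of `E0` -/
theorem E0_conj (h : EHyp σ E w) {d : Γ} (hd : ∀ e ∈ E, σ d * e * (σ d)⁻¹ ∈ E)
    (hdw : (σ d)⁻¹ * σ w * σ d = σ w ∨ (σ d)⁻¹ * σ w * σ d = (σ w)⁻¹) :
    ∀ X ∈ h.E0, d * X * d⁻¹ ∈ h.E0 := by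
  rintro X ⟨hX, hX'⟩
  refine ⟨by simp only [map_mul, map_inv]; exact hd _ hX, ?_⟩
  set v := d⁻¹ * w * d with hv
  have e0 : Tm w (d * X * d⁻¹) = d * (X * (v * X * v⁻¹) * (v⁻¹ * X * v)) * d⁻¹ := by
    unfold Tm; rw [hv]; group
  have conj_eq : ∀ u : Γ, σ v = σ u → v * X * v⁻¹ = u * X * u⁻¹ ∧ v⁻¹ * X * v = u⁻¹ * X * u := by
    intro u hu
    set ζ := u⁻¹ * v with hζ
    have hζk : ζ ∈ σ.ker := by
      rw [MonoidHom.mem_ker, hζ, map_mul, map_inv, hu, inv_mul_cancel]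
    have hvu : v = u * ζ := by rw [hζ, mul_inv_cancel_left]
    have hcz := mem_center_iff.1 (h.hc hζk)
    constructor
    · rw [hvu, mul_inv_rev, mul_assoc u ζ X, ← hcz X]; group
    · calc v⁻¹ * X * v = ζ⁻¹ * (u⁻¹ * X * u * ζ) := by rw [hvu]; group
        _ = ζ⁻¹ * (ζ * (u⁻¹ * X * u)) := by rw [hcz]
        _ = u⁻¹ * X * u := by group
  have hσv : σ v = (σ d)⁻¹ * σ w * σ d := by rw [hv]; simp only [map_mul, map_inv]
  rw [e0]
  rcases hdw with hdw | hdw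
  · obtain ⟨c1, c2⟩ := conj_eq w (by rw [hσv, hdw])
    rw [c1, c2]
    have : X * (w * X * w⁻¹) * (w⁻¹ * X * w) = 1 := hX'
    rw [this]; group
  · obtain ⟨c1, c2⟩ := conj_eq w⁻¹ (by rw [hσv, hdw, map_inv])
    rw [c1, c2, inv_inv, mul_assoc X, (h.comm (h.mem2 hX) (h.mem1 hX)).eq, ← mul_assoc X]
    have : X * (w * X * w⁻¹) * (w⁻¹ * X * w) = 1 := hX'
    rw [this]; group

theorem card_E0 (h : EHyp σ E w) (hs : Function.Surjective σ) : Nat.card h.E0 = Nat.card E := by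
  let f : h.E0 → E := fun X => ⟨σ X, X.2.1⟩
  apply Nat.card_congr (Equiv.ofBijective f ⟨?_, ?_⟩)
  · intro X Y hXY
    have h1 : σ X = σ Y := congrArg Subtype.val hXY
    have h2 : (X : Γ) * (Y : Γ)⁻¹ = 1 :=
      h.E0_inj _ (h.E0.mul_mem X.2 (h.E0.inv_mem Y.2)) (by rw [map_mul, map_inv, h1, mul_inv_cancel])
    exact Subtype.ext (mul_inv_eq_one.1 h2)
  · rintro ⟨e, he⟩
    obtain ⟨X, rfl⟩ := hs e
    obtain ⟨Y, hY, hYX⟩ := h.E0_surj he
    exact ⟨⟨Y, hY⟩, Subtype.ext hYX⟩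

end EHyp

end Cfsg.Agent.Lib.Helper7
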