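import Cfsg.Agent.Lib.Helper7.Stem3

/-!
# Bounding Schur multipliers: doubly transitive groups

`G = H ∪ H t H`, `H = D ∪ D s D`, with `s, t` involutions generating `S3`.  If the extension splits
over `H` (compatibly with conjugation by a lift of `t` on the preimage of `D`) it splits over `G`.
-/

set_option autoImplicit false
set_option linter.style.haveILetI false

namespace Cfsg.Agent.Lib.Helper7

open Subgroup
open scoped commutatorElement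

universe u v

variable {Γ : Type u} {P : Type v} [Group Γ] [Group P]

/-- the subgroup `H1 ∪ H1 T H1` -/
def dcSub (H1 : Subgroup Γ) (T : Γ) (hTT : T * T ∈ H1)
    (key : ∀ h ∈ H1, T * h * T ∈ H1 ∨ ∃ a ∈ H1, ∃ b ∈ H1, T * h * T = a * T * b) : Subgroup Γ where
  carrier := {y | y ∈ H1 ∨ ∃ a ∈ H1, ∃ b ∈ H1, y = a * T * b}
  one_mem' := Or.inl H1.one_mem
  mul_mem' := by
    rintro x y (hx | ⟨a, ha, b, hb, rfl⟩) (hy | ⟨a', ha', b', hb', rfl⟩)
    · exact Or.inl (H1.mul_mem hx hy)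
    · exact Or.inr ⟨x * a', H1.mul_mem hx ha', b', hb', by group⟩
    · exact Or.inr ⟨a, ha, b * y, H1.mul_mem hb hy, by group⟩
    · rcases key (b * a') (H1.mul_mem hb ha') with h | ⟨c, hc, d, hd, h⟩
      · left
        have : a * T * b * (a' * T * b') = a * (T * (b * a') * T) * b' := by group
        rw [this]
        exact H1.mul_mem (H1.mul_mem ha h) hb'
      · right
        refine ⟨a * c, H1.mul_mem ha hc, d * b', H1.mul_mem hd hb', ?_⟩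
        have : a * T * b * (a' * T * b') = a * (T * (b * a') * T) * b' := by group
        rw [this, h]; group
  inv_mem' := by
    rintro x (hx | ⟨a, ha, b, hb, rfl⟩)
    · exact Or.inl (H1.inv_mem hx)
    · right
      refine ⟨b⁻¹, H1.inv_mem hb, (T * T)⁻¹ * a⁻¹, H1.mul_mem (H1.inv_mem hTT) (H1.inv_mem ha), ?_⟩
      group

/-- **Doubly transitive groups.** -/
theorem ker_le_of_double_coset (τ : Γ →* P) (hc : τ.ker ≤ center Γ) (hk : τ.ker ≤ commutator Γ)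
    (H D : Subgroup P) (s t : P) (ht : t ∉ H)
    (hgen : ∀ x : Γ, τ x ∈ H ∨ ∃ a ∈ H, ∃ b ∈ H, τ x = a * t * b)
    (hHD : ∀ h ∈ H, h ∈ D ∨ ∃ a ∈ D, ∃ b ∈ D, h = a * s * b)
    (H1 : Subgroup Γ) (hH1 : ∀ h ∈ H, ∃ X ∈ H1, τ X = h) (hH1' : ∀ X ∈ H1, τ X ∈ H)
    (hDH : D ≤ H)
    (S T : Γ) (hS : S ∈ H1) (hσS : τ S = s) (hσT : τ T = t)
    (hTT : T * T ∈ H1) (hTST : ∃ a ∈ H1, ∃ b ∈ H1, T * S * T = a * T * b)
    (hD : ∀ X ∈ H1, τ X ∈ D → T * X * T⁻¹ ∈ H1 ∧ T⁻¹ * X * T ∈ H1) : τ.ker ≤ H1 := by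
  have key : ∀ h ∈ H1, T * h * T ∈ H1 ∨ ∃ a ∈ H1, ∃ b ∈ H1, T * h * T = a * T * b := by
    intro h hh
    rcases hHD _ (hH1' h hh) with h1 | ⟨d1, hd1, d2, hd2, h1⟩
    · left
      have : T * h * T = (T * h * T⁻¹) * (T * T) := by group
      rw [this]
      exact H1.mul_mem (hD h hh h1).1 hTT
    · right
      obtain ⟨X1, hX1, hX1'⟩ := hH1 d1 (hDH hd1)
      set X2 := (X1 * S)⁻¹ * h with hX2
      have hX2m : X2 ∈ H1 := H1.mul_mem (H1.inv_mem (H1.mul_mem hX1 hS)) hh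
      have hX2' : τ X2 = d2 := by
        rw [hX2, map_mul, map_inv, map_mul, hX1', hσS, h1]; group
      obtain ⟨a, ha, b, hb, hab⟩ := hTST
      refine ⟨(T * X1 * T⁻¹) * a, H1.mul_mem (hD X1 hX1 (hX1' ▸ hd1)).1 ha,
        b * (T⁻¹ * X2 * T), H1.mul_mem hb (hD X2 hX2m (hX2' ▸ hd2)).2, ?_⟩
      have e1 : h = X1 * S * X2 := by rw [hX2, mul_inv_cancel_left]
      calc T * h * T = (T * X1 * T⁻¹) * (T * S * T) * (T⁻¹ * X2 * T) := by rw [e1]; group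
        _ = T * X1 * T⁻¹ * a * T * (b * (T⁻¹ * X2 * T)) := by rw [hab]; group
  set Γ0 := dcSub H1 T hTT key with hΓ0
  have hlift : ∀ x : Γ, ∃ y ∈ Γ0, τ y = τ x := by
    intro x
    rcases hgen x with h | ⟨a, ha, b, hb, h⟩
    · obtain ⟨X, hX, hX'⟩ := hH1 _ h
      exact ⟨X, Or.inl hX, hX'⟩
    · obtain ⟨A, hA, hA'⟩ := hH1 a ha
      obtain ⟨B, hB, hB'⟩ := hH1 b hb
      exact ⟨A * T * B, Or.inr ⟨A, hA, B, hB, rfl⟩, by rw [map_mul, map_mul, hA', hB', hσT, h]⟩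
  have hcomm : commutator Γ ≤ Γ0 := by
    rw [commutator_def, Subgroup.commutator_le]
    intro x _ y _
    obtain ⟨x', hx', hxx⟩ := hlift x
    obtain ⟨y', hy', hyy⟩ := hlift y
    rw [Cfsg.Agent.Lib.Helper66.commutatorElement_eq_of_central τ hc hxx.symm hyy.symm,
      commutatorElement_def]
    exact Γ0.mul_mem (Γ0.mul_mem (Γ0.mul_mem hx' hy') (Γ0.inv_mem hx')) (Γ0.inv_mem hy')
  intro z hz
  rcases hcomm (hk hz) with h | ⟨a, ha, b, hb, h⟩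
  · exact h
  · exfalso
    apply ht
    have h1 : τ z = 1 := hz
    rw [h, map_mul, map_mul, hσT] at h1
    have h2 : t = (τ a)⁻¹ * (τ b)⁻¹ := by
      calc t = (τ a)⁻¹ * (τ a * t * τ b) * (τ b)⁻¹ := by group
        _ = (τ a)⁻¹ * (τ b)⁻¹ := by rw [h1, mul_one]
    rw [h2]
    exact H.mul_mem (H.inv_mem (hH1' a ha)) (H.inv_mem (hH1' b hb))

/-- adjusting the lift of `t` : the group `S3` has trivial multiplier -/
theorem exists_lift_S3 (τ : Γ →* P) (hc : τ.ker ≤ center Γ) {S T0 : Γ} (hSS : S * S = 1)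
    (hT : τ (T0 * T0) = 1) (hTS : τ ((T0 * S) ^ 3) = 1) :
    ∃ T, τ T = τ T0 ∧ T * T = 1 ∧ T * S * T = S * T * S := by
  set ξ := T0 * T0 with hξ
  set ζ := (T0 * S) ^ 3 with hζ
  have hξc : ∀ g : Γ, Commute ξ g := fun g => (mem_center_iff.1 (hc hT) g).symm
  have hζc : ∀ g : Γ, Commute ζ g := fun g => (mem_center_iff.1 (hc hTS) g).symm
  have eS : S⁻¹ = S := inv_eq_of_mul_eq_one_right hSS
  -- `ζ ^ 2 = ξ ^ 3`
  have h1 : T0 * (T0 * S) * T0⁻¹ = (T0 * S)⁻¹ * ξ := by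
    calc T0 * (T0 * S) * T0⁻¹ = ξ * (S * T0⁻¹) := by rw [hξ]; group
      _ = (S * T0⁻¹) * ξ := (hξc _).eq
      _ = (T0 * S)⁻¹ * ξ := by rw [mul_inv_rev, eS]
  have h2 : ζ = ζ⁻¹ * ξ ^ 3 := by
    have e1 : T0 * ζ * T0⁻¹ = ζ := by rw [← (hζc T0).eq, mul_inv_cancel_right]
    have e2 : T0 * ζ * T0⁻¹ = (T0 * (T0 * S) * T0⁻¹) ^ 3 := by rw [hζ, conj_pow]
    rw [e1, h1, ((hξc _).symm).mul_pow, inv_pow, ← hζ] at e2
    exact e2
  have h3 : ζ * ζ = ξ ^ 3 := by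
    calc ζ * ζ = ζ * (ζ⁻¹ * ξ ^ 3) := by rw [← h2]
      _ = ξ ^ 3 := by group
  set c := ξ * ζ⁻¹ with hcdef
  have hcc : ∀ g : Γ, Commute c g := fun g => (hξc g).mul_left ((hζc g).inv_left)
  have hξζ : Commute ξ ζ⁻¹ := hξc _
  have hck : τ c = 1 := by rw [hcdef, map_mul, map_inv, hT, hTS]; simp
  have hTT : (T0 * c) * (T0 * c) = 1 := by
    calc (T0 * c) * (T0 * c) = T0 * (c * T0) * c := by group
      _ = T0 * (T0 * c) * c := by rw [(hcc T0).eq]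
      _ = ξ * (c * c) := by rw [hξ]; group
      _ = ξ * ((ξ * ξ) * (ζ * ζ)⁻¹) := by
        rw [hcdef, hξζ.symm.mul_mul_mul_comm, mul_inv_rev]
      _ = 1 := by rw [h3]; group
  have hTS3 : ((T0 * c) * S) ^ 3 = 1 := by
    have e1 : (T0 * c) * S = (T0 * S) * c := by rw [mul_assoc, (hcc S).eq, ← mul_assoc]
    rw [e1, ((hcc _).symm).mul_pow, ← hζ, hcdef, hξζ.mul_pow, ← h3]
    group
  refine ⟨T0 * c, by rw [map_mul, hck, mul_one], hTT, ?_⟩
  set T := T0 * c with hTdef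
  have eT : T⁻¹ = T := inv_eq_of_mul_eq_one_right hTT
  have : T * S * T * (S * T * S)⁻¹ = 1 := by
    rw [mul_inv_rev, mul_inv_rev, eS, eT]
    calc T * S * T * (S * (T * S)) = (T * S) ^ 3 := by rw [pow_succ, pow_two]; group
      _ = 1 := hTS3
  exact mul_inv_eq_one.1 this

/-- conjugation by a lift of an element normalising a perfect subgroup `D` preserves the lift of `D` -/
theorem conj_mem_of_perfect (τ : Γ →* P) (hc : τ.ker ≤ center Γ) (D : Subgroup P)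
    (hDp : ⁅D, D⁆ = D) (H1 : Subgroup Γ) (hinj : ∀ X ∈ H1, τ X = 1 → X = 1)
    (hsurj : ∀ d ∈ D, ∃ X ∈ H1, τ X = d) {T : Γ} (hT : ∀ d ∈ D, τ T * d * (τ T)⁻¹ ∈ D) :
    ∀ X ∈ H1, τ X ∈ D → T * X * T⁻¹ ∈ H1 := by
  set D1 := H1 ⊓ D.comap τ with hD1
  have hmap : D1.map τ = D := by
    apply le_antisymm
    · rintro _ ⟨X, hX, rfl⟩
      exact hX.2
    · intro d hd
      obtain ⟨X, hX, rfl⟩ := hsurj d hd
      exact ⟨X, ⟨hX, hd⟩, rfl⟩
  have hself : ⁅D1, D1⁆ ≤ D1 := by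
    rw [Subgroup.commutator_le]
    intro a ha b hb
    rw [commutatorElement_def]
    exact D1.mul_mem (D1.mul_mem (D1.mul_mem ha hb) (D1.inv_mem ha)) (D1.inv_mem hb)
  have hperf : D1 ≤ ⁅D1, D1⁆ := by
    intro X hX
    have h1 : τ X ∈ (⁅D1, D1⁆).map τ := by
      rw [Subgroup.map_commutator, hmap, hDp]; exact hX.2
    obtain ⟨Y, hY, hYX⟩ := h1
    have hY1 : Y ∈ D1 := hself hY
    have : X * Y⁻¹ = 1 := hinj _ (H1.mul_mem hX.1 (H1.inv_mem hY1.1))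
      (by rw [map_mul, map_inv, hYX, mul_inv_cancel])
    rw [mul_inv_eq_one.1 this]
    exact hY
  have hconj : ⁅D1, D1⁆ ≤ D1.comap (MulAut.conj T).toMonoidHom := by
    rw [Subgroup.commutator_le]
    intro a ha b hb
    rw [mem_comap]
    show T * ⁅a, b⁆ * T⁻¹ ∈ D1
    have e1 : T * ⁅a, b⁆ * T⁻¹ = ⁅T * a * T⁻¹, T * b * T⁻¹⁆ := by
      simp only [commutatorElement_def]; group
    obtain ⟨a', ha', haa⟩ := hsurj _ (hT _ ha.2)
    obtain ⟨b', hb', hbb⟩ := hsurj _ (hT _ hb.2)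
    have ha'' : a' ∈ D1 := ⟨ha', by show τ a' ∈ D; rw [haa]; exact hT _ ha.2⟩
    have hb'' : b' ∈ D1 := ⟨hb', by show τ b' ∈ D; rw [hbb]; exact hT _ hb.2⟩
    rw [e1, Cfsg.Agent.Lib.Helper66.commutatorElement_eq_of_central τ hc (x' := a') (y' := b')
      (by rw [haa]; simp only [map_mul, map_inv]) (by rw [hbb]; simp only [map_mul, map_inv])]
    exact hself (Subgroup.commutator_mem_commutator ha'' hb'')
  intro X hX hXD
  exact (hconj (hperf ⟨hX, hXD⟩)).1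

end Cfsg.Agent.Lib.Helper7
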