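import Cfsg.Agent.Lib.Helper7.MultM24

/-!
# Bounding Schur multipliers: doubly transitive groups whose two point stabiliser has a derived
subgroup of index at most two
-/

set_option autoImplicit false
set_option linter.style.haveILetI false

namespace Cfsg.Agent.Lib.Helper7

open Subgroup
open scoped commutatorElement

universe u v

/-- a doubly transitive group whose point stabiliser is perfect with trivial multiplier and whose
two point stabiliser `D` has `|D : D'| ≤ 2` has a multiplier of order at most two -/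
theorem ker_le_two_of_two_transitive {Γ : Type u} {P : Type v} [Group Γ] [Group P] (τ : Γ →* P)
    (hc : τ.ker ≤ center Γ) (hk : τ.ker ≤ commutator Γ) (H D : Subgroup P) (s t : P) (ht : t ∉ H)
    (hgen : ∀ x : Γ, τ x ∈ H ∨ ∃ a ∈ H, ∃ b ∈ H, τ x = a * t * b)
    (hHD : ∀ h ∈ H, h ∈ D ∨ ∃ a ∈ D, ∃ b ∈ D, h = a * s * b) (hDH : D ≤ H)
    (hHr : ∀ h ∈ H, ∃ x, τ x = h) (htr : ∃ x, τ x = t)
    (hmult : Cfsg.HasCyclicSchurMultiplier H 1) (hperfH : commutator H = ⊤)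
    (x0 : P) (hx0 : x0 ∈ D) (hD2 : ∀ d ∈ D, d ∈ ⁅D, D⁆ ∨ x0⁻¹ * d ∈ ⁅D, D⁆)
    (hs : s ∈ H) (hss : s * s = 1) (htt : t * t = 1) (hts : (t * s) ^ 3 = 1)
    (htD : ∀ d ∈ D, t * d * t⁻¹ ∈ D) :
    ∃ κ : Γ, κ * κ = 1 ∧ ∀ z ∈ τ.ker, z = 1 ∨ z = κ := by
  obtain ⟨H0, hinj, hsurj, hmem⟩ := exists_complement_of_trivial τ hc H hHr hmult hperfH
  obtain ⟨S, hS, hσS⟩ := hsurj s hs
  obtain ⟨T0, hT0⟩ := htr
  have hSS : S * S = 1 := hinj _ (H0.mul_mem hS hS) (by rw [map_mul, hσS, hss])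
  obtain ⟨T, hσT, hTT, hTST⟩ := exists_lift_S3 τ hc hSS (T0 := T0) (by rw [map_mul, hT0, htt])
    (by rw [map_pow, map_mul, hT0, hσS, hts])
  rw [hT0] at hσT
  have eT : T⁻¹ = T := inv_eq_of_mul_eq_one_right hTT
  set D1 := H0 ⊓ D.comap τ with hD1
  have hmap : D1.map τ = D := by
    apply le_antisymm
    · rintro _ ⟨X, hX, rfl⟩
      exact hX.2
    · intro d hd
      obtain ⟨X, hX, rfl⟩ := hsurj d (hDH hd)
      exact ⟨X, ⟨hX, hd⟩, rfl⟩
  have hself : ⁅D1, D1⁆ ≤ D1 := by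
    rw [Subgroup.commutator_le]
    intro a ha b hb
    rw [commutatorElement_def]
    exact D1.mul_mem (D1.mul_mem (D1.mul_mem ha hb) (D1.inv_mem ha)) (D1.inv_mem hb)
  -- Claim A
  have hA : ∀ X ∈ H0, τ X ∈ ⁅D, D⁆ → X ∈ ⁅D1, D1⁆ := by
    intro X hX hXK
    have h1 : τ X ∈ (⁅D1, D1⁆).map τ := by
      rw [Subgroup.map_commutator, hmap]; exact hXK
    obtain ⟨Y, hY, hYX⟩ := h1
    have hY1 : Y ∈ D1 := hself hY
    have : X * Y⁻¹ = 1 := hinj _ (H0.mul_mem hX (H0.inv_mem hY1.1))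
      (by rw [map_mul, map_inv, hYX, mul_inv_cancel])
    rw [mul_inv_eq_one.1 this]
    exact hY
  -- Claim B
  have hB : ⁅D1, D1⁆ ≤ D1.comap (MulAut.conj T).toMonoidHom := by
    rw [Subgroup.commutator_le]
    intro a ha b hb
    rw [mem_comap]
    show T * ⁅a, b⁆ * T⁻¹ ∈ D1
    have e1 : T * ⁅a, b⁆ * T⁻¹ = ⁅T * a * T⁻¹, T * b * T⁻¹⁆ := by
      simp only [commutatorElement_def]; group
    obtain ⟨a', ha', haa⟩ := hsurj _ (hDH (htD _ ha.2))
    obtain ⟨b', hb', hbb⟩ := hsurj _ (hDH (htD _ hb.2))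
    have ha'' : a' ∈ D1 := ⟨ha', by show τ a' ∈ D; rw [haa]; exact htD _ ha.2⟩
    have hb'' : b' ∈ D1 := ⟨hb', by show τ b' ∈ D; rw [hbb]; exact htD _ hb.2⟩
    rw [e1, Cfsg.Agent.Lib.Helper66.commutatorElement_eq_of_central τ hc (x' := a') (y' := b')
      (by rw [haa]; simp only [map_mul, map_inv, hσT])
      (by rw [hbb]; simp only [map_mul, map_inv, hσT])]
    exact hself (Subgroup.commutator_mem_commutator ha'' hb'')
  have hB' : ∀ X ∈ H0, τ X ∈ ⁅D, D⁆ → T * X * T⁻¹ ∈ H0 := fun X hX hXK => (hB (hA X hX hXK)).1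
  obtain ⟨X0, hX0, hσX0⟩ := hsurj x0 (hDH hx0)
  obtain ⟨Y0, hY0, hσY0⟩ := hsurj _ (hDH (htD x0 hx0))
  set κ := T * X0 * T⁻¹ * Y0⁻¹ with hκ
  have hκk : τ κ = 1 := by
    rw [hκ, map_mul, map_inv, hσY0, map_mul, map_mul, map_inv, hσT, hσX0, mul_inv_cancel]
  have hκc : ∀ g : Γ, Commute κ g := fun g => (mem_center_iff.1 (hc hκk) g).symm
  have hx2 : x0 * x0 ∈ ⁅D, D⁆ := by
    rcases hD2 _ (D.mul_mem hx0 hx0) with h | h
    · exact h
    · rw [inv_mul_cancel_left] at h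
      exact (⁅D, D⁆).mul_mem h h
  have eTX : T * X0 * T⁻¹ = κ * Y0 := by rw [hκ, inv_mul_cancel_right]
  have hκ2 : κ * κ = 1 := by
    apply hinj
    · have h1 := hB' (X0 * X0) (H0.mul_mem hX0 hX0) (by rw [map_mul, hσX0]; exact hx2)
      have h2 : T * (X0 * X0) * T⁻¹ = κ * κ * (Y0 * Y0) := by
        calc T * (X0 * X0) * T⁻¹ = (T * X0 * T⁻¹) * (T * X0 * T⁻¹) := by group
          _ = κ * (Y0 * κ) * Y0 := by rw [eTX]; group
          _ = κ * (κ * Y0) * Y0 := by rw [(hκc Y0).eq]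
          _ = κ * κ * (Y0 * Y0) := by group
      have h3 : κ * κ = T * (X0 * X0) * T⁻¹ * (Y0 * Y0)⁻¹ := by rw [h2, mul_inv_cancel_right]
      rw [h3]
      exact H0.mul_mem h1 (H0.inv_mem (H0.mul_mem hY0 hY0))
    · rw [map_mul, hκk, one_mul]
  have hn : ∀ n ∈ H0, κ * n * κ⁻¹ ∈ H0 := by
    intro n hn
    rw [(hκc n).eq, mul_inv_cancel_right]
    exact hn
  have hκ2' : κ * κ ∈ H0 := by rw [hκ2]; exact H0.one_mem
  set H1 := dbl H0 κ hκ2' hn with hH1
  have hle0 : H0 ≤ H1 := le_dbl _ _ _ _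
  have hκH1 : κ ∈ H1 := self_mem_dbl _ _ _ _
  have hconj0 : ∀ X ∈ H0, τ X ∈ D → T * X * T⁻¹ ∈ H1 := by
    intro X hX hXD
    rcases hD2 _ hXD with h | h
    · exact hle0 (hB' X hX h)
    · have h1 := hB' (X0⁻¹ * X) (H0.mul_mem (H0.inv_mem hX0) hX)
        (by rw [map_mul, map_inv, hσX0]; exact h)
      have h2 : T * X * T⁻¹ = (T * X0 * T⁻¹) * (T * (X0⁻¹ * X) * T⁻¹) := by group
      rw [h2, eTX]
      exact H1.mul_mem (H1.mul_mem hκH1 (hle0 hY0)) (hle0 h1)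
  have hconj : ∀ X ∈ H1, τ X ∈ D → T * X * T⁻¹ ∈ H1 := by
    rintro X (hX | hX) hXD
    · exact hconj0 X hX hXD
    · have h1 := hconj0 _ hX (by rw [map_mul, map_inv, hκk, inv_one, one_mul]; exact hXD)
      have h2 : T * X * T⁻¹ = T * κ * (κ⁻¹ * X) * T⁻¹ := by group
      rw [h2, ← (hκc T).eq]
      have h3 : κ * T * (κ⁻¹ * X) * T⁻¹ = κ * (T * (κ⁻¹ * X) * T⁻¹) := by group
      rw [h3]
      exact H1.mul_mem hκH1 h1
  have hle := ker_le_of_double_coset τ hc hk H D s t ht hgen hHD H1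
    (fun h hh => by
      obtain ⟨X, hX, hX'⟩ := hsurj h hh
      exact ⟨X, hle0 hX, hX'⟩)
    (by
      rintro X (hX | hX)
      · exact hmem X hX
      · have := hmem _ hX
        rwa [map_mul, map_inv, hκk, inv_one, one_mul] at this)
    hDH S T (hle0 hS) hσS hσT
    (by rw [hTT]; exact H1.one_mem) ⟨S, hle0 hS, S, hle0 hS, hTST⟩
    (fun X hX hXD => ⟨hconj X hX hXD, by
      have := hconj X hX hXD
      rw [eT] at this ⊢
      exact this⟩)
  refine ⟨κ, hκ2, ?_⟩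
  intro z hz
  rcases hle hz with h | h
  · exact Or.inl (hinj z h hz)
  · right
    have h1 : κ⁻¹ * z = 1 := hinj _ h (by
      rw [map_mul, map_inv, hκk, inv_one, one_mul]; exact hz)
    exact (inv_mul_eq_one.1 h1).symm

/-- a group with at most the elements `1, κ` is cyclic of order dividing two -/
theorem cyclic_of_two {K : Type u} [Group K] (κ : K) (h2 : κ * κ = 1)
    (h : ∀ z : K, z = 1 ∨ z = κ) : IsCyclic K ∧ Nat.card K ∣ 2 := by
  have hcyc : IsCyclic K := by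
    refine ⟨κ, fun z => ?_⟩
    rcases h z with rfl | rfl
    · exact (zpowers κ).one_mem
    · exact mem_zpowers _
  refine ⟨hcyc, ?_⟩
  have h1 : Nat.card K = orderOf κ := by
    rw [← Nat.card_zpowers]
    have : zpowers κ = ⊤ := by
      rw [eq_top_iff]
      intro z _
      rcases h z with rfl | rfl
      · exact (zpowers κ).one_mem
      · exact mem_zpowers _
    rw [this, Subgroup.card_top]
  rw [h1]
  exact orderOf_dvd_of_pow_eq_one (by rw [pow_two, h2])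

end Cfsg.Agent.Lib.Helper7
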